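import Cfsg.Agent.FI.Defs

/-! Generic lemmas on closed sets of 3-transpositions. -/

set_option autoImplicit false

namespace CfsgFI

open Subgroup CfsgH4

variable {G : Type*} [Group G]

namespace TS

variable {E : Set G} (T : TS E)
include T

theorem sq {a : G} (ha : a ∈ E) : a * a = 1 := tt_sq T.tt ha
theorem inv {a : G} (ha : a ∈ E) : a⁻¹ = a := tt_inv T.tt ha
theorem cube {a b : G} (ha : a ∈ E) (hb : b ∈ E) (h : ¬ Commute a b) : (a * b) ^ 3 = 1 :=
  tt_cube T.tt ha hb h
theorem braid {a b : G} (ha : a ∈ E) (hb : b ∈ E) (h : ¬ Commute a b) : a * b * a = b * a * b :=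
  tt_braid T.tt ha hb h
theorem ne_one {a : G} (ha : a ∈ E) : a ≠ 1 := fun h => by
  have := T.tt.1 a ha
  rw [h, orderOf_one] at this
  omega
theorem cancel {a : G} (ha : a ∈ E) (g : G) : a * (a * g) = g := by
  rw [← mul_assoc, T.sq ha, one_mul]

theorem sub {F : Set G} (h : F ⊆ E) (hc : ∀ a ∈ F, ∀ b ∈ F, a * b * a ∈ F) : TS F :=
  ⟨⟨fun d hd => T.tt.1 d (h hd), fun d hd e he => T.tt.2 d (h hd) e (h he)⟩, hc⟩

/-- conjugation by an involution of `E` preserves commuting -/
theorem cj_iff {g : G} (hg : g ∈ E) {a b : G} : Commute (g * a * g) (g * b * g) ↔ Commute a b := by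
  have := @commute_conj_iff G _ g a b
  rwa [T.inv hg] at this

theorem cj_eq {g a : G} (hg : g ∈ E) (h : Commute g a) : g * a * g = a := by
  rw [h.eq, mul_assoc, T.sq hg, mul_one]

theorem cj_cj {g : G} (hg : g ∈ E) (a : G) : g * (g * a * g) * g = a := by
  simp only [← mul_assoc, T.sq hg, one_mul]; rw [mul_assoc, T.sq hg, mul_one]

theorem cj_right {g a b : G} (hg : g ∈ E) (h : Commute g a) :
    Commute a (g * b * g) ↔ Commute a b := by
  rw [← T.cj_iff hg (a := a) (b := b), T.cj_eq hg h]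

theorem cj_left {g a b : G} (hg : g ∈ E) (h : Commute g b) :
    Commute (g * a * g) b ↔ Commute a b := by
  rw [← T.cj_iff hg (a := a) (b := b), T.cj_eq hg h]

theorem cj_swap {g a b : G} (hg : g ∈ E) : Commute a (g * b * g) ↔ Commute (g * a * g) b := by
  rw [← T.cj_iff hg (a := a), T.cj_cj hg]

theorem commute_of_cj_eq {g a : G} (hg : g ∈ E) (h : g * a * g = a) : Commute g a := by
  apply commute_of_conj_eq; rwa [T.inv hg]

theorem conj_mem {g : G} (hg : g ∈ closure E) : ∀ {a : G}, a ∈ E → g * a * g⁻¹ ∈ E := by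
  have key : ∀ g ∈ closure E, (∀ a ∈ E, g * a * g⁻¹ ∈ E) ∧ ∀ a ∈ E, g⁻¹ * a * g ∈ E := by
    intro g hg
    induction hg using closure_induction with
    | mem x hx => exact ⟨fun a ha => by rw [T.inv hx]; exact T.cl x hx a ha,
        fun a ha => by rw [T.inv hx]; exact T.cl x hx a ha⟩
    | one => simp
    | mul x y _ _ hx hy => exact ⟨fun a ha => by simpa [mul_assoc] using hx.1 _ (hy.1 a ha),
        fun a ha => by simpa [mul_assoc] using hy.2 _ (hx.2 a ha)⟩
    | inv x _ hx => exact ⟨fun a ha => by simpa using hx.2 a ha, fun a ha => by simpa using hx.1 a ha⟩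
  intro a ha
  exact (key g hg).1 a ha

theorem conj_mem_iff {g : G} (hg : g ∈ closure E) {a : G} : g * a * g⁻¹ ∈ E ↔ a ∈ E :=
  ⟨fun h => by simpa [mul_assoc] using T.conj_mem (inv_mem hg) h, T.conj_mem hg⟩

theorem dd (d : G) : TS (Dd E d) := T.sub (fun _ h => h.1) fun a ha b hb =>
  ⟨T.cl a ha.1 b hb.1, fun h => hb.2.1 (by
    rw [← T.cj_cj ha.1 b, h, T.cj_eq ha.1 ha.2.2.symm]), (ha.2.2.mul_right hb.2.2).mul_right ha.2.2⟩

theorem xs (d a : G) : TS (Xs E d a) := T.sub (fun _ h => h.1) fun x hx y hy =>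
  ⟨T.cl x hx.1 y hy.1, (hx.2.1.mul_right hy.2.1).mul_right hx.2.1,
    (hx.2.2.mul_right hy.2.2).mul_right hx.2.2⟩

theorem perp (d : G) : TS (perp E d) := T.sub (fun _ h => h.1) fun a ha b hb =>
  ⟨T.cl a ha.1 b hb.1, (ha.2.mul_right hb.2).mul_right ha.2⟩

/-- a point commuting with `a` and `aba` commutes with `b` -/
theorem line_b {a b x : G} (ha : a ∈ E) (h1 : Commute x a) (h2 : Commute x (a * b * a)) :
    Commute x b := (T.cj_right ha h1.symm).1 h2

/-- a point commuting with `b` and `aba` commutes with `a` -/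
theorem line_a {a b x : G} (ha : a ∈ E) (hb : b ∈ E) (h : ¬ Commute a b) (h1 : Commute x b)
    (h2 : Commute x (a * b * a)) : Commute x a := by
  rw [T.braid ha hb h] at h2; exact T.line_b hb h1 h2

theorem third_nc_left {a b : G} (ha : a ∈ E) (h : ¬ Commute a b) : ¬ Commute a (a * b * a) :=
  fun h1 => h (T.line_b ha (Commute.refl a) h1)

theorem third_nc_right {a b : G} (ha : a ∈ E) (hb : b ∈ E) (h : ¬ Commute a b) :
    ¬ Commute b (a * b * a) := fun h1 => h (T.line_a ha hb h (Commute.refl b) h1).symm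

theorem third_ne_left {a b : G} (ha : a ∈ E) (h : ¬ Commute a b) : a * b * a ≠ a :=
  fun h1 => T.third_nc_left ha h (by rw [h1])

theorem third_ne_right {a b : G} (ha : a ∈ E) (hb : b ∈ E) (h : ¬ Commute a b) : a * b * a ≠ b :=
  fun h1 => T.third_nc_right ha hb h (by rw [h1])

theorem cent2 {p q a : G} (hp : p ∈ E) (hq : q ∈ E) (ha : a ∈ E) (hne : p ≠ q) (hc : Commute p q) :
    Commute a (p * q) ↔ Commute a p ∧ Commute a q := tt_commute_mul_two T.tt hp hq ha hne hc

theorem cent3 {p q r a : G} (hp : p ∈ E) (hq : q ∈ E) (hr : r ∈ E) (ha : a ∈ E) (h1 : p ≠ q)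
    (h2 : p ≠ r) (h3 : q ≠ r) (c1 : Commute p q) (c2 : Commute p r) (c3 : Commute q r) :
    Commute a (p * q * r) ↔ Commute a p ∧ Commute a q ∧ Commute a r :=
  tt_commute_mul_three T.tt hp hq hr ha h1 h2 h3 c1 c2 c3

/-- the `S₄` identity: `z` commutes with `(x y) z (y x)` -/
theorem s4 {x y z : G} (hx : x ∈ E) (hy : y ∈ E) (hz : z ∈ E) (h : Commute x y)
    (h1 : ¬ Commute x z) (h2 : ¬ Commute y z) : Commute z (x * (y * z * y) * x) := by
  have b1 := T.braid hx hz h1
  have b2 := T.braid hy hz h2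
  rw [b2]
  show z * (x * (z * y * z) * x) = x * (z * y * z) * x * z
  calc z * (x * (z * y * z) * x) = (z * x * z) * y * z * x := by simp only [mul_assoc]
    _ = x * z * (x * y) * z * x := by rw [← b1]; simp only [mul_assoc]
    _ = x * z * y * (x * z * x) := by rw [h.eq]; simp only [mul_assoc]
    _ = x * (z * y * z) * x * z := by rw [b1]; simp only [mul_assoc]

/-- in `S₄ = ⟨y, e, y'⟩`: the point `q` commuting with `e` conjugates `y` to `e y' e` -/
theorem s4_conj {y y' e : G} (hy : y ∈ E) (hy' : y' ∈ E) (he : e ∈ E) (h : Commute y y')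
    (h1 : ¬ Commute y e) (h2 : ¬ Commute y' e) :
    (y * (y' * e * y') * y) * y * (y * (y' * e * y') * y) = e * y' * e := by
  have b1 := T.braid hy he h1
  have b2 := T.braid hy' he h2
  have c1 : y' * y * y' = y := T.cj_eq hy' h.symm
  have c2 : y * y' * y = y' := T.cj_eq hy h
  calc (y * (y' * e * y') * y) * y * (y * (y' * e * y') * y)
      = y * y' * e * (y' * (y * (y * y)) * y') * e * y' * y := by simp only [mul_assoc]
    _ = y * y' * (e * y * e) * y' * y := by rw [T.sq hy, mul_one, c1]; simp only [mul_assoc]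
    _ = (y * y' * y) * e * (y * y' * y) := by rw [← b1]; simp only [mul_assoc]
    _ = e * y' * e := by rw [c2, b2]

theorem leaf_aux {a p q r : G} (ha : a ∈ E) (hp : p ∈ E) (hq : q ∈ E) (hr : r ∈ E)
    (c1 : Commute p q) (c2 : Commute p r) (c3 : Commute q r)
    (n1 : ¬ Commute a p) (n2 : ¬ Commute a q) (n3 : ¬ Commute a r) :
    ¬ Commute a (p * (q * (r * a * r) * q) * p) ∧
      Commute p (a * (p * (q * (r * a * r) * q) * p) * a) := by
  set s := q * (r * a * r) * q with hs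
  have hsE : s ∈ E := T.cl q hq _ (T.cl r hr a ha)
  have h1 : Commute a s := T.s4 hq hr ha c3 (fun h => n2 h.symm) fun h => n3 h.symm
  have h2 : ¬ Commute p s := by
    rw [hs, T.cj_right hq c1.symm, T.cj_right hr c2.symm]; exact fun h => n1 h.symm
  refine ⟨fun h => n1 (T.line_a hp hsE h2 h1 h), ?_⟩
  rw [T.braid hp hsE h2]
  exact T.s4 ha hsE hp h1 n1 fun h => h2 h.symm

/-- the fourth leaf of a `D₄` configuration -/
theorem leaf4 {a p q r : G} (ha : a ∈ E) (hp : p ∈ E) (hq : q ∈ E) (hr : r ∈ E)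
    (h1 : p ≠ q) (h2 : p ≠ r) (h3 : q ≠ r) (c1 : Commute p q) (c2 : Commute p r) (c3 : Commute q r)
    (n1 : ¬ Commute a p) (n2 : ¬ Commute a q) (n3 : ¬ Commute a r) :
    ∃ l ∈ E, Commute p l ∧ Commute q l ∧ Commute r l ∧ ¬ Commute a l ∧ l ≠ p ∧ l ≠ q ∧ l ≠ r ∧
      Commute a (p * q * r * l) ∧ l = a * (p * (q * (r * a * r) * q) * p) * a := by
  set t := p * (q * (r * a * r) * q) * p with ht
  have htE : t ∈ E := T.cl p hp _ (T.cl q hq _ (T.cl r hr a ha))
  obtain ⟨k1, k2⟩ := T.leaf_aux ha hp hq hr c1 c2 c3 n1 n2 n3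
  have e2 : t = q * (p * (r * a * r) * p) * q := by
    rw [ht]; simp only [← mul_assoc]; rw [c1.eq, mul_assoc _ q p, ← c1.eq, ← mul_assoc]
  have e3 : t = r * (p * (q * a * q) * p) * r := by
    have x1 : p * q * r = r * p * q := by rw [mul_assoc r, ← (c2.mul_left c3).eq]
    have x2 : r * q * p = q * p * r := by rw [mul_assoc r, ← (c3.mul_left c2).eq]
    calc t = (p * q * r) * a * (r * q * p) := by rw [ht]; simp only [mul_assoc]
      _ = _ := by rw [x1, x2]; simp only [mul_assoc]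
  have k3 := (T.leaf_aux ha hq hp hr c1.symm c3 c2 n2 n1 n3).2
  have k4 := (T.leaf_aux ha hr hp hq c2.symm c3.symm c1 n3 n1 n2).2
  rw [← e2] at k3
  rw [← e3] at k4
  have w1 : p * q * r * a = t * (p * q * r) := by
    have : r * q * p * (p * q * r) = 1 := by
      simp only [mul_assoc, T.cancel hp, T.cancel hq, T.sq hr]
    calc p * q * r * a = p * q * r * a * (r * q * p * (p * q * r)) := by rw [this, mul_one]
      _ = _ := by rw [ht]; simp only [mul_assoc]
  have w2 : a * (p * q * r) = p * q * r * t := by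
    have x3 : r * q * p = p * q * r := by
      rw [c3.symm.eq, mul_assoc, c2.symm.eq, ← mul_assoc, c1.symm.eq]
    have x4 : p * q * r * (p * q * r) = 1 := by
      nth_rewrite 1 [← x3]; simp only [mul_assoc, T.cancel hp, T.cancel hq, T.sq hr]
    calc a * (p * q * r) = p * q * r * (p * q * r) * a * (r * q * p) := by rw [x4, one_mul, x3]
      _ = _ := by rw [ht]; simp only [mul_assoc]
  have k5 : Commute a (p * q * r * (a * t * a)) := by
    have b := T.braid ha htE k1
    show a * (p * q * r * (a * t * a)) = p * q * r * (a * t * a) * a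
    calc a * (p * q * r * (a * t * a)) = p * q * r * (t * a * t) * a := by
          rw [← mul_assoc a, w2]; simp only [mul_assoc]
      _ = _ := by rw [← b]
  refine ⟨a * t * a, T.cl a ha t htE, k2, k3, k4, T.third_nc_left ha k1, fun h => ?_, fun h => ?_,
    fun h => ?_, k5, rfl⟩
  · rw [h, show p * q * r * p = q * r by
      rw [mul_assoc p q r, mul_assoc p, ← (c1.mul_right c2).eq, T.cancel hp]] at k5
    exact n2 ((T.cent2 hq hr ha h3 c3).1 k5).1
  · rw [h, show p * q * r * q = p * r by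
      rw [mul_assoc, ← c3.eq, mul_assoc, T.cancel hq]] at k5
    exact n1 ((T.cent2 hp hr ha h2 c2).1 k5).1
  · rw [h, mul_assoc _ r r, T.sq hr, mul_one] at k5
    exact n1 ((T.cent2 hp hq ha h1 c1).1 k5).1

/-- two conjugate points have a common non-neighbour -/
theorem diam2 {d e : G} (hd : d ∈ E) (hn : ∃ a ∈ E, ¬ Commute a d)
    (h : ∃ g ∈ closure E, g * d * g⁻¹ = e) : ∃ a ∈ E, ¬ Commute a d ∧ ¬ Commute a e := by
  obtain ⟨g, hg, rfl⟩ := h
  induction hg using closure_induction_left with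
  | one => obtain ⟨a, ha, h⟩ := hn; exact ⟨a, ha, h, by simpa using h⟩
  | mul_left t ht g hg ih | inv_mul_cancel t ht g hg ih =>
    try rw [T.inv ht]
    have he : g * d * g⁻¹ ∈ E := T.conj_mem hg hd
    have : t * g * d * (t * g)⁻¹ = t * (g * d * g⁻¹) * t := by
      rw [mul_inv_rev, T.inv ht]; simp only [mul_assoc]
    rw [this]
    set e := g * d * g⁻¹
    obtain ⟨a, ha, h1, h2⟩ := ih
    by_cases c1 : Commute t e
    · rw [T.cj_eq ht c1]; exact ⟨a, ha, h1, h2⟩
    have he' := T.cl t ht e he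
    by_cases c2 : Commute d (t * e * t)
    swap
    · exact ⟨_, T.cl d hd _ he', fun h => T.third_nc_left hd c2 h.symm,
        fun h => T.third_nc_right hd he' c2 h.symm⟩
    by_cases c3 : Commute t d
    swap
    · exact ⟨t, ht, c3, T.third_nc_left ht c1⟩
    have c4 : Commute d e := T.line_b ht c3.symm c2
    by_cases c5 : Commute a (t * e * t)
    swap
    · exact ⟨a, ha, h1, c5⟩
    refine ⟨e * a * e, T.cl e he a ha, by rwa [T.cj_left he c4.symm], ?_⟩
    rw [T.braid ht he c1, T.cj_iff he]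
    exact fun h => h2 (T.line_b ht h c5)

end TS

/-- the connected component of `e` in the commuting graph of `X` -/
def Comp (X : Set G) (e : G) : Set G := {y | y ∈ X ∧ ∃ x ∈ X, Commute e x ∧ Commute y x}

namespace TS

variable {X : Set G} (T : TS X)
include T

omit T in
theorem comp_self {e : G} (he : e ∈ X) : e ∈ Comp X e := ⟨he, e, he, Commute.refl e, Commute.refl e⟩

theorem comp_adj {e y y' : G} (he : e ∈ X) (hy : y ∈ Comp X e) (hy' : y' ∈ X) (h : Commute y y') :
    y' ∈ Comp X e := by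
  obtain ⟨hy, x, hx, h1, h2⟩ := hy
  by_cases c1 : Commute y e
  · exact ⟨hy', y, hy, c1.symm, h.symm⟩
  by_cases c2 : Commute y' e
  · exact ⟨hy', e, he, Commute.refl e, c2⟩
  have hq : y * (y' * e * y') * y ∈ X := T.cl y hy _ (T.cl y' hy' e he)
  have q1 := T.s4 hy hy' he h c1 c2
  have q2 := T.s4_conj hy hy' he h c1 c2
  set q := y * (y' * e * y') * y
  have q3 : Commute e (q * x * q) := (q1.mul_right h1).mul_right q1
  refine ⟨hy', q * x * q, T.cl q hq x hx, q3, ?_⟩
  have := (T.cj_iff hq).2 h2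
  rw [q2, T.cj_left he q3] at this
  exact this

theorem comp_eq {e y : G} (he : e ∈ X) (hy : y ∈ Comp X e) : Comp X y = Comp X e := by
  have hy' := hy
  obtain ⟨hyX, x, hx, h1, h2⟩ := hy'
  ext z
  constructor
  · rintro ⟨hz, w, hw, h3, h4⟩
    exact T.comp_adj he (T.comp_adj he hy hw h3) hz h4.symm
  · rintro ⟨hz, w, hw, h3, h4⟩
    have : e ∈ Comp X y := ⟨he, x, hx, h2, h1⟩
    exact T.comp_adj hyX (T.comp_adj hyX this hw h3) hz h4.symm

theorem comp_ts {e : G} (he : e ∈ X) : TS (Comp X e) := T.sub (fun _ h => h.1) fun a ha b hb => by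
  rw [← T.comp_eq he ha] at hb ⊢
  obtain ⟨hb, x, hx, h1, h2⟩ := hb
  exact ⟨T.cl a ha.1 b hb, x, hx, h1, (T.cj_left ha.1 h1).2 h2⟩

theorem comp_dd {e y : G} (he : e ∈ X) (hy : y ∈ Comp X e) : Dd (Comp X e) y = Dd X y := by
  ext z
  exact ⟨fun h => ⟨h.1.1, h.2⟩, fun h => ⟨T.comp_adj he hy h.1 h.2.2, h.2⟩⟩

theorem comp_mu {e : G} (he : e ∈ X) : Mu (Comp X e) := fun d hd a ha _ => by
  have ha' := ha
  rw [← T.comp_eq he hd] at ha'
  obtain ⟨-, x, hx, h1, h2⟩ := ha'
  exact ⟨x, T.comp_adj he hd hx h1, h1, h2⟩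

end TS

theorem dd_xs {E : Set G} {d a : G} (h : ¬ Commute d a) {e : G} (he : e ∈ Xs E d a) :
    Dd (Xs E d a) e = Xs (Dd E e) d a := by
  ext z
  exact ⟨fun h => ⟨⟨h.1.1, h.2⟩, h.1.2⟩, fun h => ⟨⟨h.1.1, h.2⟩, h.1.2⟩⟩

end CfsgFI
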