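import Cfsg.Agent.FI.C2

/-! Parameters of the three Fischer geometries. -/

set_option autoImplicit false

namespace CfsgFI

open Subgroup CfsgH4 CfsgH5

universe u

variable {G : Type*} [Group G]

theorem ncard_conj (g : G) (S S' : Set G) (h : ∀ y, y ∈ S ↔ g * y * g⁻¹ ∈ S') :
    S.ncard = S'.ncard := by
  rw [← Set.ncard_image_of_injective S (MulAut.conj g).injective]
  congr 1
  ext z
  constructor
  · rintro ⟨y, hy, rfl⟩
    exact (h y).1 hy
  · intro hz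
    refine ⟨g⁻¹ * z * g, (h _).2 ?_, ?_⟩
    · simpa [mul_assoc] using hz
    · simp [mul_assoc]

theorem conj_ne_iff (g a b : G) : g * a * g⁻¹ ≠ g * b * g⁻¹ ↔ a ≠ b := by simp

theorem TS.dd_conj {E : Set G} (T : TS E) {g : G} (hg : g ∈ closure E) (d y : G) :
    y ∈ Dd E d ↔ g * y * g⁻¹ ∈ Dd E (g * d * g⁻¹) := by
  simp only [Dd, Set.mem_setOf_eq, T.conj_mem_iff hg, conj_ne_iff, commute_conj_iff]

theorem TS.ddd_conj {E : Set G} (T : TS E) {g : G} (hg : g ∈ closure E) (d e y : G) :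
    y ∈ Dd (Dd E d) e ↔ g * y * g⁻¹ ∈ Dd (Dd E (g * d * g⁻¹)) (g * e * g⁻¹) := by
  simp only [Dd, Set.mem_setOf_eq, T.conj_mem_iff hg, conj_ne_iff, commute_conj_iff]

theorem TS.xs_conj {E : Set G} (T : TS E) {g : G} (hg : g ∈ closure E) (d a y : G) :
    y ∈ Xs E d a ↔ g * y * g⁻¹ ∈ Xs E (g * d * g⁻¹) (g * a * g⁻¹) := by
  simp only [Xs, Set.mem_setOf_eq, T.conj_mem_iff hg, commute_conj_iff]

theorem Fi.sr {E : Set G} (h : Fi E) : ∃ k l m, SR E k l m := by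
  have T := h.toTS
  obtain ⟨a, ha, b, hb, hab⟩ := h.exn
  obtain ⟨x, hx, h1, h2⟩ := h.mu a ha b hb hab
  have hx' : x ∈ Dd E a := ⟨hx, fun e => hab (e ▸ h2).symm, h1⟩
  refine ⟨(Dd E a).ncard, (Dd (Dd E a) x).ncard, (Xs E a b).ncard, fun d hd => ?_,
    fun d hd e he => ?_, fun d hd c hc hdc => ?_⟩
  · obtain ⟨g, hg, rfl⟩ := h.cls d hd a ha
    exact ncard_conj g _ _ (T.dd_conj hg d)
  · obtain ⟨g, hg, e1⟩ := h.cls d hd a ha
    have he' := (T.dd_conj hg d e).1 he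
    rw [e1] at he'
    obtain ⟨g', hg', e2⟩ := h.Dcl a ha _ he' x hx'
    have hg2 : g' ∈ closure E := closure_mono (fun _ h => h.1) hg'
    have e3 : g' * a * g'⁻¹ = a := by rw [(commute_of_mem_Dd hg').eq]; simp
    rw [ncard_conj g _ _ (T.ddd_conj hg d e), e1, ncard_conj g' _ _ (T.ddd_conj hg2 a _), e3, e2]
  · obtain ⟨g, hg, e1⟩ := h.cls d hd a ha
    have hc' : ¬ Commute a (g * c * g⁻¹) := by rwa [← e1, commute_conj_iff]
    obtain ⟨g', hg', e2⟩ := h.HR a ha _ (T.conj_mem hg hc) b hb hc' hab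
    have hg2 : g' ∈ closure E := closure_mono (fun _ h => h.1) hg'
    have e3 : g' * a * g'⁻¹ = a := by rw [(commute_of_mem_perp hg').eq]; simp
    rw [ncard_conj g _ _ (T.xs_conj hg d c), e1, ncard_conj g' _ _ (T.xs_conj hg2 a _), e3, e2]

theorem xs_sub {E : Set G} {d a : G} (h : ¬ Commute d a) : Xs E d a ⊆ Dd E d :=
  fun _ hy => ⟨hy.1, fun e => h (e ▸ hy.2.2).symm, hy.2.1⟩

theorem xs_mem_l {E : Set G} {d a x : G} (hd : d ∈ E) (h : ¬ Commute d a) (hx : x ∈ Xs E d a) :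
    d ∈ Dd E x := ⟨hd, fun e => h (e ▸ hx.2.2.symm), hx.2.1.symm⟩

theorem xs_mem_r {E : Set G} {d a x : G} (ha : a ∈ E) (h : ¬ Commute d a) (hx : x ∈ Xs E d a) :
    a ∈ Dd E x := ⟨ha, fun e => h (e ▸ hx.2.1), hx.2.2.symm⟩

theorem TS.comp_disj {X : Set G} (T : TS X) {e e' : G} (he : e ∈ X) (he' : e' ∈ X)
    (h : e' ∉ Comp X e) : Disjoint (Comp X e) (Comp X e') := by
  rw [Set.disjoint_left]
  intro y h1 h2
  apply h
  rw [← T.comp_eq he h1, T.comp_eq he' h2]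
  exact TS.comp_self he'

theorem TS.comp_nc {X : Set G} (T : TS X) {e e' : G} (he : e ∈ X) (he' : e' ∈ X)
    (h : e' ∉ Comp X e) : ∀ a ∈ Comp X e, ∀ b ∈ Comp X e', ¬ Commute a b := fun _ ha _ hb hab =>
  Set.disjoint_left.1 (T.comp_disj he he' h) (T.comp_adj he ha hb.1 hab) hb

theorem TS.comp_all [Finite G] {X : Set G} (T : TS X) {s : ℕ}
    (hs : ∀ e ∈ X, (Comp X e).ncard = s) (hn : X.ncard < 2 * s) {e : G} (he : e ∈ X) :
    Comp X e = X := by
  refine Set.Subset.antisymm (fun _ h => h.1) fun e' he' => ?_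
  by_contra h
  have h1 := Set.ncard_union_eq (T.comp_disj he he' h)
  have h2 : (Comp X e ∪ Comp X e').ncard ≤ X.ncard :=
    Set.ncard_le_ncard (Set.union_subset (fun _ h => h.1) fun _ h => h.1)
  rw [h1, hs e he, hs e' he'] at h2
  omega

theorem c2_cons (m : ℕ) : (Fin.cons 2 (c2 m) : Fin (m + 1) → ZMod 3) = c2 (m + 1) := by
  funext i
  refine Fin.cases rfl (fun _ => rfl) i

theorem comp_ort (hO : SpecOrt.{u}) {G : Type u} [Group G] {X : Set G} (T : TS X) {m : ℕ}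
    (hm : 5 ≤ m) (h : ∀ e ∈ X, Ort (c2 m) (Dd X e)) {e : G} (he : e ∈ X) :
    Ort (c2 (m + 1)) (Comp X e) := by
  rw [← c2_cons]
  refine hO G _ m _ hm (T.comp_ts he) (fun y hy => ?_) e (TS.comp_self he)
    (T.comp_mu he e (TS.comp_self he))
  rw [T.comp_dd he hy]
  exact h y hy.1

theorem uni6_sr (hU0 : SpecU0.{u}) {G : Type u} [Group G] [Finite G] {Y : Set G} (hF : Fi Y)
    (h : Uni 6 Y) : SR Y 180 51 45 := by
  obtain ⟨k, l, m, hs⟩ := hF.sr
  obtain ⟨d, hd, hk⟩ := h.k6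
  obtain rfl : k = 180 := (hs.hk d hd).symm.trans hk
  obtain ⟨a, ha, b, hb, hab⟩ := hF.exn
  have h4 := (hU0 G Y hF.toTS).1 4 h hF a ha b hb hab
  obtain rfl : m = 45 := (hs.hm a ha b hb hab).symm.trans
    ((hU0 G _ (hF.toTS.xs a b)).2.1 h4).n5
  have hc := hs.count hd
  rw [h.n6] at hc
  obtain rfl : l = 51 := by push_cast at hc; omega
  exact hs

theorem tri_of [Finite G] {E : Set G}
    (h : ∀ d ∈ E, ∀ a ∈ E, ¬ Commute d a → ∀ y ∈ Dd E d, ∃ x ∈ Xs E d a, Commute y x) : Tri E := by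
  intro d hd e he c hc hne h1 h2 _
  obtain ⟨x, hx, h3⟩ := h d hd c hc h2 e ⟨he, hne.symm, h1⟩
  exact ⟨x, hx.1, hx.2.1.symm, h3.symm, hx.2.2.symm⟩

theorem f22_all (hO : SpecOrt.{u}) (hU0 : SpecU0.{u}) {G : Type u} [Group G] [Finite G]
    {E : Set G} (h : F22 E) : SR E 693 180 126 ∧ E.ncard = 3510 ∧ Tri E ∧
      ∀ d ∈ E, ∀ a ∈ E, ¬ Commute d a → Ort (c2 6) (Xs E d a) := by
  obtain ⟨hF, hL, hU⟩ := h
  have T := hF.toTS
  have hs : ∀ d ∈ E, SR (Dd E d) 180 51 45 := fun d hd => uni6_sr hU0 (hL d hd) (hU d hd)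
  have hr : ∀ d ∈ E, ∀ a ∈ E, ¬ Commute d a → ∀ x ∈ Xs E d a, (Dd (Xs E d a) x).ncard = 45 := by
    intro d hd a ha hda x hx
    rw [dd_xs hda hx]
    exact (hs x hx.1).hm d (xs_mem_l hd hda hx) a (xs_mem_r ha hda hx) hda
  have hX : ∀ d ∈ E, ∀ a ∈ E, ¬ Commute d a → Ort (c2 6) (Xs E d a) := by
    intro d hd a ha hda
    have hc : ∀ e ∈ Xs E d a, Ort (c2 6) (Comp (Xs E d a) e) := fun e he =>
      comp_ort hO (T.xs d a) le_rfl (fun x hx => by
        rw [dd_xs hda hx]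
        exact (hU0 G _ ((T.dd x).xs d a)).2.1 ((hU0 G _ (T.dd x)).1 4 (hU x hx.1) (hL x hx.1) d
          (xs_mem_l hd hda hx) a (xs_mem_r ha hda hx) hda)) he
    obtain ⟨e, he⟩ := hF.mu d hd a ha hda
    have he' : e ∈ Xs E d a := ⟨he.1, he.2⟩
    have hb := (hs d hd).cs (xs_sub hda) (hr d hd a ha hda)
    rw [(hU d hd).n6] at hb
    have hn : (Xs E d a).ncard < 2 * 126 := by
      by_contra hn
      have hn' : (252 : ℤ) ≤ (Xs E d a).ncard := by omega
      push_cast at hb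
      generalize ((Xs E d a).ncard : ℤ) = n at hb hn'
      nlinarith [mul_nonneg (sub_nonneg.2 hn') (sub_nonneg.2 hn'),
        mul_nonneg (mul_nonneg (sub_nonneg.2 hn') (sub_nonneg.2 hn')) (sub_nonneg.2 hn')]
    rw [← (T.xs d a).comp_all (fun e he => (hc e he).n6) hn he']
    exact hc e he'
  have hsr : SR E 693 180 126 := ⟨fun d hd => (hU d hd).n6, fun d hd => (hs d hd).hk,
    fun d hd a ha hda => (hX d hd a ha hda).n6⟩
  refine ⟨hsr, ?_, tri_of fun d hd a ha hda => ?_, hX⟩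
  · obtain ⟨d, hd, -⟩ := hF.exn
    have := hsr.count hd
    push_cast at this; omega
  · refine (hs d hd).eqv (xs_sub hda) (hr d hd a ha hda) 30 (by norm_num) ?_
    rw [hsr.hm d hd a ha hda, hsr.hk d hd]; norm_num

theorem f23_all (hO : SpecOrt.{u}) (hU0 : SpecU0.{u}) {G : Type u} [Group G] [Finite G]
    {E : Set G} (h : F23 E) : SR E 3510 693 351 ∧ E.ncard = 31671 ∧ Tri E ∧
      ∀ d ∈ E, ∀ a ∈ E, ¬ Commute d a → Ort (c2 7) (Xs E d a) := by
  obtain ⟨hF, hU⟩ := h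
  have T := hF.toTS
  have hs := fun d hd => f22_all hO hU0 (hU d hd)
  have hr : ∀ d ∈ E, ∀ a ∈ E, ¬ Commute d a → ∀ x ∈ Xs E d a, (Dd (Xs E d a) x).ncard = 126 := by
    intro d hd a ha hda x hx
    rw [dd_xs hda hx]
    exact (hs x hx.1).1.hm d (xs_mem_l hd hda hx) a (xs_mem_r ha hda hx) hda
  have hX : ∀ d ∈ E, ∀ a ∈ E, ¬ Commute d a → Ort (c2 7) (Xs E d a) := by
    intro d hd a ha hda
    have hc : ∀ e ∈ Xs E d a, Ort (c2 7) (Comp (Xs E d a) e) := fun e he =>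
      comp_ort hO (T.xs d a) (by norm_num) (fun x hx => by
        rw [dd_xs hda hx]
        exact (hs x hx.1).2.2.2 d (xs_mem_l hd hda hx) a (xs_mem_r ha hda hx) hda) he
    obtain ⟨e, he⟩ := hF.mu d hd a ha hda
    have he' : e ∈ Xs E d a := ⟨he.1, he.2⟩
    have hb := (hs d hd).1.cs (xs_sub hda) (hr d hd a ha hda)
    rw [(hs d hd).2.1] at hb
    have hn : (Xs E d a).ncard < 2 * 351 := by
      by_contra hn
      have hn' : (702 : ℤ) ≤ (Xs E d a).ncard := by omega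
      push_cast at hb
      generalize ((Xs E d a).ncard : ℤ) = n at hb hn'
      nlinarith [mul_nonneg (sub_nonneg.2 hn') (sub_nonneg.2 hn'),
        mul_nonneg (mul_nonneg (sub_nonneg.2 hn') (sub_nonneg.2 hn')) (sub_nonneg.2 hn')]
    rw [← (T.xs d a).comp_all (fun e he => (hc e he).n7) hn he']
    exact hc e he'
  have hsr : SR E 3510 693 351 := ⟨fun d hd => (hs d hd).2.1, fun d hd => (hs d hd).1.hk,
    fun d hd a ha hda => (hX d hd a ha hda).n7⟩
  refine ⟨hsr, ?_, tri_of fun d hd a ha hda => ?_, hX⟩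
  · obtain ⟨d, hd, -⟩ := hF.exn
    have := hsr.count hd
    push_cast at this; omega
  · refine (hs d hd).1.eqv (xs_sub hda) (hr d hd a ha hda) 63 (by norm_num) ?_
    rw [hsr.hm d hd a ha hda, hsr.hk d hd]; norm_num

theorem f24_all (hO : SpecOrt.{u}) (hU0 : SpecU0.{u}) {G : Type u} [Group G] [Finite G]
    {E : Set G} (h : F24 E) : Tri E ∧ ∀ d ∈ E, ∀ a ∈ E, ¬ Commute d a → Tria (Xs E d a) := by
  obtain ⟨hF, hU⟩ := h
  have T := hF.toTS
  have hs := fun d hd => f23_all hO hU0 (hU d hd)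
  have hr : ∀ d ∈ E, ∀ a ∈ E, ¬ Commute d a → ∀ x ∈ Xs E d a, (Dd (Xs E d a) x).ncard = 351 := by
    intro d hd a ha hda x hx
    rw [dd_xs hda hx]
    exact (hs x hx.1).1.hm d (xs_mem_l hd hda hx) a (xs_mem_r ha hda hx) hda
  have hX : ∀ d ∈ E, ∀ a ∈ E, ¬ Commute d a →
      (Xs E d a).ncard = 3240 ∧ Tria (Xs E d a) := by
    intro d hd a ha hda
    have TX := T.xs d a
    have hc : ∀ e ∈ Xs E d a, Ort (c2 8) (Comp (Xs E d a) e) := fun e he =>
      comp_ort hO TX (by norm_num) (fun x hx => by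
        rw [dd_xs hda hx]
        exact (hs x hx.1).2.2.2 d (xs_mem_l hd hda hx) a (xs_mem_r ha hda hx) hda) he
    obtain ⟨e, he⟩ := hF.mu d hd a ha hda
    have he' : e ∈ Xs E d a := ⟨he.1, he.2⟩
    have hb := (hs d hd).1.cs (xs_sub hda) (hr d hd a ha hda)
    rw [(hs d hd).2.1] at hb
    have hn : (Xs E d a).ncard ≤ 3240 := by
      by_contra hn
      have hn' : (3241 : ℤ) ≤ (Xs E d a).ncard := by omega
      push_cast at hb
      generalize ((Xs E d a).ncard : ℤ) = n at hb hn'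
      nlinarith [mul_nonneg (sub_nonneg.2 hn') (sub_nonneg.2 hn'),
        mul_nonneg (mul_nonneg (sub_nonneg.2 hn') (sub_nonneg.2 hn')) (sub_nonneg.2 hn')]
    by_cases c1 : ∀ e' ∈ Xs E d a, e' ∈ Comp (Xs E d a) e
    · exfalso
      have e1 : Comp (Xs E d a) e = Xs E d a := Set.Subset.antisymm (fun _ h => h.1) c1
      have e2 := (hc e he').n8
      rw [e1] at e2
      obtain ⟨k, l, m, hsr⟩ := hF.sr
      obtain rfl : m = 1080 := (hsr.hm d hd a ha hda).symm.trans e2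
      obtain rfl : k = 31671 := (hsr.hk d hd).symm.trans (hs d hd).2.1
      obtain rfl : l = 3510 := (hsr.hl d hd e (xs_sub hda he')).symm.trans
        ((hs d hd).1.hk e (xs_sub hda he'))
      exact hsr.no24 hd
    push Not at c1
    obtain ⟨f, hf, hef⟩ := c1
    have nef : ¬ Commute e f := TX.comp_nc he' hf hef e (TS.comp_self he') f (TS.comp_self hf)
    have hg : e * f * e ∈ Xs E d a := TX.cl e he' f hf
    have heg : e * f * e ∉ Comp (Xs E d a) e := fun h1 => hef (by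
      have := (TX.comp_ts he').cl e (TS.comp_self he') _ h1
      rwa [TX.cj_cj he'] at this)
    have hfg : e * f * e ∉ Comp (Xs E d a) f := fun h1 => hef (by
      rw [TX.braid he' hf nef] at h1
      have := (TX.comp_ts hf).cl f (TS.comp_self hf) _ h1
      rw [TX.cj_cj hf] at this
      rw [TX.comp_eq hf this]
      exact TS.comp_self hf)
    have d1 := TX.comp_disj he' hf hef
    have d2 := TX.comp_disj he' hg heg
    have d3 := TX.comp_disj hf hg hfg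
    have hu : (Comp (Xs E d a) e ∪ Comp (Xs E d a) f ∪ Comp (Xs E d a) (e * f * e)).ncard = 3240 := by
      rw [Set.ncard_union_eq (Set.disjoint_union_left.2 ⟨d2, d3⟩), Set.ncard_union_eq d1,
        (hc _ he').n8, (hc _ hf).n8, (hc _ hg).n8]
    have hsub : Comp (Xs E d a) e ∪ Comp (Xs E d a) f ∪ Comp (Xs E d a) (e * f * e) ⊆ Xs E d a :=
      Set.union_subset (Set.union_subset (fun _ h => h.1) fun _ h => h.1) fun _ h => h.1
    have heq := Set.eq_of_subset_of_ncard_le hsub (by rw [hu]; exact hn)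
    exact ⟨by rw [← heq, hu], _, _, _, heq.symm, hc _ he', hc _ hf, hc _ hg,
      TX.comp_nc he' hf hef, TX.comp_nc he' hg heg, TX.comp_nc hf hg hfg⟩
  refine ⟨tri_of fun d hd a ha hda => ?_, fun d hd a ha hda => (hX d hd a ha hda).2⟩
  refine (hs d hd).1.eqv (xs_sub hda) (hr d hd a ha hda) 360 (by norm_num) ?_
  rw [(hX d hd a ha hda).1, (hs d hd).2.1]; norm_num

theorem specC (hO : SpecOrt.{u}) (hU0 : SpecU0.{u}) : SpecC.{u} := fun _ _ _ _ =>
  ⟨fun h => ⟨(f22_all hO hU0 h).2.1, (f22_all hO hU0 h).2.2.1⟩,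
    fun h => ⟨(f23_all hO hU0 h).2.1, (f23_all hO hU0 h).2.2.1⟩, f24_all hO hU0⟩

end CfsgFI
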