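import Cfsg.Agent.FI.B0

/-! Counting in strongly regular commuting graphs. -/

set_option autoImplicit false

namespace CfsgFI

open Subgroup CfsgH4 CfsgH5

variable {G : Type*} [Group G]

/-- the commuting graph on `E` is strongly regular with parameters `k`, `l`, `m` -/
structure SR (E : Set G) (k l m : ℕ) : Prop where
  hk : ∀ d ∈ E, (Dd E d).ncard = k
  hl : ∀ d ∈ E, ∀ e ∈ Dd E d, (Dd (Dd E d) e).ncard = l
  hm : ∀ d ∈ E, ∀ a ∈ E, ¬ Commute d a → (Xs E d a).ncard = m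

open Classical in
/-- adjacency indicator -/
noncomputable def cadj (x y : G) : ℤ := if y ≠ x ∧ Commute x y then 1 else 0

open Classical in
/-- equality indicator -/
noncomputable def cdel (x y : G) : ℤ := if x = y then 1 else 0

theorem cadj_symm (x y : G) : cadj x y = cadj y x := by
  unfold cadj
  by_cases h : y ≠ x ∧ Commute x y
  · rw [if_pos h, if_pos ⟨h.1.symm, h.2.symm⟩]
  · rw [if_neg h, if_neg fun h' => h ⟨h'.1.symm, h'.2.symm⟩]

variable [Finite G]

/-- a set as a finset -/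
noncomputable def cfs (E : Set G) : Finset G := (Set.toFinite E).toFinset

omit [Group G] in
theorem mem_cfs {E : Set G} {x : G} : x ∈ cfs E ↔ x ∈ E := Set.Finite.mem_toFinset _

omit [Group G] in
theorem card_cfs (E : Set G) : (cfs E).card = E.ncard := (Set.ncard_eq_toFinset_card E _).symm

omit [Group G] in
theorem csum_ind (E : Set G) (p : G → Prop) [DecidablePred p] (S : Set G)
    (h : ∀ y, y ∈ S ↔ y ∈ E ∧ p y) :
    ∑ y ∈ cfs E, (if p y then (1 : ℤ) else 0) = (S.ncard : ℤ) := by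
  rw [Finset.sum_boole, ← card_cfs]
  congr 2
  ext y
  rw [Finset.mem_filter, mem_cfs, mem_cfs, h]

theorem csum_adj (E : Set G) (d : G) : ∑ y ∈ cfs E, cadj d y = ((Dd E d).ncard : ℤ) := by
  classical
  unfold cadj
  exact csum_ind E _ _ fun y => Iff.rfl

theorem csum_del {E : Set G} {d : G} (hd : d ∈ E) : ∑ y ∈ cfs E, cdel d y = 1 := by
  classical
  unfold cdel
  rw [Finset.sum_ite_eq, if_pos (mem_cfs.2 hd)]

theorem SR.key {E : Set G} {k l m : ℕ} (h : SR E k l m) {x x' : G} (hx : x ∈ E) (hx' : x' ∈ E) :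
    ∑ y ∈ cfs E, cadj x y * cadj x' y =
      k * cdel x x' + l * cadj x x' + m * (1 - cdel x x' - cadj x x') := by
  classical
  have e1 : ∀ y, cadj x y * cadj x' y =
      if (y ≠ x ∧ Commute x y) ∧ (y ≠ x' ∧ Commute x' y) then 1 else 0 := by
    intro y
    unfold cadj
    by_cases h1 : y ≠ x ∧ Commute x y <;> by_cases h2 : y ≠ x' ∧ Commute x' y <;> simp [h1, h2]
  simp only [e1]
  by_cases c1 : x = x'
  · subst c1
    rw [csum_ind E _ (Dd E x) fun y => ⟨fun h => ⟨h.1, h.2, h.2⟩, fun h => ⟨h.1, h.2.1⟩⟩, h.hk x hx]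
    simp [cdel, cadj]
  · by_cases c2 : Commute x x'
    · rw [csum_ind E _ (Dd (Dd E x) x') fun y =>
        ⟨fun h => ⟨h.1.1, h.1.2, h.2⟩, fun h => ⟨⟨h.1, h.2.1⟩, h.2.2⟩⟩,
        h.hl x hx x' ⟨hx', fun e => c1 e.symm, c2⟩]
      have : x' ≠ x := fun e => c1 e.symm
      simp [cdel, cadj, c1, c2, this]
    · rw [csum_ind E _ (Xs E x x') fun y =>
        ⟨fun h => ⟨h.1, ⟨fun e => c2 (e ▸ h.2.2).symm, h.2.1⟩, ⟨fun e => c2 (e ▸ h.2.1), h.2.2⟩⟩,
          fun h => ⟨h.1, h.2.1.2, h.2.2.2⟩⟩, h.hm x hx x' hx' c2]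
      simp [cdel, cadj, c1, c2]

theorem SR.rowsum {E X : Set G} {k l m : ℕ} (h : SR E k l m) (hX : X ⊆ E) {x : G} (hx : x ∈ X) :
    ∑ x' ∈ cfs X, ∑ y ∈ cfs E, cadj x y * cadj x' y =
      k + l * ((Dd X x).ncard : ℤ) + m * (X.ncard - 1 - ((Dd X x).ncard : ℤ)) := by
  rw [Finset.sum_congr rfl fun x' hx' => h.key (hX hx) (hX (mem_cfs.1 hx'))]
  simp only [Finset.sum_add_distrib, ← Finset.mul_sum, Finset.sum_sub_distrib, csum_del hx,
    csum_adj, Finset.sum_const, card_cfs]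
  simp

/-- the basic parameter relation -/
theorem SR.count {E : Set G} {k l m : ℕ} (h : SR E k l m) {d : G} (hd : d ∈ E) :
    (k : ℤ) * k = k + l * k + m * (E.ncard - 1 - k) := by
  have h1 := h.rowsum (le_refl E) hd
  rw [h.hk d hd, Finset.sum_comm] at h1
  rw [← h1]
  have : ∀ y ∈ cfs E, ∑ x' ∈ cfs E, cadj d y * cadj x' y = cadj d y * k := by
    intro y hy
    rw [← Finset.mul_sum, Finset.sum_congr rfl fun x' _ => cadj_symm x' y, csum_adj,
      h.hk y (mem_cfs.1 hy)]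
  rw [Finset.sum_congr rfl this, ← Finset.sum_mul, csum_adj, h.hk d hd]

/-- first and second moments of the number of neighbours in a regular subset -/
theorem SR.moments {E X : Set G} {k l m r : ℕ} (h : SR E k l m) (hX : X ⊆ E)
    (hr : ∀ x ∈ X, (Dd X x).ncard = r) :
    ∑ y ∈ cfs (E \ X), ((Dd X y).ncard : ℤ) = X.ncard * (k - r) ∧
    ∑ y ∈ cfs (E \ X), ((Dd X y).ncard : ℤ) ^ 2 =
      X.ncard * (k + l * r + m * (X.ncard - 1 - r) - r ^ 2) ∧
    ((cfs (E \ X)).card : ℤ) = E.ncard - X.ncard := by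
  classical
  have hs : cfs X ⊆ cfs E := fun y hy => mem_cfs.2 (hX (mem_cfs.1 hy))
  have hd : cfs (E \ X) = cfs E \ cfs X := by
    ext y; simp only [mem_cfs, Finset.mem_sdiff, Set.mem_sdiff]
  have t : ∀ y, ((Dd X y).ncard : ℤ) = ∑ x ∈ cfs X, cadj x y := fun y => by
    rw [← csum_adj]; exact Finset.sum_congr rfl fun x _ => cadj_symm _ _
  have a1 : ∑ y ∈ cfs E, ((Dd X y).ncard : ℤ) = X.ncard * k := by
    simp only [t]
    rw [Finset.sum_comm, Finset.sum_congr rfl fun x hx => by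
      rw [csum_adj, h.hk x (hX (mem_cfs.1 hx))]]
    simp [card_cfs]
  have a2 : ∑ y ∈ cfs E, ((Dd X y).ncard : ℤ) ^ 2 =
      X.ncard * (k + l * r + m * (X.ncard - 1 - r)) := by
    simp only [t, sq, Finset.sum_mul_sum]
    rw [Finset.sum_comm, Finset.sum_congr rfl fun x hx => by
      rw [Finset.sum_comm, h.rowsum hX (mem_cfs.1 hx), hr x (mem_cfs.1 hx)]]
    simp [card_cfs]
  have b1 : ∑ y ∈ cfs X, ((Dd X y).ncard : ℤ) = X.ncard * r := by
    rw [Finset.sum_congr rfl fun x hx => by rw [hr x (mem_cfs.1 hx)]]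
    simp [card_cfs]
  have b2 : ∑ y ∈ cfs X, ((Dd X y).ncard : ℤ) ^ 2 = X.ncard * r ^ 2 := by
    rw [Finset.sum_congr rfl fun x hx => by rw [hr x (mem_cfs.1 hx)]]
    simp [card_cfs]
  refine ⟨?_, ?_, ?_⟩
  · rw [hd, Finset.sum_sdiff_eq_sub hs, a1, b1]; ring
  · rw [hd, Finset.sum_sdiff_eq_sub hs, a2, b2]; ring
  · rw [hd, Finset.card_sdiff_of_subset hs, Nat.cast_sub (Finset.card_le_card hs), card_cfs,
      card_cfs]

theorem SR.cs {E X : Set G} {k l m r : ℕ} (h : SR E k l m) (hX : X ⊆ E)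
    (hr : ∀ x ∈ X, (Dd X x).ncard = r) :
    ((X.ncard : ℤ) * (k - r)) ^ 2 ≤ (E.ncard - X.ncard) *
      (X.ncard * (k + l * r + m * (X.ncard - 1 - r) - r ^ 2)) := by
  obtain ⟨h1, h2, h3⟩ := h.moments hX hr
  rw [← h1, ← h2, ← h3]
  exact sq_sum_le_card_mul_sum_sq

theorem SR.eqv {E X : Set G} {k l m r : ℕ} (h : SR E k l m) (hX : X ⊆ E)
    (hr : ∀ x ∈ X, (Dd X x).ncard = r) (α : ℤ) (hα : α ≠ 0)
    (he : (X.ncard : ℤ) * (k + l * r + m * (X.ncard - 1 - r) - r ^ 2) -
      2 * α * (X.ncard * (k - r)) + α ^ 2 * (E.ncard - X.ncard) = 0) :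
    ∀ y ∈ E, ∃ x ∈ X, Commute y x := by
  obtain ⟨h1, h2, h3⟩ := h.moments hX hr
  intro y hy
  by_cases c : y ∈ X
  · exact ⟨y, c, Commute.refl y⟩
  have hz : ∑ y ∈ cfs (E \ X), (((Dd X y).ncard : ℤ) - α) ^ 2 = 0 := by
    rw [← he, ← h1, ← h2, ← h3]
    simp only [sub_sq, Finset.sum_add_distrib, Finset.sum_sub_distrib, Finset.mul_sum,
      Finset.sum_const, nsmul_eq_mul]
    congr 1
    · congr 1
      exact Finset.sum_congr rfl fun _ _ => by ring
    · ring
  rw [Finset.sum_eq_zero_iff_of_nonneg fun _ _ => sq_nonneg _] at hz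
  have h0 := hz y (mem_cfs.2 ⟨hy, c⟩)
  have h4 : ((Dd X y).ncard : ℤ) = α := by
    have := pow_eq_zero_iff (two_ne_zero) |>.1 h0
    linarith
  have h5 : (Dd X y).Nonempty := Set.nonempty_of_ncard_ne_zero fun e => hα (by rw [← h4, e]; rfl)
  obtain ⟨x, hx⟩ := h5
  exact ⟨x, hx.1, hx.2.2⟩

theorem det_sq_aux {n : Type*} [Fintype n] [DecidableEq n] (M : Matrix n n ℚ) (D μ c : ℚ) (w : ℕ)
    (hw : Fintype.card n = w + w) (hD : D ≠ 0) (hc : c ≠ 0) (hs : D + μ * Fintype.card n = c ^ 2)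
    (hM : ∀ i j, (M * M) i j = (if i = j then D else 0) + μ) : IsSquare D := by
  have e : M * M = D • (1 + Matrix.replicateCol Unit (fun _ : n => μ / D) *
      Matrix.replicateRow Unit (fun _ : n => (1 : ℚ))) := by
    ext i j
    rw [hM]
    simp only [Matrix.smul_apply, Matrix.add_apply, Matrix.mul_apply, Matrix.replicateCol_apply,
      Matrix.replicateRow_apply, Matrix.one_apply, smul_eq_mul, Finset.univ_unique,
      Finset.sum_singleton]
    split_ifs <;> field_simp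
    ring
  have d := congrArg Matrix.det e
  rw [Matrix.det_mul, Matrix.det_smul, Matrix.det_one_add_replicateCol_mul_replicateRow] at d
  have s : (fun _ : n => (1 : ℚ)) ⬝ᵥ (fun _ : n => μ / D) = Fintype.card n * (μ / D) := by
    simp [dotProduct]
  rw [s] at d
  have s2 : 1 + (Fintype.card n : ℚ) * (μ / D) = c ^ 2 / D := by
    rw [← hs]; field_simp
  rw [s2, hw, pow_add] at d
  have hP : D ^ w ≠ 0 := pow_ne_zero _ hD
  generalize D ^ w = P at d hP
  have hdet : M.det ≠ 0 := fun e0 => by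
    rw [e0, zero_mul] at d
    exact (mul_ne_zero (mul_ne_zero hP hP) (div_ne_zero (pow_ne_zero _ hc) hD)) d.symm
  refine ⟨P * c / M.det, ?_⟩
  have d2 : M.det * M.det * D = P * P * c ^ 2 := by rw [d]; field_simp
  field_simp
  linear_combination d2

/-- there is no strongly regular graph with `k = 31671`, `λ = 3510`, `μ = 1080` -/
theorem SR.no24 {E : Set G} (h : SR E 31671 3510 1080) {d : G} (hd : d ∈ E) : False := by
  classical
  have hc := h.count hd
  have hv : E.ncard = 857464 := by push_cast at hc; omega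
  have hcard : Fintype.card (cfs E) = 857464 := by rw [Fintype.card_coe, card_cfs, hv]
  let M : Matrix (cfs E) (cfs E) ℚ := fun i j => ((2 * cadj i.1 j.1 - 2430 * cdel i.1 j.1 : ℤ) : ℚ)
  have hsq : IsSquare (6027264 : ℚ) := by
    refine det_sq_aux M 6027264 4320 60912 428732 (by rw [hcard]) (by norm_num) (by norm_num)
      (by rw [hcard]; norm_num) fun i j => ?_
    have hi := mem_cfs.1 i.2
    have hj := mem_cfs.1 j.2
    have e1 : ∑ y ∈ cfs E, (2 * cadj i.1 y - 2430 * cdel i.1 y) * (2 * cadj y j.1 - 2430 * cdel y j.1)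
        = 6027264 * cdel i.1 j.1 + 4320 := by
      have f1 : ∀ y, (2 * cadj i.1 y - 2430 * cdel i.1 y) * (2 * cadj y j.1 - 2430 * cdel y j.1) =
          4 * (cadj i.1 y * cadj j.1 y) - 4860 * (if y = j.1 then cadj i.1 y else 0)
            - 4860 * (if i.1 = y then cadj y j.1 else 0)
            + 5904900 * (if i.1 = y then cdel y j.1 else 0) := by
        intro y
        rw [cadj_symm j.1 y]
        unfold cdel
        split_ifs <;> ring
      simp only [f1, Finset.sum_add_distrib, Finset.sum_sub_distrib, ← Finset.mul_sum,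
        Finset.sum_ite_eq, Finset.sum_ite_eq', i.2, j.2, if_true, h.key hi hj]
      push_cast
      ring
    rw [Matrix.mul_apply]
    have e2 : ∑ y : cfs E, M i y * M y j = ((∑ y ∈ cfs E, (2 * cadj i.1 y - 2430 * cdel i.1 y) *
        (2 * cadj y j.1 - 2430 * cdel y j.1) : ℤ) : ℚ) := by
      rw [← Finset.sum_coe_sort (cfs E), Int.cast_sum]
      exact Finset.sum_congr rfl fun y _ => by simp only [M, Int.cast_mul]
    rw [e2, e1]
    unfold cdel
    by_cases c : i = j
    · subst c; simp; norm_num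
    · rw [if_neg c, if_neg fun e => c (Subtype.ext e)]; simp
  have h2 : IsSquare (6027264 : ℕ) := by
    rw [← Rat.isSquare_natCast_iff]; exact_mod_cast hsq
  obtain ⟨r, hr⟩ := h2
  have : r ≤ 2455 ∨ 2456 ≤ r := by omega
  rcases this with h3 | h3 <;> nlinarith

end CfsgFI
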