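import Cfsg.Agent.FI.C1

/-! Point counts for the orthogonal and unitary geometries. -/

set_option autoImplicit false

namespace CfsgFI

open Subgroup CfsgH4 CfsgH5

/-- number of solutions of a separated additive equation -/
def ccnt {α β : Type} [Fintype α] [AddCommGroup β] [DecidableEq β] :
    (ℕ → α → β) → ℕ → β → ℕ
  | _, 0, r => if r = 0 then 1 else 0
  | f, m + 1, r => ∑ x : α, ccnt (fun i => f (i + 1)) m (r - f 0 x)

theorem ccnt_eq {α β : Type} [Fintype α] [DecidableEq α] [AddCommGroup β] [DecidableEq β] (m : ℕ) :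
    ∀ (f : ℕ → α → β) (r : β),
      ∑ u : Fin m → α, (if ∑ i : Fin m, f i (u i) = r then 1 else 0) = ccnt f m r := by
  induction m with
  | zero => intro f r; simp [ccnt, eq_comm]
  | succ m ih =>
    intro f r
    rw [← (Fin.consEquiv fun _ : Fin (m + 1) => α).sum_comp, Fintype.sum_prod_type, ccnt]
    refine Finset.sum_congr rfl fun x _ => ?_
    rw [← ih]
    refine Finset.sum_congr rfl fun u _ => ?_
    simp only [Fin.consEquiv_apply, Fin.sum_univ_succ, Fin.cons_zero, Fin.cons_succ, Fin.val_zero,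
      Fin.val_succ, eq_sub_iff_add_eq']

theorem ccnt_ncard {α β : Type} [Fintype α] [DecidableEq α] [AddCommGroup β] [DecidableEq β]
    (m : ℕ) (f : ℕ → α → β) (r : β) (S : Set (Fin m → α))
    (h : ∀ u, u ∈ S ↔ ∑ i : Fin m, f i (u i) = r) : S.ncard = ccnt f m r := by
  rw [← ccnt_eq, Finset.sum_boole, Set.ncard_eq_toFinset_card S (Set.toFinite S)]
  simp only [Nat.cast_id]
  congr 1
  ext u
  simp [h]

variable {G : Type*} [Group G]

theorem OrtM.ncard {m : ℕ} {c : Fin m → ZMod 3} {E : Set G} {v : G → Fin m → ZMod 3}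
    (h : OrtM c E v) : 2 * E.ncard = {u | bO c u u = 2}.ncard := by
  have hneg : ∀ u, bO c (-u) (-u) = bO c u u := fun u => by simp [bO]
  have e : {u | bO c u u = 2} = v '' E ∪ (fun a => - v a) '' E := by
    ext u
    constructor
    · intro hu
      obtain ⟨a, ha, h1 | h1⟩ := h.surj u hu
      · exact Or.inl ⟨a, ha, h1.symm⟩
      · exact Or.inr ⟨a, ha, h1.symm⟩
    · rintro (⟨a, ha, rfl⟩ | ⟨a, ha, rfl⟩)
      · exact h.norm a ha
      · show bO c (-v a) (-v a) = 2
        rw [hneg]; exact h.norm a ha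
  have d : Disjoint (v '' E) ((fun a => - v a) '' E) := by
    rw [Set.disjoint_left]
    rintro _ ⟨a, ha, rfl⟩ ⟨b, hb, hab⟩
    have hab' : v a = - v b := hab.symm
    obtain rfl := h.inj a ha b hb (Or.inr hab')
    have h0 : v a = 0 := by
      funext i
      have := congrFun hab' i
      have z : ∀ x : ZMod 3, x = -x → x = 0 := by decide
      exact z _ this
    have := h.norm a ha
    rw [h0] at this
    simp only [bO, Pi.zero_apply, mul_zero, Finset.sum_const_zero] at this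
    exact absurd this (by decide)
  rw [e, Set.ncard_union_eq d, Set.ncard_image_of_injOn fun a ha b hb hab => h.inj a ha b hb (Or.inl hab),
    Set.ncard_image_of_injOn fun a ha b hb hab => h.inj a ha b hb (Or.inl (neg_injective hab))]
  ring

theorem Ort.ncard_c2 {m : ℕ} {E : Set G} (h : Ort (c2 m) E) :
    2 * E.ncard = ccnt (fun _ (x : ZMod 3) => 2 * x * x) m 2 := by
  obtain ⟨v, hv⟩ := h
  rw [hv.ncard]
  exact ccnt_ncard m _ _ _ fun u => Iff.rfl

theorem Ort.n5 {E : Set G} (h : Ort (c2 5) E) : E.ncard = 45 := by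
  have := h.ncard_c2
  rw [show ccnt (fun _ (x : ZMod 3) => 2 * x * x) 5 2 = 90 by decide +kernel] at this
  omega

theorem Ort.n6 {E : Set G} (h : Ort (c2 6) E) : E.ncard = 126 := by
  have := h.ncard_c2
  rw [show ccnt (fun _ (x : ZMod 3) => 2 * x * x) 6 2 = 252 by decide +kernel] at this
  omega

theorem Ort.n7 {E : Set G} (h : Ort (c2 7) E) : E.ncard = 351 := by
  have := h.ncard_c2
  rw [show ccnt (fun _ (x : ZMod 3) => 2 * x * x) 7 2 = 702 by decide +kernel] at this
  omega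

theorem Ort.n8 {E : Set G} (h : Ort (c2 8) E) : E.ncard = 1080 := by
  have := h.ncard_c2
  rw [show ccnt (fun _ (x : ZMod 3) => 2 * x * x) 8 2 = 2160 by decide +kernel] at this
  omega

theorem hU_smul_r {n : ℕ} (u w : Fin n → F4) (c : F4) : hU u (c • w) = c ^ 2 * hU u w := by
  simp only [Cfsg.hermForm, Pi.smul_apply, smul_eq_mul, Finset.mul_sum]
  exact Finset.sum_congr rfl fun i _ => by ring

theorem hU_smul_l {n : ℕ} (u w : Fin n → F4) (c : F4) : hU (c • u) w = c * hU u w := by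
  simp only [Cfsg.hermForm, Pi.smul_apply, smul_eq_mul, Finset.mul_sum]
  exact Finset.sum_congr rfl fun i _ => by ring

theorem UniM.ncard {n : ℕ} {E : Set G} {φ : G → Fin n → F4} (h : UniM n E φ) (w : Fin n → F4) :
    {a | a ∈ E ∧ hU w (φ a) = 0}.ncard * 3 + 1 = {u | hU u u = 0 ∧ hU w u = 0}.ncard := by
  have e : {u | hU u u = 0 ∧ hU w u = 0} = insert 0
      ((fun p : G × F4 => p.2 • φ p.1) '' ({a | a ∈ E ∧ hU w (φ a) = 0} ×ˢ {c | c ≠ 0})) := by
    ext u
    constructor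
    · intro hu
      by_cases h0 : u = 0
      · exact Or.inl h0
      obtain ⟨d, hd, c, rfl⟩ := h.surj u h0 hu.1
      have hc : c ≠ 0 := fun e => h0 (by rw [e, zero_smul])
      refine Or.inr ⟨(d, c), ⟨⟨hd, ?_⟩, hc⟩, rfl⟩
      have := hu.2
      rw [hU_smul_r] at this
      exact (mul_eq_zero.1 this).resolve_left (pow_ne_zero _ hc)
    · rintro (rfl | ⟨⟨d, c⟩, ⟨⟨hd, h1⟩, -⟩, rfl⟩)
      · simp [Cfsg.hermForm]
      · refine ⟨?_, ?_⟩
        · show hU (c • φ d) (c • φ d) = 0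
          rw [hU_smul_l, hU_smul_r, (h.comm d hd d hd).1 (Commute.refl d)]; simp
        · show hU w (c • φ d) = 0
          rw [hU_smul_r, h1, mul_zero]
  have c3 : {c : F4 | c ≠ 0}.ncard = 3 := by
    rw [Set.ncard_eq_toFinset_card']; decide
  rw [e, Set.ncard_insert_of_notMem, Set.ncard_image_of_injOn, Set.ncard_prod, c3]
  · rintro ⟨a, c⟩ ⟨⟨ha, -⟩, hc⟩ ⟨b, c'⟩ ⟨⟨hb, -⟩, -⟩ hab
    have hab' : c • φ a = c' • φ b := hab
    have hc' : c ≠ 0 := hc
    obtain rfl : a = b := h.inj a ha b hb (c⁻¹ * c') (by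
      rw [mul_smul, ← hab', smul_smul, inv_mul_cancel₀ hc', one_smul])
    rw [smul_left_injective F4 (h.ne a ha) hab']
  · rintro ⟨⟨d, c⟩, ⟨⟨hd, -⟩, hc⟩, h0⟩
    have h0' : c • φ d = 0 := h0
    exact (smul_ne_zero hc (h.ne d hd)) h0'

theorem Uni.n6 {E : Set G} (h : Uni 6 E) : E.ncard = 693 := by
  obtain ⟨φ, h⟩ := h
  have h1 := h.ncard 0
  rw [ccnt_ncard 6 (fun _ (x : F4) => x * x ^ 2) 0 _ fun u => by simp [Cfsg.hermForm],
    show ccnt (fun _ (x : F4) => x * x ^ 2) 6 0 = 2080 by decide +kernel] at h1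
  have : {a | a ∈ E ∧ hU 0 (φ a) = 0} = E := by ext a; simp [Cfsg.hermForm]
  rw [this] at h1
  omega

theorem Uni.k6 [Finite G] {E : Set G} (h : Uni 6 E) : ∃ d ∈ E, (Dd E d).ncard = 180 := by
  obtain ⟨φ, h⟩ := h
  obtain ⟨d, hd, c, hc⟩ := h.surj (fun i => if i.1 < 2 then 1 else 0) (by decide) (by decide)
  have hc0 : c ≠ 0 := fun e => by
    rw [e, zero_smul] at hc
    exact absurd hc (by decide)
  refine ⟨d, hd, ?_⟩
  have h1 := h.ncard (fun i => if i.1 < 2 then 1 else 0)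
  rw [ccnt_ncard 6 (fun i (x : F4) => (x * x ^ 2, (if i < 2 then 1 else 0) * x ^ 2)) (0, 0) _
    fun u => by simp only [Cfsg.hermForm, Set.mem_setOf_eq, Prod.ext_iff, Prod.fst_sum, Prod.snd_sum],
    show ccnt (fun i (x : F4) => (x * x ^ 2, (if i < 2 then 1 else 0) * x ^ 2)) 6 (0, 0) = 544 by
      decide +kernel] at h1
  have : {a | a ∈ E ∧ hU (fun i => if i.1 < 2 then 1 else 0) (φ a) = 0} = insert d (Dd E d) := by
    ext a
    rw [hc]
    simp only [Set.mem_setOf_eq, hU_smul_l, mul_eq_zero, hc0, false_or, Set.mem_insert_iff]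
    constructor
    · rintro ⟨ha, h2⟩
      by_cases e : a = d
      · exact Or.inl e
      · exact Or.inr ⟨ha, e, (h.comm d hd a ha).2 h2⟩
    · rintro (rfl | ⟨ha, -, h2⟩)
      · exact ⟨hd, (h.comm a hd a hd).1 (Commute.refl a)⟩
      · exact ⟨ha, (h.comm d hd a ha).1 h2⟩
  rw [this, Set.ncard_insert_of_notMem fun h => h.2.1 rfl] at h1
  omega

end CfsgFI
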