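import Cfsg.Agent.FI.Defs

/-! No set of points of `PG(3,4)` meets every line in zero or two points. -/

set_option autoImplicit false

namespace CfsgFI

open CfsgH5

/-- independence modulo `e` -/
def capI (e u w : Fin 4 → F4) : Prop := ∀ x y z : F4, x • u + y • w = z • e → x = 0 ∧ y = 0

set_option synthInstance.maxSize 2000 in
theorem cap_fin : ∀ p q r s t : F4, r ≠ p + q → s ≠ F4.w * p + q → t ≠ F4.w * F4.w * p + q →
    s ≠ F4.w * F4.w * p + r → t ≠ F4.w * p + r → t ≠ p + s →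
    F4.w * r ≠ s + F4.w * F4.w * q → F4.w * F4.w * r ≠ t + F4.w * q → F4.w * s ≠ t + F4.w * F4.w * q →
    s = q + F4.w * p + (r + p + q) * F4.w ^ 2 ∧
      t = q + F4.w * F4.w * p + (r + p + q) * (F4.w * F4.w) ^ 2 ∧ r + p + q ≠ 0 ∧
      r = q + 1 * p + (r + p + q) * 1 ^ 2 := by decide +kernel

theorem cap_cases : ∀ t : F4, t = 0 ∨ t = 1 ∨ t = F4.w ∨ t = F4.w * F4.w := by decide

theorem cap_line {e : Fin 4 → F4} {g : (Fin 4 → F4) → F4}
    (hom : ∀ c : F4, c ≠ 0 → ∀ v, (∀ d : F4, v ≠ d • e) → g (c • v) = c * g v)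
    (cap : ∀ u w, capI e u w → g (u + w) ≠ g u + g w) {a b : Fin 4 → F4} (h : capI e a b) :
    ∃ c : F4, c ≠ 0 ∧ ∀ t : F4, g (t • a + b) = g b + t * g a + c * t ^ 2 := by
  let f : F4 → F4 → F4 := fun x y => g (x • a + y • b)
  have f1 : ∀ c x y : F4, c ≠ 0 → ¬ (x = 0 ∧ y = 0) → f (c * x) (c * y) = c * f x y :=
    fun c x y hc hxy => by
      rw [← hom c hc _ fun d hd => hxy (h x y d hd), smul_add, smul_smul, smul_smul]
  have f2 : ∀ x y x' y' : F4, (∀ s t : F4, s * x + t * x' = 0 → s * y + t * y' = 0 → s = 0 ∧ t = 0) →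
      f (x + x') (y + y') ≠ f x y + f x' y' := fun x y x' y' hxy => by
    have := cap (x • a + y • b) (x' • a + y' • b) fun s t z e1 => by
      obtain ⟨k1, k2⟩ := h (s * x + t * x') (s * y + t * y') z (by rw [← e1]; module)
      exact hxy s t k1 k2
    rwa [show x • a + y • b + (x' • a + y' • b) = (x + x') • a + (y + y') • b by module] at this
  have f3 : ∀ c x y x' y' : F4, c ≠ 0 → ¬ (x = 0 ∧ y = 0) →
      (∀ s t : F4, s * (c * x) + t * x' = 0 → s * (c * y) + t * y' = 0 → s = 0 ∧ t = 0) →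
      ∀ d x'' y'' : F4, d ≠ 0 → ¬ (x'' = 0 ∧ y'' = 0) → c * x + x' = d * x'' → c * y + y' = d * y'' →
      d * f x'' y'' ≠ c * f x y + f x' y' := fun c x y x' y' h1 h2 h3 d x'' y'' h4 h5 h6 h7 => by
    rw [← f1 c x y h1 h2, ← f1 d x'' y'' h4 h5, ← h6, ← h7]
    exact f2 _ _ _ _ h3
  obtain ⟨k1, k2, k3, k4⟩ := cap_fin (f 1 0) (f 0 1) (f 1 1) (f F4.w 1) (f (F4.w * F4.w) 1)
    (by simpa using f3 1 1 0 0 1 (by decide) (by decide) (by decide) 1 1 1 (by decide) (by decide) (by decide) (by decide))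
    (by simpa using f3 F4.w 1 0 0 1 (by decide) (by decide) (by decide) 1 F4.w 1 (by decide) (by decide) (by decide) (by decide))
    (by simpa using f3 (F4.w * F4.w) 1 0 0 1 (by decide) (by decide) (by decide) 1 (F4.w * F4.w) 1 (by decide) (by decide) (by decide) (by decide))
    (by simpa using f3 (F4.w * F4.w) 1 0 1 1 (by decide) (by decide) (by decide) 1 F4.w 1 (by decide) (by decide) (by decide) (by decide))
    (by simpa using f3 F4.w 1 0 1 1 (by decide) (by decide) (by decide) 1 (F4.w * F4.w) 1 (by decide) (by decide) (by decide) (by decide))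
    (by simpa using f3 1 1 0 F4.w 1 (by decide) (by decide) (by decide) 1 (F4.w * F4.w) 1 (by decide) (by decide) (by decide) (by decide))
    (by simpa [add_comm] using f3 (F4.w * F4.w) 0 1 F4.w 1 (by decide) (by decide) (by decide) F4.w 1 1 (by decide) (by decide) (by decide) (by decide))
    (by simpa [add_comm] using f3 F4.w 0 1 (F4.w * F4.w) 1 (by decide) (by decide) (by decide) (F4.w * F4.w) 1 1 (by decide) (by decide) (by decide) (by decide))
    (by simpa [add_comm] using f3 (F4.w * F4.w) 0 1 (F4.w * F4.w) 1 (by decide) (by decide) (by decide) F4.w F4.w 1 (by decide) (by decide) (by decide) (by decide))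
  refine ⟨_, k3, fun t => ?_⟩
  have e1 : f 1 0 = g a := by simp [f]
  have e2 : f 0 1 = g b := by simp [f]
  have e3 : g (t • a + b) = f t 1 := by simp [f]
  rw [e3, ← e1, ← e2]
  rcases cap_cases t with rfl | rfl | rfl | rfl
  · simp
  · exact k4
  · exact k1
  · exact k2

theorem cap_f1 : ∀ c k : F4, c ≠ 0 → k = 0 ∨ ∃ z : F4, c + k * z ^ 2 = 0 := by decide +kernel

theorem cap_f2 : ∀ c m : F4, c ≠ 0 → m = c → F4.w * m ≠ c * F4.w ^ 2 := by decide +kernel

theorem no_cap (K : (Fin 4 → F4) → Prop) (hs : ∀ c : F4, c ≠ 0 → ∀ v, K v → K (c • v))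
    (h0 : K ![1, 0, 0, 0])
    (h : ∀ u w, K u → (∀ c : F4, w ≠ c • u) → ∃! t : F4, K (w + t • u)) : False := by
  have two : (2 : F4) = 0 := by decide
  have h1 : ∀ v, ∃ t : F4, (∀ c : F4, v ≠ c • ![1, 0, 0, 0]) →
      K (v + t • ![1, 0, 0, 0]) ∧ ∀ s : F4, K (v + s • ![1, 0, 0, 0]) → s = t := fun v => by
    by_cases hv : ∀ c : F4, v ≠ c • ![1, 0, 0, 0]
    · obtain ⟨t, ht⟩ := h _ v h0 hv
      exact ⟨t, fun _ => ht⟩
    · exact ⟨0, fun h => absurd h hv⟩
  choose g hg using h1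
  have L := fun a b => cap_line (e := ![1, 0, 0, 0]) (g := g) (a := a) (b := b) (fun c hc v hv => by
    refine ((hg (c • v) fun d hd => hv (c⁻¹ * d) ?_).2 _ ?_).symm
    · rw [← smul_smul, ← hd, smul_smul, inv_mul_cancel₀ hc, one_smul]
    · rw [← smul_smul, ← smul_add]
      exact hs c hc _ (hg v hv).1) fun u w hi e => by
    have ku := (hg u fun d hd => one_ne_zero (hi 1 0 d (by simpa using hd)).1).1
    have kw := (hg w fun d hd => one_ne_zero (hi 0 1 d (by simpa using hd)).2).1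
    have k := (hg (u + w) fun d hd => one_ne_zero (hi 1 1 d (by simpa using hd)).1).1
    obtain ⟨t, -, ht⟩ := h _ (w + g w • ![1, 0, 0, 0]) ku fun d hd =>
      one_ne_zero (hi (-d) 1 (d * g u - g w) (by
        linear_combination (norm := module) hd)).2
    refine one_ne_zero ((ht 1 ?_).trans (ht 0 ?_).symm)
    · rw [e] at k
      convert k using 1
      module
    · simpa using kw
  choose c hc0 hc using fun z : F4 => L ![0, 1, 0, 0] ![0, 0, 1, z] (by
    unfold capI; revert z; decide +kernel)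
  choose d hd0 hd using fun x : F4 => L ![0, 0, 0, 1] ![0, x, 1, 0] (by
    unfold capI; revert x; decide +kernel)
  have v1 : ∀ x z : F4, x • ![0, 1, 0, 0] + ![0, 0, 1, z] = (![0, x, 1, z] : Fin 4 → F4) := by
    decide +kernel
  have v2 : ∀ x z : F4, z • ![0, 0, 0, 1] + ![0, x, 1, 0] = (![0, x, 1, z] : Fin 4 → F4) := by
    decide +kernel
  simp only [v1, v2] at hc hd
  have hk : ∀ z, c z = c 0 + (d 1 - d 0) * z ^ 2 := fun z => by
    linear_combination hd 1 z + hc 0 1 - hc z 1 - hd 0 z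
  have hk0 : d 1 - d 0 = 0 := (cap_f1 _ _ (hc0 0)).resolve_right fun ⟨z, hz⟩ => hc0 z ((hk z).trans hz)
  obtain ⟨β, hβ⟩ := (cap_f1 _ _ (hc0 0)).resolve_left (hd0 0)
  obtain ⟨c', h2, h3⟩ := L ![0, 1, 0, β] ![0, 0, 1, 0] (by
    unfold capI; generalize β = z; revert z; decide +kernel)
  have v3 : ∀ t z : F4, t • ![0, 1, 0, z] + ![0, 0, 1, 0] = (![0, t, 1, t * z] : Fin 4 → F4) := by
    decide +kernel
  simp only [v3] at h3
  have h4 : ∀ t : F4, t * (β * g ![0, 0, 0, 1] + g ![0, 1, 0, 0] - g ![0, 1, 0, β]) = c' * t ^ 2 :=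
    fun t => by
      have := hk (t * β)
      rw [hk0, zero_mul, add_zero] at this
      linear_combination h3 t - hc (t * β) t - hd 0 (t * β) - t ^ 2 * this - t ^ 2 * hβ
  exact cap_f2 c' _ h2 (by simpa using h4 1) (h4 _)

end CfsgFI
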