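import Cfsg.Agent.H4.Fischer8
import Cfsg.Prelude.Def_Sporadic

/-! Fischer's theorem (simple case): definitions and work-package statements. -/

set_option autoImplicit false

namespace CfsgFI

open Subgroup CfsgH4 CfsgH5

universe u

section defs
variable {G : Type*} [Group G]

/-- a conjugation-closed set of 3-transpositions -/
structure TS (E : Set G) : Prop where
  tt : Cfsg.IsThreeTranspositionSet E
  cl : ∀ a ∈ E, ∀ b ∈ E, a * b * a ∈ E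

/-- common neighbours of `d` and `a` (used for non-commuting `d`, `a`) -/
def Xs (E : Set G) (d a : G) : Set G := {y | y ∈ E ∧ Commute d y ∧ Commute a y}

/-- every non-commuting pair has a common neighbour -/
def Mu (E : Set G) : Prop := ∀ d ∈ E, ∀ a ∈ E, ¬ Commute d a → ∃ x ∈ E, Commute d x ∧ Commute a x

/-- combinatorial irreducibility -/
structure Irr (E : Set G) : Prop extends TS E where
  cls : ∀ a ∈ E, ∀ b ∈ E, ∃ g ∈ closure E, g * a * g⁻¹ = b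
  exn : ∃ a ∈ E, ∃ b ∈ E, ¬ Commute a b
  mu : Mu E
  tau : ∀ a ∈ E, ∀ b ∈ E, a ≠ b → Commute a b → ∃ x ∈ E, ¬ (Commute a x ↔ Commute b x)
  theta : ∀ a ∈ E, ∀ b ∈ E, ¬ Commute a b → Dd E a ≠ Dd E b

/-- Fischer's rank three facts for the set `E` and the group it generates -/
structure Fi (E : Set G) : Prop extends Irr E where
  V : ∀ d ∈ E, ∀ a ∈ E, a ≠ d → ∃ x ∈ E, Commute d x ∧ ¬ Commute a x
  W : ∀ d ∈ E, ∀ b ∈ E, ¬ Commute d b → ∃ x ∈ E, x ≠ d ∧ Commute d x ∧ ¬ Commute b x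
  HR : ∀ d ∈ E, ∀ b ∈ E, ∀ c ∈ E, ¬ Commute d b → ¬ Commute d c →
    ∃ h ∈ closure (perp E d), h * b * h⁻¹ = c
  Dcl : ∀ d ∈ E, ∀ a ∈ Dd E d, ∀ b ∈ Dd E d, ∃ g ∈ closure (Dd E d), g * a * g⁻¹ = b

/-- all local geometries are irreducible -/
def LFi (E : Set G) : Prop := ∀ d ∈ E, Fi (Dd E d)

/-- symplectic type: no affine plane -/
def Sym (E : Set G) : Prop :=
  ∀ a ∈ E, ∀ b ∈ E, ∀ x ∈ E, ¬ Commute a b → Commute x a ∨ Commute x b ∨ Commute x (a * b * a)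

/-- the hermitian form `∑ u i * v i ^ 2` -/
abbrev hU {n : ℕ} (u v : Fin n → F4) : F4 := Cfsg.hermForm n F4 2 u v

/-- `φ` identifies `E` with the isotropic points of the unitary space of dimension `n` -/
structure UniM (n : ℕ) (E : Set G) (φ : G → Fin n → F4) : Prop where
  ne : ∀ a ∈ E, φ a ≠ 0
  comm : ∀ a ∈ E, ∀ b ∈ E, (Commute a b ↔ hU (φ a) (φ b) = 0)
  surj : ∀ u, u ≠ 0 → hU u u = 0 → ∃ d ∈ E, ∃ c : F4, u = c • φ d
  inj : ∀ a ∈ E, ∀ b ∈ E, ∀ c : F4, φ a = c • φ b → a = b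
  conj : ∀ a ∈ E, ∀ b ∈ E, ∃ c : F4, φ (a * b * a) = c • (φ b + hU (φ b) (φ a) • φ a)

def Uni (n : ℕ) (E : Set G) : Prop := ∃ φ, UniM n E φ

/-- the diagonal form over the field with three elements -/
def bO {m : ℕ} (c u v : Fin m → ZMod 3) : ZMod 3 := ∑ i, c i * u i * v i

/-- `v` identifies `E` with the points of norm 2 of the diagonal form `c` -/
structure OrtM {m : ℕ} (c : Fin m → ZMod 3) (E : Set G) (v : G → Fin m → ZMod 3) : Prop where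
  nz : ∀ i, c i ≠ 0
  norm : ∀ a ∈ E, bO c (v a) (v a) = 2
  comm : ∀ a ∈ E, ∀ b ∈ E, a ≠ b → (Commute a b ↔ bO c (v a) (v b) = 0)
  surj : ∀ u, bO c u u = 2 → ∃ a ∈ E, u = v a ∨ u = - v a
  inj : ∀ a ∈ E, ∀ b ∈ E, (v a = v b ∨ v a = - v b) → a = b

def Ort {m : ℕ} (c : Fin m → ZMod 3) (E : Set G) : Prop := ∃ v, OrtM c E v

/-- the all-2 form -/
abbrev c2 (m : ℕ) : Fin m → ZMod 3 := fun _ => 2

def F22 (E : Set G) : Prop := Fi E ∧ LFi E ∧ ∀ d ∈ E, Uni 6 (Dd E d)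
def F23 (E : Set G) : Prop := Fi E ∧ ∀ d ∈ E, F22 (Dd E d)
def F24 (E : Set G) : Prop := Fi E ∧ ∀ d ∈ E, F23 (Dd E d)

/-- a commuting pair and a common non-neighbour have a common neighbour -/
def Tri (E : Set G) : Prop := ∀ d ∈ E, ∀ e ∈ E, ∀ c ∈ E, d ≠ e → Commute d e → ¬ Commute d c →
  ¬ Commute e c → ∃ x ∈ E, Commute x d ∧ Commute x e ∧ Commute x c

/-- the common neighbours of `d`, `a` determine the line through `d`, `a` -/
def Fib (E : Set G) : Prop := ∀ d ∈ E, ∀ a ∈ E, ∀ a' ∈ E, ¬ Commute d a → ¬ Commute d a' →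
  Xs E d a = Xs E d a' → a' = a ∨ a' = d * a * d

/-- commuting graph on the common neighbours of a commuting pair: non-empty, diameter two, and
every commuting pair of its points extends to a triangle -/
def Lam (E : Set G) : Prop := ∀ d ∈ E, ∀ e ∈ Dd E d, ∀ x ∈ Dd (Dd E d) e, ∀ x' ∈ Dd (Dd E d) e,
  ∃ y ∈ Dd (Dd E d) e, y ≠ x ∧ y ≠ x' ∧ Commute y x ∧ Commute y x'

/-- centralisers are generated by the commuting points (and the central set `Z`) -/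
def PA (E Z : Set G) : Prop := ∀ c ∈ E, ∀ g ∈ closure (E ∪ Z), Commute g c →
  g ∈ closure (perp E c ∪ Z)

/-- there is a sign: no word of odd length in `S` is trivial -/
def Sg (S : Set G) : Prop := ∃ N : Subgroup G, (∀ x ∈ S, ∀ y ∈ S, x * y ∈ N) ∧ ∀ x ∈ S, x ∉ N

/-- the order of the group induced on `E` -/
noncomputable def iord (E : Set G) : ℕ := (centralizer E).relIndex (closure E)

end defs

/-- P0: irreducible sets have the rank three property -/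
def SpecFi : Prop := ∀ (G : Type u) [Group G] [Finite G] (E : Set G), Irr E → Fi E

/-- P0: trichotomy -/
def SpecTri : Prop := ∀ (G : Type u) [Group G] [Finite G] (E : Set G), Fi E →
  LFi E ∨ Sym E ∨ ∃ n, 4 ≤ n ∧ Uni n E

/-- P0: local connectivity -/
def SpecLC : Prop := ∀ (G : Type u) [Group G] [Finite G] (E : Set G), Fi E → ∀ e ∈ E,
  (∃ g ∈ Dd E e, ∃ g' ∈ Dd E e, ∃ h ∈ Dd E e, ¬ Commute g g' ∧ Commute g h ∧ Commute g' h) →
  Mu (Dd E e)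

/-- P1: a simple group is not of symplectic type with irreducible local geometry -/
def SpecSym : Prop := ∀ (G : Type u) [Group G] [Finite G] [IsSimpleGroup G] (D : Set G),
  closure D = ⊤ → Fi D → LFi D → Sym D → False

/-- P2: locally symplectic, globally not -/
def SpecSO : Prop := ∀ (G : Type u) [Group G] [Finite G] (E : Set G), Fi E → LFi E →
  (∀ d ∈ E, Sym (Dd E d)) → ¬ Sym E → ∀ d ∈ E, Ort ![2, 2, 2, 2, 1] (Dd E d)

/-- P3a(0): conjugation is reflection -/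
def SpecOC : Prop := ∀ (G : Type u) [Group G] (E : Set G) (m : ℕ) (c : Fin m → ZMod 3)
  (v : G → Fin m → ZMod 3), 5 ≤ m → TS E → OrtM c E v → ∀ a ∈ E, ∀ b ∈ E,
  v (a * b * a) = v b - bO c (v b) (v a) • v a ∨ v (a * b * a) = - (v b - bO c (v b) (v a) • v a)

/-- P3a: the common neighbours are the perp of a singular vector -/
def SpecOX : Prop := ∀ (G : Type u) [Group G] (E : Set G) (m : ℕ) (c : Fin m → ZMod 3),
  5 ≤ m → TS E → (∀ e ∈ E, Ort c (Dd E e)) → ∀ d ∈ E, ∀ v, OrtM c (Dd E d) v →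
  (∀ a ∈ E, ¬ Commute d a → (∃ x ∈ E, Commute d x ∧ Commute a x) →
    ∃ u, u ≠ 0 ∧ bO c u u = 0 ∧ ∀ e ∈ Dd E d, (Commute a e ↔ bO c u (v e) = 0)) ∧
  (∀ u, u ≠ 0 → bO c u u = 0 →
    ∃ a ∈ E, ¬ Commute d a ∧ ∀ e ∈ Dd E d, (Commute a e ↔ bO c u (v e) = 0)) ∧
  (∀ a ∈ E, ∀ a' ∈ E, ¬ Commute d a → ¬ Commute d a' → (∃ x ∈ E, Commute d x ∧ Commute a x) →
    Xs E d a = Xs E d a' → a' = a ∨ a' = d * a * d)

/-- P3b: locally orthogonal is orthogonal -/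
def SpecOrt : Prop := ∀ (G : Type u) [Group G] (E : Set G) (m : ℕ) (c : Fin m → ZMod 3),
  5 ≤ m → TS E → (∀ e ∈ E, Ort c (Dd E e)) → ∀ d ∈ E,
  (∀ a ∈ E, ¬ Commute d a → ∃ x ∈ E, Commute d x ∧ Commute a x) →
  Ort (Fin.cons 2 c : Fin (m + 1) → ZMod 3) E

/-- P4a: unitary basics -/
def SpecU0 : Prop := ∀ (G : Type u) [Group G] (E : Set G), TS E →
  (∀ n, Uni (n + 2) E → Fi E → ∀ d ∈ E, ∀ a ∈ E, ¬ Commute d a → Uni n (Xs E d a)) ∧
  (Uni 4 E → Ort (c2 5) E) ∧ (Uni 6 E → Fib E) ∧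
  (∀ F : Set G, (∀ d ∈ F, Uni 6 (Dd F d)) → Lam F)

/-- P4b: locally unitary only in dimensions 4 and 6 -/
def SpecU : Prop := ∀ (G : Type u) [Group G] [Finite G] (E : Set G) (n : ℕ), 4 ≤ n → Fi E → LFi E →
  (∀ d ∈ E, Uni n (Dd E d)) → n = 4 ∨ n = 6

/-- three mutually non-commuting components of type `O₈⁺(3)` -/
def Tria {G : Type*} [Group G] (X : Set G) : Prop :=
  ∃ X1 X2 X3 : Set G, X = X1 ∪ X2 ∪ X3 ∧ Ort (c2 8) X1 ∧ Ort (c2 8) X2 ∧ Ort (c2 8) X3 ∧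
    (∀ a ∈ X1, ∀ b ∈ X2, ¬ Commute a b) ∧ (∀ a ∈ X1, ∀ b ∈ X3, ¬ Commute a b) ∧
    (∀ a ∈ X2, ∀ b ∈ X3, ¬ Commute a b)

/-- P5a: parameters of the three Fischer geometries -/
def SpecC : Prop := ∀ (G : Type u) [Group G] [Finite G] (E : Set G),
  (F22 E → E.ncard = 3510 ∧ Tri E) ∧ (F23 E → E.ncard = 31671 ∧ Tri E) ∧
  (F24 E → Tri E ∧ ∀ d ∈ E, ∀ a ∈ E, ¬ Commute d a → Tria (Xs E d a))

/-- P5b: the end of the chain -/
def SpecEnd : Prop := ∀ (G : Type u) [Group G] [Finite G] (E : Set G), Fi E →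
  (∀ e ∈ E, ∀ d ∈ Dd E e, ∀ a ∈ Dd E e, ¬ Commute d a → Tria (Xs (Dd E e) d a)) → False

/-- P6a: the transport lemma -/
def SpecT : Prop := ∀ (G : Type u) [Group G] (E Z : Set G), Fi E → LFi E → Tri E → Lam E →
  (∀ z ∈ Z, ∀ y ∈ E ∪ Z, Commute z y) → (∀ c ∈ E, PA (Dd E c) (insert c Z)) →
  PA E Z ∧ ((∀ c ∈ E, Sg (Dd E c ∪ insert c Z)) → Sg (E ∪ Z))

/-- P6b: kernel lemma and order formula -/
def SpecK : Prop := ∀ (G : Type u) [Group G] [Finite G] (E : Set G), Fi E →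
  ((∀ d ∈ E, Fib (Dd E d)) → Fib E) ∧
  (Fib E → ∀ d ∈ E, ∀ g ∈ closure E, (∀ y ∈ perp E d, Commute g y) →
    g ∈ centralizer E ∨ g * d ∈ centralizer E) ∧
  (Fib E → ∀ Z : Set G, (∀ z ∈ Z, ∀ y ∈ E, Commute z y) → PA E Z →
    ∀ d ∈ E, iord E = E.ncard * 2 * iord (Dd E d))

/-- P7: the six-dimensional unitary geometry -/
def SpecU6 : Prop := ∀ (G : Type u) [Group G] [Finite G] (Y : Set G), TS Y → Uni 6 Y →
  (∀ c ∈ Y, ∀ g ∈ closure Y, Commute g c → ∃ h ∈ closure (perp Y c), g * h⁻¹ ∈ centralizer Y) ∧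
  iord Y = 9196830720 ∧
  ¬ 16 ∣ Nat.card (centralizer Y ⊓ closure Y : Subgroup G)

/-- P7b: the sign at the bottom of the chain -/
def SpecS6 : Prop := ∀ (G : Type u) [Group G] [Finite G] (E : Set G), closure E = ⊤ →
  center G = ⊥ → F24 E → ∀ x ∈ E, ∀ y ∈ Dd E x, ∀ z ∈ Dd (Dd E x) y,
  Sg (Dd (Dd (Dd E x) y) z ∪ {z, y, x})

/-- P8: identification of the orthogonal groups -/
def SpecO : Prop := ∀ (G : Type u) [Group G] [Finite G] [IsSimpleGroup G] (D : Set G) (m : ℕ)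
  (c : Fin m → ZMod 3), 6 ≤ m → closure D = ⊤ → TS D → Ort c D →
  ∃ k : ℕ, Nonempty (G ≃* Cfsg.POmega (ZMod 3) (Cfsg.quadFormOdd k (ZMod 3)))

end CfsgFI
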