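import Cfsg.Agent.FI.B0

/-! Diagonal forms over the field with three elements: basic lemmas, Lemma S, reflections. -/

set_option autoImplicit false

namespace CfsgFI

open Subgroup CfsgH4

universe u

section form
variable {m : ℕ} (c : Fin m → ZMod 3)

theorem z3_cases (x : ZMod 3) : x = 0 ∨ x = 1 ∨ x = -1 := by revert x; decide

theorem z3_sq {x : ZMod 3} (h : x ≠ 0) : x * x = 1 := by revert x; decide

theorem bO_comm (u v : Fin m → ZMod 3) : bO c u v = bO c v u := by
  unfold bO; exact Finset.sum_congr rfl fun i _ => by ring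

theorem bO_add_left (u v w : Fin m → ZMod 3) : bO c (u + v) w = bO c u w + bO c v w := by
  unfold bO; rw [← Finset.sum_add_distrib]
  exact Finset.sum_congr rfl fun i _ => by simp only [Pi.add_apply]; ring

theorem bO_add_right (u v w : Fin m → ZMod 3) : bO c u (v + w) = bO c u v + bO c u w := by
  rw [bO_comm, bO_add_left, bO_comm c v, bO_comm c w]

theorem bO_smul_left (k : ZMod 3) (u v : Fin m → ZMod 3) : bO c (k • u) v = k * bO c u v := by
  unfold bO; rw [Finset.mul_sum]
  exact Finset.sum_congr rfl fun i _ => by simp only [Pi.smul_apply, smul_eq_mul]; ring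

theorem bO_smul_right (k : ZMod 3) (u v : Fin m → ZMod 3) : bO c u (k • v) = k * bO c u v := by
  rw [bO_comm, bO_smul_left, bO_comm]

theorem bO_neg_left (u v : Fin m → ZMod 3) : bO c (-u) v = - bO c u v := by
  rw [← neg_one_smul (ZMod 3) u, bO_smul_left]; ring

theorem bO_neg_right (u v : Fin m → ZMod 3) : bO c u (-v) = - bO c u v := by
  rw [bO_comm, bO_neg_left, bO_comm]

theorem bO_sub_left (u v w : Fin m → ZMod 3) : bO c (u - v) w = bO c u w - bO c v w := by
  rw [sub_eq_add_neg, bO_add_left, bO_neg_left]; ring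

theorem bO_sub_right (u v w : Fin m → ZMod 3) : bO c u (v - w) = bO c u v - bO c u w := by
  rw [sub_eq_add_neg, bO_add_right, bO_neg_right]; ring

theorem bO_zero_left (v : Fin m → ZMod 3) : bO c 0 v = 0 := by simp [bO]

theorem bO_zero_right (v : Fin m → ZMod 3) : bO c v 0 = 0 := by simp [bO]

/-- bilinear expansion (use as `simp only [bO_lin]`) -/
theorem bO_lin : (∀ u v w, bO c (u + v) w = bO c u w + bO c v w) ∧
    (∀ u v w, bO c u (v + w) = bO c u v + bO c u w) ∧
    (∀ u v w, bO c (u - v) w = bO c u w - bO c v w) ∧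
    (∀ u v w, bO c u (v - w) = bO c u v - bO c u w) ∧
    (∀ (k : ZMod 3) u v, bO c (k • u) v = k * bO c u v) ∧
    (∀ (k : ZMod 3) u v, bO c u (k • v) = k * bO c u v) ∧
    (∀ u v, bO c (-u) v = - bO c u v) ∧ (∀ u v, bO c u (-v) = - bO c u v) ∧
    (∀ v, bO c 0 v = 0) ∧ (∀ v, bO c v 0 = 0) :=
  ⟨bO_add_left c, bO_add_right c, bO_sub_left c, bO_sub_right c, bO_smul_left c, bO_smul_right c,
    bO_neg_left c, bO_neg_right c, bO_zero_left c, bO_zero_right c⟩

/-- the members of `U` orthogonal to `b` -/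
def pp (U : Submodule (ZMod 3) (Fin m → ZMod 3)) (b : Fin m → ZMod 3) :
    Submodule (ZMod 3) (Fin m → ZMod 3) where
  carrier := {y | y ∈ U ∧ bO c y b = 0}
  add_mem' ha hb := ⟨U.add_mem ha.1 hb.1, by rw [bO_add_left, ha.2, hb.2, add_zero]⟩
  zero_mem' := ⟨U.zero_mem, bO_zero_left c b⟩
  smul_mem' k x hx := ⟨U.smul_mem k hx.1, by rw [bO_smul_left, hx.2, mul_zero]⟩

theorem mem_pp {U : Submodule (ZMod 3) (Fin m → ZMod 3)} {b y : Fin m → ZMod 3} :
    y ∈ pp c U b ↔ y ∈ U ∧ bO c y b = 0 := Iff.rfl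

/-- `U` is non-degenerate of dimension at least `k` -/
def ND (k : ℕ) (U : Submodule (ZMod 3) (Fin m → ZMod 3)) : Prop :=
  k ≤ Module.finrank (ZMod 3) U ∧ ∀ z ∈ U, z ≠ 0 → ∃ y ∈ U, bO c y z ≠ 0

variable {c}

theorem nd_top (hc : ∀ i, c i ≠ 0) {k : ℕ} (hk : k ≤ m) : ND c k ⊤ := by
  refine ⟨by simpa using hk, fun z _ hz => ?_⟩
  obtain ⟨i, hi⟩ := Function.ne_iff.mp hz
  refine ⟨Pi.single i 1, trivial, ?_⟩
  have : bO c (Pi.single i 1) z = c i * z i := by
    unfold bO
    rw [Finset.sum_eq_single i]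
    · simp
    · intro j _ hj; simp [hj]
    · simp
  rw [this]
  exact mul_ne_zero (hc i) hi

theorem ND.mono {k l : ℕ} {U : Submodule (ZMod 3) (Fin m → ZMod 3)} (h : ND c k U) (hl : l ≤ k) :
    ND c l U := ⟨hl.trans h.1, h.2⟩

theorem finrank_le_pp (U : Submodule (ZMod 3) (Fin m → ZMod 3)) (b : Fin m → ZMod 3) :
    Module.finrank (ZMod 3) U ≤ Module.finrank (ZMod 3) (pp c U b) + 1 := by
  let f : U →ₗ[ZMod 3] ZMod 3 :=
    { toFun := fun y => bO c y b
      map_add' := fun x y => by simp [bO_add_left]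
      map_smul' := fun k x => by simp [bO_smul_left] }
  have h1 := LinearMap.finrank_range_add_finrank_ker f
  have h2 : Module.finrank (ZMod 3) (LinearMap.range f) ≤ 1 := by
    have := Submodule.finrank_le (LinearMap.range f)
    simpa using this
  have h3 : (LinearMap.ker f).map U.subtype = pp c U b := by
    ext y
    constructor
    · rintro ⟨x, hx, rfl⟩
      exact ⟨x.2, hx⟩
    · rintro ⟨h, h'⟩
      exact ⟨⟨y, h⟩, h', rfl⟩
  have h4 := Submodule.finrank_map_subtype_eq U (LinearMap.ker f)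
  rw [h3] at h4
  omega

theorem ND.pp {k : ℕ} {U : Submodule (ZMod 3) (Fin m → ZMod 3)} (h : ND c (k + 1) U)
    {b : Fin m → ZMod 3} (hb : b ∈ U) (hbb : bO c b b ≠ 0) : ND c k (pp c U b) := by
  refine ⟨by have := finrank_le_pp (c := c) U b; have := h.1; omega, fun z hz hz0 => ?_⟩
  obtain ⟨y, hy, hyz⟩ := h.2 z hz.1 hz0
  refine ⟨y - (bO c y b * bO c b b) • b, ⟨U.sub_mem hy (U.smul_mem _ hb), ?_⟩, ?_⟩
  · simp only [bO_lin]
    rw [mul_assoc, z3_sq hbb]; ring
  · simp only [bO_lin]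
    rw [bO_comm c b z, hz.2]; simpa using hyz

theorem ND.exists_aniso {U : Submodule (ZMod 3) (Fin m → ZMod 3)} (h : ND c 1 U) :
    ∃ y ∈ U, bO c y y ≠ 0 := by
  have hU : U ≠ ⊥ := by
    rintro rfl
    have := h.1
    simp at this
  obtain ⟨z, hz, hz0⟩ := Submodule.exists_mem_ne_zero_of_ne_bot hU
  obtain ⟨y, hy, hyz⟩ := h.2 z hz hz0
  by_cases h1 : bO c z z = 0
  · by_cases h2 : bO c y y = 0
    · refine ⟨y + z, U.add_mem hy hz, ?_⟩
      simp only [bO_lin, h1, h2, bO_comm c z y]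
      revert hyz; generalize bO c y z = t; revert t; decide
    · exact ⟨y, hy, h2⟩
  · exact ⟨z, hz, h1⟩

theorem ND.exists_plus {U : Submodule (ZMod 3) (Fin m → ZMod 3)} (h : ND c 2 U) :
    ∃ y ∈ U, bO c y y = 2 := by
  obtain ⟨y, hy, hyy⟩ := (h.mono (by norm_num)).exists_aniso
  obtain ⟨z, hz, hzz⟩ := (h.pp hy hyy).exists_aniso
  by_cases h1 : bO c y y = 2
  · exact ⟨y, hy, h1⟩
  by_cases h2 : bO c z z = 2
  · exact ⟨z, hz.1, h2⟩
  refine ⟨y + z, U.add_mem hy hz.1, ?_⟩
  simp only [bO_lin, bO_comm c y z, hz.2]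
  revert hyy hzz h1 h2
  generalize bO c y y = s; generalize bO c z z = t; revert s t; decide

theorem ND.exists_one {k : ℕ} {U : Submodule (ZMod 3) (Fin m → ZMod 3)} (h : ND c k U)
    {w : Fin m → ZMod 3} (hw : w ∈ U) (hw0 : w ≠ 0) : ∃ y ∈ U, bO c y w = 1 := by
  obtain ⟨y, hy, hyw⟩ := h.2 w hw hw0
  exact ⟨bO c y w • y, U.smul_mem _ hy, by rw [bO_smul_left, z3_sq hyw]⟩

/-- a vector orthogonal to `w` and not to `w'` -/
theorem ND.exists_sep {k : ℕ} {U : Submodule (ZMod 3) (Fin m → ZMod 3)} (h : ND c k U)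
    {w w' : Fin m → ZMod 3} (hw : w ∈ U) (hw' : w' ∈ U) (hw0 : w ≠ 0) (hw'0 : w' ≠ 0)
    (h1 : w' ≠ w) (h2 : w' ≠ -w) : ∃ y ∈ U, bO c y w = 0 ∧ bO c y w' = 1 := by
  obtain ⟨y0, hy0, e0⟩ := h.exists_one hw hw0
  have hz : w' - bO c y0 w' • w ≠ 0 := by
    intro e
    rw [sub_eq_zero] at e
    rcases z3_cases (bO c y0 w') with t | t | t <;> rw [t] at e
    · exact hw'0 (by simpa using e)
    · exact h1 (by simpa using e)
    · exact h2 (by simpa using e)
  obtain ⟨y1, hy1, e1⟩ := h.exists_one (U.sub_mem hw' (U.smul_mem _ hw)) hz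
  refine ⟨y1 - bO c y1 w • y0, U.sub_mem hy1 (U.smul_mem _ hy0), ?_, ?_⟩
  · simp only [bO_lin, e0]; ring
  · simp only [bO_lin] at e1 ⊢
    rw [← e1]; ring

/-- Lemma S, orthogonal case -/
theorem ND.lemmaS0 {k : ℕ} {U : Submodule (ZMod 3) (Fin m → ZMod 3)} (h : ND c k U)
    {w w' : Fin m → ZMod 3} (hw : w ∈ U) (hw' : w' ∈ U) (hw0 : w ≠ 0) (hw'0 : w' ≠ 0)
    (hs' : bO c w' w' = 0) (hww : bO c w' w = 0)
    (h1 : w' ≠ w) (h2 : w' ≠ -w) : ∃ p ∈ U, bO c p p = 2 ∧ bO c p w = 0 ∧ bO c p w' = 1 := by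
  obtain ⟨y, hy, e, e'⟩ := h.exists_sep hw hw' hw0 hw'0 h1 h2
  refine ⟨y + (1 + bO c y y) • w', U.add_mem hy (U.smul_mem _ hw'), ?_, ?_, ?_⟩
  · simp only [bO_lin, hs', e', bO_comm c w' y]
    generalize bO c y y = t; revert t; decide
  · simp only [bO_lin, e, hww]; ring
  · simp only [bO_lin, e', hs']; ring

/-- the complement of a hyperbolic plane -/
theorem ND.hyp {k : ℕ} {U : Submodule (ZMod 3) (Fin m → ZMod 3)} (h : ND c (k + 2) U)
    {w w' : Fin m → ZMod 3} (hw : w ∈ U) (hw' : w' ∈ U) (hs : bO c w w = 0)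
    (hs' : bO c w' w' = 0) (hww : bO c w' w ≠ 0) :
    ∃ U' : Submodule (ZMod 3) (Fin m → ZMod 3), ND c k U' ∧
      ∀ y, y ∈ U' ↔ y ∈ U ∧ bO c y w = 0 ∧ bO c y w' = 0 := by
  have a1 : bO c (w + w') (w + w') ≠ 0 := by
    simp only [bO_lin, hs, hs', bO_comm c w w']
    revert hww; generalize bO c w' w = t; revert t; decide
  have a2 : bO c (w - w') (w - w') ≠ 0 := by
    simp only [bO_lin, hs, hs', bO_comm c w w']
    revert hww; generalize bO c w' w = t; revert t; decide
  have a3 : bO c (w - w') (w + w') = 0 := by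
    simp only [bO_lin, hs, hs', bO_comm c w w']; ring
  refine ⟨_, (h.pp (U.add_mem hw hw') a1).pp (b := w - w') ⟨U.sub_mem hw hw', a3⟩ a2, fun y => ?_⟩
  simp only [mem_pp, bO_lin, and_assoc]
  refine and_congr_right fun _ => ?_
  generalize bO c y w = s; generalize bO c y w' = t; revert s t; decide

/-- Lemma S -/
theorem ND.lemmaS {U : Submodule (ZMod 3) (Fin m → ZMod 3)} (h : ND c 4 U)
    {w w' : Fin m → ZMod 3} (hw : w ∈ U) (hw' : w' ∈ U) (hw0 : w ≠ 0) (hw'0 : w' ≠ 0)
    (hs : bO c w w = 0) (hs' : bO c w' w' = 0)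
    (h1 : w' ≠ w) (h2 : w' ≠ -w) : ∃ p ∈ U, bO c p p = 2 ∧ bO c p w = 0 ∧ bO c p w' ≠ 0 := by
  by_cases hww : bO c w' w = 0
  · obtain ⟨p, hp, a, b, d⟩ := h.lemmaS0 hw hw' hw0 hw'0 hs' hww h1 h2
    exact ⟨p, hp, a, b, by rw [d]; decide⟩
  obtain ⟨U', hU', e⟩ := h.hyp (k := 2) hw hw' hs hs' hww
  obtain ⟨y, hy, hyy⟩ := hU'.exists_plus
  obtain ⟨hyU, y1, y2⟩ := (e y).mp hy
  refine ⟨y + w, U.add_mem hyU hw, ?_, ?_, ?_⟩
  · simp only [bO_lin, hyy, y1, hs, bO_comm c w y]; ring
  · simp only [bO_lin, y1, hs]; ring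
  · simp only [bO_lin, y2, bO_comm c w w']; simpa using hww

/-- a vector of norm two orthogonal to a singular vector -/
theorem ND.exists_plus_perp {U : Submodule (ZMod 3) (Fin m → ZMod 3)} (h : ND c 4 U)
    {w : Fin m → ZMod 3} (hw : w ∈ U) (hw0 : w ≠ 0) (hs : bO c w w = 0) :
    ∃ p ∈ U, bO c p p = 2 ∧ bO c p w = 0 := by
  obtain ⟨y, hy, e⟩ := h.exists_one hw hw0
  have hs' : bO c (y + bO c y y • w) (y + bO c y y • w) = 0 := by
    simp only [bO_lin, e, hs, bO_comm c w y]
    generalize bO c y y = t; revert t; decide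
  have hww : bO c (y + bO c y y • w) w ≠ 0 := by
    simp only [bO_lin, e, hs]; simp
  obtain ⟨U', hU', e'⟩ := h.hyp (k := 2) hw (U.add_mem hy (U.smul_mem _ hw)) hs hs' hww
  obtain ⟨p, hp, hpp⟩ := hU'.exists_plus
  exact ⟨p, ((e' p).mp hp).1, hpp, ((e' p).mp hp).2.1⟩

/-- equality up to sign -/
def pm (x y : Fin m → ZMod 3) : Prop := x = y ∨ x = -y

theorem pm.refl (x : Fin m → ZMod 3) : pm x x := Or.inl rfl

theorem pm.symm {x y : Fin m → ZMod 3} (h : pm x y) : pm y x := by
  rcases h with rfl | rfl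
  · exact Or.inl rfl
  · exact Or.inr (neg_neg _).symm

theorem pm.trans {x y z : Fin m → ZMod 3} (h : pm x y) (h' : pm y z) : pm x z := by
  rcases h with rfl | rfl <;> rcases h' with rfl | rfl
  · exact Or.inl rfl
  · exact Or.inr rfl
  · exact Or.inr rfl
  · exact Or.inl (neg_neg _)

theorem pm.left {x y : Fin m → ZMod 3} (h : pm x y) (z : Fin m → ZMod 3) :
    bO c x z = 0 ↔ bO c y z = 0 := by
  rcases h with rfl | rfl
  · rfl
  · rw [bO_neg_left, neg_eq_zero]

theorem pm.right {x y : Fin m → ZMod 3} (h : pm x y) (z : Fin m → ZMod 3) :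
    bO c z x = 0 ↔ bO c z y = 0 := by
  rw [bO_comm c z, bO_comm c z]; exact h.left z

theorem pm.norm {x y : Fin m → ZMod 3} (h : pm x y) : bO c x x = bO c y y := by
  rcases h with rfl | rfl
  · rfl
  · rw [bO_neg_left, bO_neg_right, neg_neg]

variable (c) in
/-- the reflection in a vector of norm two -/
def rf (a b : Fin m → ZMod 3) : Fin m → ZMod 3 := b - bO c b a • a

theorem pm.rf {a a' b b' : Fin m → ZMod 3} (h : pm a a') (h' : pm b b') :
    pm (rf c a b) (rf c a' b') := by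
  unfold CfsgFI.rf
  rcases h with rfl | rfl <;> rcases h' with rfl | rfl
  · exact Or.inl rfl
  · right; simp only [bO_lin]; module
  · left; simp only [bO_lin]; module
  · right; simp only [bO_lin]; module

theorem rf_rf {a : Fin m → ZMod 3} (ha : bO c a a = 2) (x y : Fin m → ZMod 3) :
    bO c (rf c a x) (rf c a y) = bO c x y := by
  unfold rf
  simp only [bO_lin, ha, bO_comm c a y]; ring

theorem smul_two (x : Fin m → ZMod 3) : (2 : ZMod 3) • x = -x := by
  rw [show (2 : ZMod 3) = -1 from rfl, neg_one_smul]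

theorem add_self3 (x : Fin m → ZMod 3) : x + x = -x := by
  rw [← two_smul (ZMod 3) x, smul_two]

end form

section pts
variable {G : Type*} [Group G] {E : Set G} {m : ℕ} {c : Fin m → ZMod 3} {v : G → Fin m → ZMod 3}

theorem OrtM.orth (h : OrtM c E v) {a b : G} (ha : a ∈ E) (hb : b ∈ E) :
    bO c (v a) (v b) = 0 ↔ a ≠ b ∧ Commute a b := by
  by_cases e : a = b
  · subst e
    rw [h.norm a ha]
    exact ⟨fun e => absurd e (by decide), fun e => (e.1 rfl).elim⟩
  · rw [← h.comm a ha b hb e]; simp [e]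

theorem OrtM.ne_of_nc (h : OrtM c E v) {a b : G} (ha : a ∈ E) (hb : b ∈ E) (hab : ¬ Commute a b) :
    bO c (v a) (v b) ≠ 0 := fun e => hab ((h.orth ha hb).mp e).2

theorem OrtM.surj' (h : OrtM c E v) {u : Fin m → ZMod 3} (hu : bO c u u = 2) :
    ∃ a ∈ E, pm u (v a) := h.surj u hu

theorem OrtM.inj' (h : OrtM c E v) {a b : G} (ha : a ∈ E) (hb : b ∈ E) (e : pm (v a) (v b)) :
    a = b := h.inj a ha b hb e

variable (c v) in
/-- the radical of the line through `t` and `a` -/
def rad (t a : G) : Fin m → ZMod 3 := v a + bO c (v a) (v t) • v t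

theorem OrtM.rad_spec (h : OrtM c E v) {t a : G} (ht : t ∈ E) (ha : a ∈ E) (hta : ¬ Commute t a) :
    rad c v t a ≠ 0 ∧ bO c (rad c v t a) (rad c v t a) = 0 ∧ bO c (rad c v t a) (v t) = 0 := by
  have hb := h.ne_of_nc ha ht (fun e => hta e.symm)
  refine ⟨fun e => ?_, ?_, ?_⟩
  · have : a = t := by
      apply h.inj' ha ht
      unfold rad at e
      rcases z3_cases (bO c (v a) (v t)) with t | t | t <;> rw [t] at e hb
      · exact (hb rfl).elim
      · right; rw [one_smul] at e; exact eq_neg_of_add_eq_zero_left e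
      · left; rw [neg_one_smul, ← sub_eq_add_neg, sub_eq_zero] at e; exact e
    subst this
    exact hta (Commute.refl _)
  · unfold rad
    simp only [bO_lin, h.norm a ha, h.norm t ht, bO_comm c (v t) (v a)]
    revert hb; generalize bO c (v a) (v t) = s; revert s; decide
  · unfold rad
    simp only [bO_lin, h.norm t ht]
    generalize bO c (v a) (v t) = s; revert s; decide

/-- two non-neighbours of `t` with the same neighbours in the perp of `t` -/
theorem OrtM.same_perp (hm : 5 ≤ m) (h : OrtM c E v) {t a a' : G} (ht : t ∈ E) (ha : a ∈ E)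
    (ha' : a' ∈ E) (hta : ¬ Commute t a) (hta' : ¬ Commute t a')
    (hs : ∀ y ∈ E, y ≠ t → Commute t y → (Commute a y ↔ Commute a' y)) :
    pm (v a') (v a) ∨ pm (v a') (rf c (v t) (v a)) := by
  obtain ⟨w0, ws, wt⟩ := h.rad_spec ht ha hta
  obtain ⟨w0', ws', wt'⟩ := h.rad_spec ht ha' hta'
  have hU : ND c 4 (pp c ⊤ (v t)) :=
    (nd_top h.nz hm).pp trivial (by rw [h.norm t ht]; decide)
  have key : pm (rad c v t a') (rad c v t a) := by
    by_contra hn
    obtain ⟨p, hp, pp2, p1, p2⟩ := hU.lemmaS ⟨trivial, wt⟩ ⟨trivial, wt'⟩ w0 w0' ws ws'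
      (fun e => hn (Or.inl e)) (fun e => hn (Or.inr e))
    obtain ⟨y, hy, e⟩ := h.surj' pp2
    have yt := (h.orth hy ht).mp ((e.left _).mp hp.2)
    have f1 : bO c p (v a) = 0 := by
      simpa only [rad, bO_lin, hp.2, mul_zero, add_zero] using p1
    have f2 : bO c p (v a') ≠ 0 := by
      simpa only [rad, bO_lin, hp.2, mul_zero, add_zero] using p2
    have ya := (h.orth hy ha).mp ((e.left _).mp f1)
    apply f2
    rw [e.left, h.orth hy ha']
    refine ⟨?_, ((hs y hy yt.1 yt.2.symm).mp ya.2.symm).symm⟩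
    rintro rfl
    exact hta' yt.2.symm
  have hb := h.ne_of_nc ha ht (fun e => hta e.symm)
  have hb' := h.ne_of_nc ha' ht (fun e => hta' e.symm)
  unfold rad at key
  unfold rf
  have s2 := add_self3 (v t)
  rcases z3_cases (bO c (v a) (v t)) with e | e | e
  · exact (hb e).elim
  all_goals
    rcases z3_cases (bO c (v a') (v t)) with e' | e' | e'
    · exact (hb' e').elim
    all_goals
      rw [e, e'] at key
      rw [e]
      simp only [one_smul, neg_smul] at key ⊢
      rcases key with k | k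
      all_goals first
        | (left; left; linear_combination (exp := 1) k)
        | (left; right; linear_combination (exp := 1) k)
        | (right; left; linear_combination (exp := 1) k + s2)
        | (right; left; linear_combination (exp := 1) k - s2)
        | (right; right; linear_combination (exp := 1) k + s2)
        | (right; right; linear_combination (exp := 1) k - s2)

/-- conjugation is reflection -/
theorem OrtM.conj (hm : 5 ≤ m) (hE : TS E) (h : OrtM c E v) {a b : G} (ha : a ∈ E) (hb : b ∈ E) :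
    pm (v (a * b * a)) (rf c (v a) (v b)) := by
  have haa : a * a = 1 := tt_sq hE.tt ha
  by_cases hab : Commute a b
  · have e : a * b * a = b := by rw [hab.eq, mul_assoc, haa, mul_one]
    rw [e]
    by_cases e' : a = b
    · subst e'
      right
      rw [rf, h.norm a ha, smul_two, sub_neg_eq_add, add_self3, neg_neg]
    · left
      rw [rf, bO_comm, (h.comm a ha b hb e').mp hab, zero_smul, sub_zero]
  · have hz := hE.cl a ha b hb
    have cj : ∀ y, Commute a y → (Commute b y ↔ Commute (a * b * a) y) := by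
      intro y hy
      refine ⟨fun e => (hy.mul_left e).mul_left hy, fun e => ?_⟩
      have : b = a * (a * b * a) * a := by
        rw [← mul_assoc, ← mul_assoc, haa, one_mul, mul_assoc, haa, mul_one]
      rw [this]
      exact (hy.mul_left e).mul_left hy
    have haz : ¬ Commute a (a * b * a) := fun e =>
      hab ((cj a (Commute.refl a)).mpr e.symm).symm
    rcases h.same_perp hm ha hb hz hab haz (fun y _ _ hy => cj y hy) with k | k
    · exfalso
      have e := h.inj' hz hb k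
      apply hab
      show a * b = b * a
      calc a * b = a * b * a * a := by rw [mul_assoc (a * b), haa, mul_one]
        _ = b * a := by rw [e]
    · exact k

/-- two non-neighbours of `t` with the same neighbours in the perp of `t` lie on a line with `t` -/
theorem OrtM.fib (hm : 5 ≤ m) (hE : TS E) (h : OrtM c E v) {t a a' : G} (ht : t ∈ E) (ha : a ∈ E)
    (ha' : a' ∈ E) (hta : ¬ Commute t a) (hta' : ¬ Commute t a')
    (hs : ∀ y ∈ E, y ≠ t → Commute t y → (Commute a y ↔ Commute a' y)) :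
    a' = a ∨ a' = t * a * t := by
  rcases h.same_perp hm ht ha ha' hta hta' hs with k | k
  · exact Or.inl (h.inj' ha' ha k)
  · exact Or.inr (h.inj' ha' (hE.cl t ht a ha) (k.trans (h.conj hm hE ht ha).symm))

/-- orthogonality to the radical of a line is intrinsic -/
theorem OrtM.rad_iff (hm : 5 ≤ m) (hE : TS E) (h : OrtM c E v) {x y p : G} (hx : x ∈ E)
    (hy : y ∈ E) (hp : p ∈ E) (hxy : ¬ Commute x y) :
    bO c (v p) (rad c v x y) = 0 ↔
      ((p ≠ x ∧ Commute p x) ↔ (p ≠ y ∧ Commute p y)) ∧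
      ((p ≠ x ∧ Commute p x) ↔ (p ≠ x * y * x ∧ Commute p (x * y * x))) := by
  rw [← h.orth hp hx, ← h.orth hp hy, ← h.orth hp (hE.cl x hx y hy), (h.conj hm hE hx hy).right]
  have hb := h.ne_of_nc hy hx (fun e => hxy e.symm)
  simp only [rad, rf, bO_lin]
  revert hb
  generalize bO c (v y) (v x) = s; generalize bO c (v p) (v x) = t; generalize bO c (v p) (v y) = r
  revert s t r; decide

end pts

theorem specOC : SpecOC.{u} := fun _ _ _ _ _ _ hm hE h _ ha _ hb => h.conj hm hE ha hb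

end CfsgFI
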