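import Cfsg.Agent.FI.P0b
import Cfsg.Agent.FI.O0

/-! The end of the chain. -/

set_option autoImplicit false

namespace CfsgFI

open Subgroup CfsgH4 CfsgH5

universe u

variable {G : Type*} [Group G]

theorem Ort.end_d {W : Set G} (h : Ort (c2 8) W) :
    ∃ g ∈ W, ∃ g' ∈ W, ∃ k ∈ W, ¬ Commute g g' ∧ Commute g k ∧ Commute g' k := by
  obtain ⟨v, O⟩ := h
  obtain ⟨k, hk, e0⟩ := O.surj' (u := ![1, 0, 0, 0, 0, 0, 0, 0]) (by decide)
  obtain ⟨g, hg, e1⟩ := O.surj' (u := ![0, 1, 0, 0, 0, 0, 0, 0]) (by decide)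
  obtain ⟨g', hg', e2⟩ := O.surj' (u := ![0, 1, 1, 1, 1, 0, 0, 0]) (by decide)
  refine ⟨g, hg, g', hg', k, hk, fun h => ?_, ((O.orth hg hk).1 ?_).2, ((O.orth hg' hk).1 ?_).2⟩
  · by_cases h1 : g = g'
    · subst h1
      exact absurd (e1.trans e2.symm) (by unfold pm; decide)
    · have := (O.orth hg hg').2 ⟨h1, h⟩
      rw [← e1.left, ← e2.right] at this
      exact absurd this (by decide)
  · rw [← e1.left, ← e0.right]; decide
  · rw [← e2.left, ← e0.right]; decide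

theorem Ort.end_b {W : Set G} (h : Ort (c2 8) W) {f : G} (hf : f ∈ W) :
    ∃ g ∈ W, g ≠ f ∧ Commute g f := by
  obtain ⟨v, O⟩ := h
  obtain ⟨y, hy, h1⟩ := ((nd_top (k := 3) O.nz (by norm_num)).pp (b := v f) trivial
    (by rw [O.norm f hf]; decide)).exists_plus
  obtain ⟨g, hg, e⟩ := O.surj' h1
  exact ⟨g, hg, (O.orth hg hf).1 ((e.left _).1 hy.2)⟩

theorem Ort.end_c {W : Set G} (h : Ort (c2 8) W) {a b : G} (ha : a ∈ W) (hb : b ∈ W)
    (hab : ¬ Commute a b) : ∃ x ∈ W, x ≠ a ∧ Commute x a ∧ ¬ Commute x b := by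
  obtain ⟨v, O⟩ := h
  obtain ⟨r0, r1, r2⟩ := O.rad_spec ha hb hab
  obtain ⟨y, hy, h1⟩ := ((nd_top (k := 3) O.nz (by norm_num)).pp (b := v a) trivial
    (by rw [O.norm a ha]; decide)).exists_one (w := rad (c2 8) v a b) ⟨trivial, r2⟩ r0
  have hy2 : bO (c2 8) y (v a) = 0 := hy.2
  set r := rad (c2 8) v a b with hr
  have h2 : bO (c2 8) r y = 1 := by rw [bO_comm, h1]
  have h3 : bO (c2 8) (y + (1 + bO (c2 8) y y) • r) (y + (1 + bO (c2 8) y y) • r) = 2 := by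
    simp only [bO_add_left, bO_add_right, bO_smul_left, bO_smul_right, h1, h2, r1]
    generalize bO (c2 8) y y = t
    revert t
    decide
  obtain ⟨x, hx, e⟩ := O.surj' h3
  have h4 : bO (c2 8) (y + (1 + bO (c2 8) y y) • r) (v a) = 0 := by
    simp only [bO_add_left, bO_smul_left, hy2, r2, mul_zero, add_zero]
  have h5 := (O.orth hx ha).1 ((e.left _).1 h4)
  refine ⟨x, hx, h5.1, h5.2, fun h6 => ?_⟩
  have h7 := (e.left _).2 ((O.orth hx hb).2 ⟨fun h => hab (h ▸ h5.2.symm), h6⟩)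
  have h8 : bO (c2 8) (y + (1 + bO (c2 8) y y) • r) r = 1 := by
    simp only [bO_add_left, bO_smul_left, h1, r1, mul_zero, add_zero]
  nth_rewrite 2 [hr] at h8
  rw [rad, bO_add_right, bO_smul_right, h7, h4] at h8
  exact absurd h8 (by simp)

theorem Tria.sep {X : Set G} (h : Tria X) {b : G} (hb : b ∈ X) :
    ∃ W ⊆ X, b ∈ W ∧ Ort (c2 8) W ∧ (∀ x ∈ X, x ∈ W ∨ ∀ w ∈ W, ¬ Commute x w) ∧
      ∃ z ∈ X, ∀ w ∈ W, ¬ Commute z w := by
  obtain ⟨X1, X2, X3, rfl, o1, o2, o3, h12, h13, h23⟩ := h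
  obtain ⟨z1, hz1, -⟩ := o1.end_d
  obtain ⟨z2, hz2, -⟩ := o2.end_d
  rcases hb with (hb | hb) | hb
  · refine ⟨X1, fun _ h => Or.inl (Or.inl h), hb, o1, ?_, z2, Or.inl (Or.inr hz2),
      fun w hw h => h12 w hw _ hz2 h.symm⟩
    rintro x ((hx | hx) | hx)
    · exact Or.inl hx
    · exact Or.inr fun w hw h => h12 w hw x hx h.symm
    · exact Or.inr fun w hw h => h13 w hw x hx h.symm
  · refine ⟨X2, fun _ h => Or.inl (Or.inr h), hb, o2, ?_, z1, Or.inl (Or.inl hz1), h12 _ hz1⟩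
    rintro x ((hx | hx) | hx)
    · exact Or.inr (h12 x hx)
    · exact Or.inl hx
    · exact Or.inr fun w hw h => h23 w hw x hx h.symm
  · refine ⟨X3, fun _ h => Or.inr h, hb, o3, ?_, z1, Or.inl (Or.inl hz1), h13 _ hz1⟩
    rintro x ((hx | hx) | hx)
    · exact Or.inr (h13 x hx)
    · exact Or.inr (h23 x hx)
    · exact Or.inl hx

theorem Tria.ne {X : Set G} (h : Tria X) : ∃ b, b ∈ X := by
  obtain ⟨X1, X2, X3, rfl, o1, -⟩ := h
  obtain ⟨z1, hz1, -⟩ := o1.end_d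
  exact ⟨z1, Or.inl (Or.inl hz1)⟩

theorem TS.end_cls {Y : Set G} (T : TS Y) {a b : G} (ha : a ∈ Y) (hb : b ∈ Y)
    (h : ¬ Commute a b) : ∃ g ∈ closure Y, g * a * g⁻¹ = b :=
  ⟨a * b, mul_mem (subset_closure ha) (subset_closure hb), by
    rw [mul_inv_rev, T.inv ha, T.inv hb, show a * b * a * (b * a) = a * (b * a * b) * a by group,
      ← T.braid ha hb h, T.cj_cj ha]⟩

theorem end_irr {Y : Set G} (T : TS Y) (hm : Mu Y) {e : G} (he : e ∈ Y)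
    (h : ∀ y ∈ Y, Tria (Dd Y y)) : Irr Y := by
  refine ⟨T, fun a ha b hb => ?_, ?_, hm, fun a ha b hb h1 h2 => ?_, fun a ha b hb h1 h2 => ?_⟩
  · by_cases h2 : Commute a b
    · by_cases h1 : b = a
      · exact ⟨1, one_mem _, by simp [h1]⟩
      obtain ⟨W, hW, hb', o, -⟩ := (h a ha).sep (b := b) ⟨hb, h1, h2⟩
      obtain ⟨g, hg, g1, g2⟩ := o.end_b hb'
      have hg' := hW hg
      obtain ⟨W', hW', ha', -, s, z, hz, hz'⟩ :=
        (h g hg'.1).sep (b := a) ⟨ha, hg'.2.1.symm, hg'.2.2.symm⟩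
      have hb'' := (s b ⟨hb, g1.symm, g2⟩).resolve_right fun k => k a ha' h2.symm
      obtain ⟨p, hp, p1⟩ := T.end_cls ha hz.1 fun k => hz' a ha' k.symm
      obtain ⟨q, hq, q1⟩ := T.end_cls hz.1 hb (hz' b hb'')
      exact ⟨q * p, mul_mem hq hp, by rw [← q1, ← p1]; group⟩
    · exact T.end_cls ha hb h2
  · obtain ⟨b, hb⟩ := (h e he).ne
    obtain ⟨W, -, hb', -, -, z, hz, hz'⟩ := (h e he).sep hb
    exact ⟨z, hz.1, b, hb.1, hz' b hb'⟩
  · obtain ⟨W, -, hb', -, -, z, hz, hz'⟩ := (h a ha).sep (b := b) ⟨hb, h1.symm, h2⟩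
    exact ⟨z, hz.1, fun k => hz' b hb' (k.1 hz.2.2).symm⟩
  · obtain ⟨g, hg, g1, g2⟩ := hm a ha b hb h1
    obtain ⟨W, hW, ha', o, s, -⟩ :=
      (h g hg).sep (b := a) ⟨ha, fun k => h1 (k ▸ g2.symm), g1.symm⟩
    have key : ∀ x ∈ W, x ≠ a → Commute x a → Commute x b := fun x hx k1 k2 => by
      have : x ∈ Dd Y a := ⟨(hW hx).1, k1, k2.symm⟩
      rw [h2] at this
      exact this.2.2.symm
    rcases s b ⟨hb, fun k => h1 (k ▸ g1), g2.symm⟩ with k | k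
    · obtain ⟨x, hx, x1, x2, x3⟩ := o.end_c ha' k h1
      exact x3 (key x hx x1 x2)
    · obtain ⟨x, hx, x1, x2⟩ := o.end_b ha'
      exact k x hx (key x hx x1 x2).symm

theorem end_false [Finite G] {Y : Set G} (T : TS Y) (hm : Mu Y) {e : G} (he : e ∈ Y)
    (h : ∀ y ∈ Y, Tria (Dd Y y)) : False := by
  obtain ⟨b, hb⟩ := (h e he).ne
  obtain ⟨W, hW, hb', o, s, z, hz, hz'⟩ := (h e he).sep hb
  obtain ⟨g, hg, g', hg', k, hk, h1⟩ := o.end_d
  obtain ⟨x, hx, x1, x2⟩ := (end_irr T hm he h).fi.lc he ⟨g, hW hg, g', hW hg', k, hW hk, h1⟩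
    z hz b hb (hz' b hb')
  rcases s x hx with k | k
  · exact hz' x k x1
  · exact k b hb' x2.symm

theorem specEnd : SpecEnd.{u} := fun _ _ _ E F h => by
  obtain ⟨d, hd, a, ha, hda⟩ := F.exn
  obtain ⟨e, he⟩ := F.mu d hd a ha hda
  have T := F.ts.xs d a
  refine end_false (T.comp_ts he) (T.comp_mu he) (TS.comp_self he) fun y hy => ?_
  rw [T.comp_dd he hy, dd_xs hda hy.1]
  exact h y hy.1.1 d ⟨hd, fun k => hda (k ▸ hy.1.2.2.symm), hy.1.2.1.symm⟩ a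
    ⟨ha, fun k => hda (k ▸ hy.1.2.1), hy.1.2.2.symm⟩ hda

end CfsgFI
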