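import Cfsg.Agent.FI.Defs

/-! Fischer's theorem: the kernel lemma and the order formula. -/

set_option autoImplicit false

namespace CfsgFI

open Subgroup CfsgH4

universe u

variable {G : Type*} [Group G] {E : Set G}

theorem k_conj (T : TS E) {g : G} (hg : g ∈ closure E) : ∀ a ∈ E, g * a * g⁻¹ ∈ E := by
  induction hg using closure_induction'' with
  | mem x hx => intro a ha; rw [tt_inv T.tt hx]; exact T.cl x hx a ha
  | inv_mem x hx => intro a ha; rw [inv_inv, tt_inv T.tt hx]; exact T.cl x hx a ha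
  | one => simp
  | mul x y _ _ hx hy =>
    intro a ha
    simpa [mul_assoc] using hx _ (hy a ha)

theorem k_rel {X : Type*} [MulAction G X] (x : X) (H : Subgroup G) :
    (MulAction.stabilizer G x).relIndex H = (MulAction.orbit H x).ncard := by
  rw [← MulAction.index_stabilizer]; rfl

theorem k_rel_eq {K A S : Subgroup G} (h : A ≤ S) (h' : ∀ g ∈ S, ∃ a ∈ A, a⁻¹ * g ∈ K) :
    K.relIndex S = K.relIndex A := by
  rw [← MulAction.stabilizer_quotient K, k_rel, k_rel]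
  congr 1
  ext y
  constructor
  · rintro ⟨g, rfl⟩
    obtain ⟨a, ha, e⟩ := h' g g.2
    exact ⟨⟨a, ha⟩, QuotientGroup.eq.2 (by simpa using e)⟩
  · rintro ⟨g, rfl⟩
    exact ⟨⟨g, h g.2⟩, rfl⟩

theorem k_fib (F : Fi E) (h : ∀ d ∈ E, Fib (Dd E d)) : Fib E := by
  intro d hd a ha a' ha' h1 h2 e
  obtain ⟨x, hx, x1, x2⟩ := F.mu d hd a ha h1
  have x3 : Commute a' x := (e ▸ (⟨hx, x1, x2⟩ : x ∈ Xs E d a) : x ∈ Xs E d a').2.2
  refine h x hx d ⟨hd, fun e => h1 (e ▸ x2.symm), x1.symm⟩ a ⟨ha, fun e => h1 (e ▸ x1), x2.symm⟩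
    a' ⟨ha', fun e => h2 (e ▸ x1), x3.symm⟩ h1 h2 (Set.ext fun y => ⟨fun k => ?_, fun k => ?_⟩)
  · exact ⟨k.1, k.2.1, (e ▸ (⟨k.1.1, k.2⟩ : y ∈ Xs E d a) : y ∈ Xs E d a').2.2⟩
  · exact ⟨k.1, k.2.1, (e ▸ (⟨k.1.1, k.2⟩ : y ∈ Xs E d a') : y ∈ Xs E d a).2.2⟩

theorem k_exn (F : Fi E) {d : G} (hd : d ∈ E) : ∃ b ∈ E, ¬ Commute d b := by
  obtain ⟨a, ha, b, hb, h⟩ := F.exn
  obtain ⟨g, hg, rfl⟩ := F.cls a ha d hd
  exact ⟨_, k_conj F.toTS hg b hb, by rwa [commute_conj_iff]⟩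

theorem k_all (F : Fi E) {d a g : G} (hd : d ∈ E) (ha : a ∈ E) (h : ¬ Commute d a)
    (hg : ∀ y ∈ perp E d, Commute g y) (h1 : Commute g a) : g ∈ centralizer E := by
  refine mem_centralizer_iff.2 fun b hb => ?_
  by_cases hc : Commute d b
  · exact (hg b ⟨hb, hc⟩).symm.eq
  obtain ⟨k, hk, rfl⟩ := F.HR d hd a ha b hb h hc
  have : closure (perp E d) ≤ centralizer {g} :=
    (closure_le _).2 fun y hy => mem_centralizer_singleton_iff.2 (hg y hy).symm.eq
  have hk' : Commute k g := mem_centralizer_singleton_iff.1 (this hk)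
  exact ((hk'.mul_left h1.symm).mul_left hk'.inv_left).eq

theorem k_ker (F : Fi E) (hF : Fib E) {d g : G} (hd : d ∈ E) (hg : g ∈ closure E)
    (h : ∀ y ∈ perp E d, Commute g y) : g ∈ centralizer E ∨ g * d ∈ centralizer E := by
  obtain ⟨a, ha, h1⟩ := k_exn F hd
  have gd := h d ⟨hd, Commute.refl d⟩
  rcases hF d hd a ha _ (k_conj F.toTS hg a ha) h1 (by rwa [commute_conj_right gd])
    (Set.ext fun y => ⟨fun k => ⟨k.1, k.2.1, (commute_conj_left (h y ⟨k.1, k.2.1⟩)).2 k.2.2⟩,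
      fun k => ⟨k.1, k.2.1, (commute_conj_left (h y ⟨k.1, k.2.1⟩)).1 k.2.2⟩⟩) with e | e
  · exact Or.inl (k_all F hd ha h1 h (commute_of_conj_eq e))
  · refine Or.inr (k_all F hd ha h1 (fun y hy => (h y hy).mul_left hy.2) (commute_of_conj_eq ?_))
    rw [gd.eq, show d * g * a * (d * g)⁻¹ = d * (g * a * g⁻¹) * d⁻¹ by group, e,
      show d * (d * a * d) * d⁻¹ = d * d * a by group, tt_sq F.tt hd, one_mul]

theorem k_split (T : TS E) {Z : Set G} (hZ : ∀ z ∈ Z, ∀ y ∈ E, Commute z y) {d g : G}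
    (hg : g ∈ closure (perp E d ∪ Z)) :
    ∃ a ∈ closure (Dd E d), a⁻¹ * g ∈ centralizer (Dd E d) := by
  have hn : ∀ a ∈ closure (Dd E d), ∀ c ∈ centralizer (Dd E d), Commute a c := fun a ha c hc =>
    mem_centralizer_singleton_iff.1 ((closure_le (centralizer {c})).2
      (fun y hy => mem_centralizer_singleton_iff.2 (hc y hy)) ha)
  induction hg using closure_induction with
  | mem x hx =>
    rcases hx with hx | hx
    · by_cases e : x = d
      · exact ⟨1, one_mem _, by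
          rw [inv_one, one_mul, e]; exact mem_centralizer_iff.2 fun y hy => hy.2.2.symm.eq⟩
      · exact ⟨x, subset_closure ⟨hx.1, e, hx.2⟩, by simp⟩
    · exact ⟨1, one_mem _, by
        rw [inv_one, one_mul]; exact mem_centralizer_iff.2 fun y hy => (hZ x hx y hy.1).symm.eq⟩
  | one => exact ⟨1, one_mem _, by simp⟩
  | mul x y _ _ hx hy =>
    obtain ⟨a, ha, h1⟩ := hx
    obtain ⟨b, hb, h2⟩ := hy
    refine ⟨a * b, mul_mem ha hb, ?_⟩
    rw [show (a * b)⁻¹ * (x * y) = b⁻¹ * (a⁻¹ * x) * b * (b⁻¹ * y) by group,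
      (hn _ (inv_mem hb) _ h1).eq, inv_mul_cancel_right]
    exact mul_mem h1 h2
  | inv x _ hx =>
    obtain ⟨a, ha, h1⟩ := hx
    refine ⟨a⁻¹, inv_mem ha, ?_⟩
    rw [show a⁻¹⁻¹ * x⁻¹ = a * (a⁻¹ * x)⁻¹ * a⁻¹ by group, (hn _ ha _ (inv_mem h1)).eq,
      mul_inv_cancel_right]
    exact inv_mem h1

theorem k_orb (F : Fi E) {d : G} (hd : d ∈ E) :
    (centralizer {d}).relIndex (closure E) = E.ncard := by
  letI : MulAction G G := MulAction.compHom G (MulAut.conj : G →* MulAut G)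
  have e : centralizer {d} = MulAction.stabilizer G d := by
    ext g
    rw [mem_centralizer_singleton_iff]
    exact (mul_inv_eq_iff_eq_mul (a := g * d) (b := g) (c := d)).symm
  rw [e, k_rel]
  congr 1
  ext y
  constructor
  · rintro ⟨g, rfl⟩
    exact k_conj F.toTS g.2 d hd
  · intro hy
    obtain ⟨g, hg, e⟩ := F.cls d hd y hy
    exact ⟨⟨g, hg⟩, e⟩

theorem k_ord (F : Fi E) (hF : Fib E) {Z : Set G} (hZ : ∀ z ∈ Z, ∀ y ∈ E, Commute z y)
    (hP : PA E Z) {d : G} (hd : d ∈ E) : iord E = E.ncard * 2 * iord (Dd E d) := by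
  have l1 : centralizer E ⊓ closure E ≤
      centralizer (Dd E d) ⊓ (centralizer {d} ⊓ closure E) :=
    le_inf (inf_le_left.trans (centralizer_le fun y hy => hy.1))
      (inf_le_inf_right _ (centralizer_le (Set.singleton_subset_iff.2 hd)))
  have dm : d ∈ centralizer (Dd E d) ⊓ (centralizer {d} ⊓ closure E) :=
    ⟨mem_centralizer_iff.2 fun y hy => hy.2.2.symm.eq, mem_centralizer_singleton_iff.2 rfl,
      subset_closure hd⟩
  have e2 : (centralizer E ⊓ closure E).relIndex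
      (centralizer (Dd E d) ⊓ (centralizer {d} ⊓ closure E)) = 2 := by
    refine relIndex_eq_two_iff.2 ⟨d, dm, fun b hb => ?_⟩
    obtain ⟨a, ha, h1⟩ := k_exn F hd
    have hn : ¬ (b * d ∈ centralizer E ∧ b ∈ centralizer E) := fun k =>
      h1 (((mul_mem_cancel_left k.2).1 k.1) a ha).symm
    rcases k_ker F hF hd hb.2.2 (fun y hy => by
      by_cases e : y = d
      · rw [e]; exact mem_centralizer_singleton_iff.1 hb.2.1
      · exact (hb.1 y ⟨hy.1, e, hy.2⟩).symm) with k | k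
    · exact Or.inr ⟨⟨k, hb.2.2⟩, fun k' => hn ⟨k'.1, k⟩⟩
    · exact Or.inl ⟨⟨k, mul_mem hb.2.2 dm.2.2⟩, fun k' => hn ⟨k, k'.1⟩⟩
  have e3 : (centralizer (Dd E d)).relIndex (centralizer {d} ⊓ closure E) = iord (Dd E d) :=
    k_rel_eq (le_inf ((closure_le _).2 fun y hy => mem_centralizer_singleton_iff.2 hy.2.2.symm.eq)
      (closure_mono fun y hy => hy.1)) fun g hg => k_split F.toTS hZ (hP d hd g
        (closure_mono Set.subset_union_left hg.2) (mem_centralizer_singleton_iff.1 hg.1))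
  rw [iord, ← inf_relIndex_right, ← relIndex_mul_relIndex _ _ _ (l1.trans inf_le_right)
    inf_le_right, ← relIndex_mul_relIndex _ _ _ l1 inf_le_right, e2, inf_relIndex_right,
    inf_relIndex_right, e3, k_orb F hd]
  ring

theorem specK : SpecK.{u} := fun _ _ _ _ F =>
  ⟨k_fib F, fun hF _ hd _ hg h => k_ker F hF hd hg h, fun hF _ hZ hP _ hd => k_ord F hF hZ hP hd⟩

end CfsgFI
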