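import Cfsg.Agent.FI.P0b

/-! The induction and the assembly. -/

set_option autoImplicit false

namespace CfsgFI

open Subgroup CfsgH4 CfsgH5

universe u

section pre

variable {G : Type*} [Group G] (e : G ≃* G) {E : Set G}

theorem commute_e {a b : G} : Commute (e a) (e b) ↔ Commute a b :=
  ⟨fun h => e.injective (by simpa using h.eq), fun h => h.map e⟩

theorem dd_pre (E : Set G) (d : G) : Dd (e ⁻¹' E) d = e ⁻¹' Dd E (e d) := by
  ext x
  simp only [Dd, Set.mem_setOf_eq, Set.mem_preimage, commute_e, ne_eq, e.injective.eq_iff]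

theorem Irr.pre (I : Irr E) : Irr (e ⁻¹' E) := by
  have hs : ∀ x ∈ E, e.symm x ∈ e ⁻¹' E := fun x hx => by simpa using hx
  refine ⟨⟨⟨fun x hx => ?_, fun x hx y hy => ?_⟩, fun x hx y hy => ?_⟩, fun x hx y hy => ?_, ?_,
    fun x hx y hy h => ?_, fun x hx y hy h1 h => ?_, fun x hx y hy h h1 => ?_⟩
  · rw [← I.tt.1 _ hx, e.orderOf_eq]
  · exact (I.tt.2 _ hx _ hy).imp (fun h => e.injective (by simpa using h))
      fun h => e.injective (by simpa using h)
  · simpa using I.cl _ hx _ hy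
  · obtain ⟨g, hg, h⟩ := I.cls _ hx _ hy
    refine ⟨e.symm g, ?_, e.injective (by simpa using h)⟩
    have : closure E ≤ (closure (e ⁻¹' E)).comap e.symm.toMonoidHom :=
      (closure_le _).2 fun x hx => subset_closure (hs x hx)
    exact this hg
  · obtain ⟨a, ha, b, hb, h⟩ := I.exn
    exact ⟨_, hs a ha, _, hs b hb, by rwa [commute_e e.symm]⟩
  · obtain ⟨c, hc, h1, h2⟩ := I.mu _ hx _ hy (by rwa [commute_e])
    exact ⟨_, hs c hc, by rw [← commute_e e]; simpa using h1, by rw [← commute_e e]; simpa using h2⟩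
  · obtain ⟨c, hc, h2⟩ := I.tau _ hx _ hy (fun h2 => h1 (e.injective h2)) ((commute_e e).2 h)
    exact ⟨_, hs c hc, by rw [← commute_e e, ← commute_e e (a := y)]; simpa using h2⟩
  · rw [dd_pre, dd_pre, e.surjective.preimage_injective.eq_iff] at h1
    exact I.theta _ hx _ hy (by rwa [commute_e]) h1

theorem Fi.pre [Finite G] (F : Fi E) : Fi (e ⁻¹' E) := (F.toIrr.pre e).fi

theorem LFi.pre [Finite G] (F : LFi E) : LFi (e ⁻¹' E) := fun d hd => by
  rw [dd_pre]; exact (F _ hd).pre e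

theorem Sym.pre (h : Sym E) : Sym (e ⁻¹' E) := fun a ha b hb x hx h1 => by
  have := h _ ha _ hb _ hx (by rwa [commute_e])
  rwa [← map_mul, ← map_mul, commute_e, commute_e, commute_e] at this

theorem Uni.pre {n : ℕ} (h : Uni n E) : Uni n (e ⁻¹' E) := by
  obtain ⟨φ, U⟩ := h
  refine ⟨φ ∘ e, fun a ha => U.ne _ ha, fun a ha b hb => ?_, fun u h0 h1 => ?_,
    fun a ha b hb c h => e.injective (U.inj _ ha _ hb c h), fun a ha b hb => ?_⟩
  · rw [← commute_e e]; exact U.comm _ ha _ hb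
  · obtain ⟨d, hd, c, h⟩ := U.surj u h0 h1
    exact ⟨e.symm d, by simpa using hd, c, by simpa using h⟩
  · simp only [Function.comp, map_mul]
    exact U.conj _ ha _ hb

theorem Ort.pre {m : ℕ} {c : Fin m → ZMod 3} (h : Ort c E) : Ort c (e ⁻¹' E) := by
  obtain ⟨v, O⟩ := h
  refine ⟨v ∘ e, O.nz, fun a ha => O.norm _ ha, fun a ha b hb h => ?_, fun u h0 => ?_,
    fun a ha b hb h => e.injective (O.inj _ ha _ hb h)⟩
  · rw [← commute_e e]; exact O.comm _ ha _ hb fun h1 => h (e.injective h1)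
  · obtain ⟨d, hd, h⟩ := O.surj u h0
    exact ⟨e.symm d, by simpa using hd, by simpa using h⟩

theorem F22.pre [Finite G] (h : F22 E) : F22 (e ⁻¹' E) :=
  ⟨h.1.pre e, h.2.1.pre e, fun d hd => by rw [dd_pre]; exact (h.2.2 _ hd).pre e⟩

theorem F23.pre [Finite G] (h : F23 E) : F23 (e ⁻¹' E) :=
  ⟨h.1.pre e, fun d hd => by rw [dd_pre]; exact (h.2 _ hd).pre e⟩

theorem F24.pre [Finite G] (h : F24 E) : F24 (e ⁻¹' E) :=
  ⟨h.1.pre e, fun d hd => by rw [dd_pre]; exact (h.2 _ hd).pre e⟩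

end pre

theorem Fi.dd_eq {G : Type*} [Group G] {E : Set G} (F : Fi E) {d d' : G} (hd : d ∈ E)
    (hd' : d' ∈ E) : ∃ e : G ≃* G, Dd E d = e ⁻¹' Dd E d' := by
  obtain ⟨g, hg, rfl⟩ := F.cls d hd d' hd'
  refine ⟨MulAut.conj g, ?_⟩
  have : E = MulAut.conj g ⁻¹' E := Set.ext fun x => (F.ts.conj_mem_iff hg).symm
  nth_rewrite 1 [this]
  exact dd_pre _ _ _

/-- all the packages -/
structure All : Prop where
  sym : SpecSym.{u}
  so : SpecSO.{u}
  ort : SpecOrt.{u}
  u0 : SpecU0.{u}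
  un : SpecU.{u}
  c : SpecC.{u}
  fin : SpecEnd.{u}
  t : SpecT.{u}
  k : SpecK.{u}
  u6 : SpecU6.{u}
  s6 : SpecS6.{u}
  o : SpecO.{u}

variable {G : Type u} [Group G] [Finite G]

def Ty0 (E : Set G) : Prop :=
  Sym E ∨ (∃ (m : ℕ) (c : Fin m → ZMod 3), 6 ≤ m ∧ Ort c E) ∨ F22 E ∨ F23 E ∨ F24 E

def Ty (E : Set G) : Prop := Ty0 E ∨ ∃ n, 4 ≤ n ∧ Uni n E

theorem step (A : All.{u}) {E : Set G} (F : Fi E) (L : LFi E) (h : ∀ d ∈ E, Ty (Dd E d)) :
    Ty0 E := by
  obtain ⟨d, hd, -⟩ := F.exn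
  have ort : ∀ (m : ℕ) (c : Fin m → ZMod 3), 5 ≤ m → (∀ e ∈ E, Ort c (Dd E e)) → Ty0 E :=
    fun m c hm h1 => Or.inr (Or.inl ⟨m + 1, _, by omega,
      A.ort G E m c hm F.ts h1 d hd fun a ha => F.mu d hd a ha⟩)
  rcases h d hd with (h1 | ⟨m, c, hm, h1⟩ | h1 | h1 | h1) | ⟨n, hn, h1⟩
  · by_cases h2 : Sym E
    · exact Or.inl h2
    refine ort 5 _ le_rfl (A.so G E F L (fun x hx => ?_) h2)
    obtain ⟨e, he⟩ := F.dd_eq hx hd
    exact he ▸ h1.pre e
  · refine ort m c (by omega) fun x hx => ?_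
    obtain ⟨e, he⟩ := F.dd_eq hx hd
    exact he ▸ h1.pre e
  · refine Or.inr (Or.inr (Or.inr (Or.inl ⟨F, fun x hx => ?_⟩)))
    obtain ⟨e, he⟩ := F.dd_eq hx hd
    exact he ▸ h1.pre e
  · refine Or.inr (Or.inr (Or.inr (Or.inr ⟨F, fun x hx => ?_⟩)))
    obtain ⟨e, he⟩ := F.dd_eq hx hd
    exact he ▸ h1.pre e
  · refine (A.fin G E F fun x hx => ((A.c G _).2.2 ?_).2).elim
    obtain ⟨e, he⟩ := F.dd_eq hx hd
    exact he ▸ h1.pre e
  · have h2 : ∀ x ∈ E, Uni n (Dd E x) := fun x hx => by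
      obtain ⟨e, he⟩ := F.dd_eq hx hd
      exact he ▸ h1.pre e
    rcases A.un G E n hn F L h2 with rfl | rfl
    · exact ort 5 _ le_rfl fun x hx => (A.u0 G _ (F.ts.dd x)).2.1 (h2 x hx)
    · exact Or.inr (Or.inr (Or.inl ⟨F, L, h2⟩))

theorem classify (A : All.{u}) (n : ℕ) : ∀ E : Set G, E.ncard < n → Fi E → Ty E := by
  induction n with
  | zero => exact fun _ h => absurd h (Nat.not_lt_zero _)
  | succ n ih =>
    intro E hE F
    rcases F.tri with L | h | h
    · refine Or.inl (step A F L fun d hd => ih _ ?_ (L d hd))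
      have : (Dd E d).ncard < E.ncard :=
        Set.ncard_lt_ncard ⟨fun _ h => h.1, fun h => (h hd).2.1 rfl⟩ (Set.toFinite _)
      omega
    · exact Or.inl (Or.inl h)
    · exact Or.inr h

/-- central elements of `⟨E⟩` come from `Z` -/
def Ker (E Z : Set G) : Prop := ∀ g ∈ closure E, g ∈ centralizer E → g ∈ closure Z

/-- `Z` is central -/
def Cen (E Z : Set G) : Prop := ∀ z ∈ Z, ∀ y ∈ E ∪ Z, Commute z y

omit [Finite G] in
theorem Cen.dd {E Z : Set G} (h : Cen E Z) {d : G} (hd : d ∈ E) : Cen (Dd E d) (insert d Z) := by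
  rintro z (rfl | hz) y (hy | rfl | hy)
  · exact hy.2.2
  · exact Commute.refl _
  · exact (h y hy z (Or.inl hd)).symm
  · exact h z hz y (Or.inl hy.1)
  · exact h z hz y (Or.inl hd)
  · exact h z hz y (Or.inr hy)

theorem Ker.dd (hK : SpecK.{u}) {E Z : Set G} (F : Fi E) (hf : Fib E) (h : Ker E Z) {d : G}
    (hd : d ∈ E) : Ker (Dd E d) (insert d Z) := by
  intro g hg hc
  have h1 := closure_dd_le E d hg
  have hm : closure Z ≤ closure (insert d Z) := closure_mono (Set.subset_insert _ _)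
  rcases (hK G E F).2.1 hf d hd g h1 (fun y hy => by
    by_cases h2 : y = d
    · rw [h2]; exact commute_of_mem_Dd hg
    · exact (hc y ⟨hy.1, h2, hy.2⟩).symm) with h2 | h2
  · exact hm (h g h1 h2)
  · have := mul_mem (hm (h _ (mul_mem h1 (subset_closure hd)) h2))
      (inv_mem (subset_closure (Set.mem_insert d Z)))
    simpa using this

omit [Finite G] in
theorem split_mem {Y Z : Set G} (hc : Cen Y Z) {g : G} (hg : g ∈ closure (Y ∪ Z)) :
    ∃ y ∈ closure Y, ∃ z ∈ closure Z, g = y * z := by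
  have h1 : ∀ z ∈ closure Z, ∀ y ∈ closure Y, Commute z y := fun z hz y hy => by
    have : closure Z ≤ centralizer (closure Y) := (closure_le _).2 fun z hz => by
      have : closure Y ≤ centralizer {z} := (closure_le _).2 fun y hy =>
        mem_centralizer_singleton_iff.2 (hc z hz y (Or.inl hy)).symm
      exact fun y hy => mem_centralizer_singleton_iff.1 (this hy)
    exact (this hz y hy).symm
  induction hg using closure_induction with
  | mem x hx =>
    rcases hx with hx | hx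
    · exact ⟨x, subset_closure hx, 1, one_mem _, (mul_one x).symm⟩
    · exact ⟨1, one_mem _, x, subset_closure hx, (one_mul x).symm⟩
  | one => exact ⟨1, one_mem _, 1, one_mem _, (mul_one 1).symm⟩
  | mul a b _ _ ha hb =>
    obtain ⟨y, hy, z, hz, rfl⟩ := ha
    obtain ⟨y', hy', z', hz', rfl⟩ := hb
    exact ⟨y * y', mul_mem hy hy', z * z', mul_mem hz hz', by
      rw [mul_assoc, mul_assoc, ← mul_assoc z, (h1 z hz y' hy').eq, mul_assoc]⟩
  | inv a _ ha =>
    obtain ⟨y, hy, z, hz, rfl⟩ := ha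
    exact ⟨y⁻¹, inv_mem hy, z⁻¹, inv_mem hz, by rw [← mul_inv_rev, (h1 z hz y hy).eq]⟩

theorem pa6 (A : All.{u}) {Y Z : Set G} (T : TS Y) (h : Uni 6 Y) (hc : Cen Y Z) (hk : Ker Y Z) :
    PA Y Z := by
  intro c hc' g hg h1
  obtain ⟨y, hy, z, hz, rfl⟩ := split_mem hc hg
  have h2 : Commute z c := by
    have : closure Z ≤ centralizer {c} := (closure_le _).2 fun z hz =>
      mem_centralizer_singleton_iff.2 (hc z hz c (Or.inl hc'))
    exact mem_centralizer_singleton_iff.1 (this hz)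
  have h3 : Commute y c := by simpa using h1.mul_left h2.inv_left
  obtain ⟨k, hk1, hk2⟩ := (A.u6 G Y T h).1 c hc' y hy h3
  have h4 := hk _ (mul_mem hy (inv_mem (closure_perp_le _ _ hk1))) hk2
  have m1 : closure (perp Y c) ≤ closure (perp Y c ∪ Z) := closure_mono Set.subset_union_left
  have m2 : closure Z ≤ closure (perp Y c ∪ Z) := closure_mono Set.subset_union_right
  simpa using mul_mem (mul_mem (m2 h4) (m1 hk1)) (m2 hz)

omit [Finite G] in
theorem lam_up {E : Set G} (h1 : ∀ d ∈ E, Lam (Dd E d)) (h2 : ∀ d ∈ E, LFi (Dd E d)) : Lam E := by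
  intro d hd e he x hx x' hx'
  have F := h2 d hd e he
  by_cases c0 : x' = x
  · obtain ⟨y, hy⟩ := F.exc hx
    exact ⟨y, hy.1, hy.2.1, c0 ▸ hy.2.1, hy.2.2.symm, c0 ▸ hy.2.2.symm⟩
  by_cases c1 : Commute x x'
  · obtain ⟨y, hy, k1, -, k2, -⟩ := h1 d hd e he x hx x' ⟨hx', c0, c1⟩ x' ⟨hx', c0, c1⟩
    exact ⟨y, hy.1, hy.2.1, k1, hy.2.2.symm, k2⟩
  · obtain ⟨y, hy, k1, k2⟩ := F.mu x hx x' hx' c1
    exact ⟨y, hy, fun h => c1 (h ▸ k2.symm), fun h => c1 (h ▸ k1), k1.symm, k2.symm⟩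

/-- the conclusions carried along the chain -/
structure Out (E Z : Set G) (N : ℕ) : Prop where
  pa : PA E Z
  ord : iord E = N
  fib : Fib E
  lam : Lam E
  sg : (∀ c ∈ E, Sg (Dd E c ∪ insert c Z)) → Sg (E ∪ Z)

theorem out22 (A : All.{u}) {E Z : Set G} (h : F22 E) (hc : Cen E Z) (hk : Ker E Z) :
    Out E Z 64561751654400 := by
  obtain ⟨F, L, U⟩ := id h
  have fib : Fib E := (A.k G E F).1 fun d hd => (A.u0 G _ (F.ts.dd d)).2.2.1 (U d hd)
  have lam : Lam E := (A.u0 G E F.ts).2.2.2 E U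
  have t := A.t G E Z F L ((A.c G E).1 h).2 lam hc fun c hc' =>
    pa6 A (F.ts.dd c) (U c hc') (hc.dd hc') (hk.dd A.k F fib hc')
  obtain ⟨d, hd, -⟩ := F.exn
  refine ⟨t.1, ?_, fib, lam, t.2⟩
  rw [(A.k G E F).2.2 fib Z (fun z hz y hy => hc z hz y (Or.inl hy)) t.1 d hd, ((A.c G E).1 h).1,
    (A.u6 G _ (F.ts.dd d) (U d hd)).2.1]

theorem fib23 (A : All.{u}) {E : Set G} (h : F23 E) : Fib E :=
  (A.k G E h.1).1 fun d hd => (A.k G _ (h.2 d hd).1).1 fun e he =>
    (A.u0 G _ ((h.2 d hd).1.ts.dd e)).2.2.1 ((h.2 d hd).2.2 e he)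

theorem out23 (A : All.{u}) {E Z : Set G} (h : F23 E) (hc : Cen E Z) (hk : Ker E Z) :
    Out E Z 4089470473293004800 := by
  obtain ⟨F, U⟩ := id h
  have fib := fib23 A h
  have o := fun c hc' => out22 A (U c hc') (hc.dd hc') (hk.dd A.k F fib hc')
  have lam : Lam E := lam_up (fun d hd => (o d hd).lam) fun d hd => (U d hd).2.1
  have t := A.t G E Z F (fun d hd => (U d hd).1) ((A.c G E).2.1 h).2 lam hc fun c hc' => (o c hc').pa
  obtain ⟨d, hd, -⟩ := F.exn
  refine ⟨t.1, ?_, fib, lam, t.2⟩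
  rw [(A.k G E F).2.2 fib Z (fun z hz y hy => hc z hz y (Or.inl hy)) t.1 d hd, ((A.c G E).2.1 h).1,
    (o d hd).ord]

theorem sg24 (A : All.{u}) {E : Set G} (hg : closure E = ⊤) (hZ : center G = ⊥) (h : F24 E)
    (hk : Ker E ∅) : Sg E := by
  obtain ⟨F, U⟩ := id h
  have hc : Cen E ∅ := fun _ h => h.elim
  have fib : Fib E := (A.k G E F).1 fun d hd => fib23 A (U d hd)
  have o := fun c hc' => out23 A (U c hc') (hc.dd hc') (hk.dd A.k F fib hc')
  have lam : Lam E := lam_up (fun d hd => (o d hd).lam) fun d hd e he => ((U d hd).2 e he).1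
  have t := A.t G E ∅ F (fun d hd => (U d hd).1) ((A.c G E).2.2 h).1 lam hc fun c hc' => (o c hc').pa
  rw [← Set.union_empty E]
  refine t.2 fun x hx => (o x hx).sg fun y hy => ?_
  refine (out22 A ((U x hx).2 y hy) ((hc.dd hx).dd hy)
    ((hk.dd A.k F fib hx).dd A.k (U x hx).1 (o x hx).fib hy)).sg fun z hz => ?_
  simpa using A.s6 G E hg hZ h x hx y hy z hz

omit [Finite G] in
theorem not_sg [IsSimpleGroup G] {D : Set G} (T : TS D) (hg : closure D = ⊤)
    (hn : ∃ a ∈ D, ∃ b ∈ D, ¬ Commute a b) : ¬ Sg D := by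
  rintro ⟨N, h1, h2⟩
  obtain ⟨a, ha, b, hb, h⟩ := hn
  let P : Set G := {g | ∃ x ∈ D, ∃ y ∈ D, g = x * y}
  have hle : closure P ≤ N := (closure_le _).2 (by rintro _ ⟨x, hx, y, hy, rfl⟩; exact h1 x hx y hy)
  have hn : (closure P).Normal := ⟨fun n hn g => by
    have : closure P ≤ (closure P).comap (MulAut.conj g).toMonoidHom := (closure_le _).2 (by
      rintro _ ⟨x, hx, y, hy, rfl⟩
      exact subset_closure ⟨_, T.conj_mem (hg ▸ mem_top g) hx, _, T.conj_mem (hg ▸ mem_top g) hy,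
        by simp⟩)
    exact this hn⟩
  rcases hn.eq_bot_or_eq_top with h3 | h3
  · have : a * b ∈ closure P := subset_closure ⟨a, ha, b, hb, rfl⟩
    rw [h3, mem_bot, mul_eq_one_iff_eq_inv, T.inv hb] at this
    exact h (this ▸ Commute.refl _)
  · exact h2 a ha (hle (h3 ▸ mem_top a))

theorem fi_of_fis {D : Set G} (F : Fis D) : Fi D := Irr.fi
  ⟨⟨F.tt, fun a ha b hb => F.cj ha hb⟩, fun a ha b hb => by
      obtain ⟨g, h⟩ := F.trans a ha b hb
      exact ⟨g, F.gen ▸ mem_top g, h⟩, F.exn, fun d hd a ha h => by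
      obtain ⟨_, ⟨g, hg, rfl⟩, e, he, e1, e2⟩ := F.exists_HR_common hd ha h
      obtain ⟨e, rfl⟩ : ∃ e', g * e' * g⁻¹ = e := ⟨g⁻¹ * e * g, by group⟩
      rw [commute_conj_iff] at e2
      rw [commute_conj_right (commute_of_mem_perp hg)] at e1
      exact ⟨e, by simpa [mul_assoc] using F.conj g⁻¹ _ he, e1, e2⟩,
    fun a ha b hb h _ => by
      obtain ⟨x, hx, h1, h2⟩ := F.V_triv hb ha h
      exact ⟨x, hx, fun h3 => h2 (h3.2 h1)⟩,
    fun a ha b hb h h1 => by
      obtain ⟨x, hx, h2, h3, h4⟩ := F.W_triv ha hb h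
      have : x ∈ Dd D a := ⟨hx, h2, h3⟩
      rw [h1] at this
      exact h4 this.2.2⟩

theorem main (A : All.{u}) [IsSimpleGroup G] (hna : ∃ x y : G, x * y ≠ y * x) {D : Set G}
    (hD : Cfsg.IsThreeTranspositionClass D) :
    (∃ n : ℕ, Nonempty (G ≃* Matrix.symplecticGroup (Fin n) (ZMod 2))) ∨
    (∃ (F : Type) (_ : Field F) (_ : Fintype F) (n : ℕ), Fintype.card F = 4 ∧
      Nonempty (G ≃* Cfsg.PSU n F 2)) ∨
    (∃ m : ℕ, Nonempty (G ≃* Cfsg.POmega (ZMod 3) (Cfsg.quadFormOdd m (ZMod 3)))) ∨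
    Cfsg.IsFi22 G ∨ Cfsg.IsFi23 G := by
  obtain ⟨x, y, hxy⟩ := hna
  have hZ : center G = ⊥ := (IsSimpleGroup.eq_bot_or_eq_top_of_normal (center G) inferInstance).resolve_right
    fun h => hxy (mem_center_iff.1 (h ▸ mem_top y) x)
  have hc : commutator G = ⊤ :=
    (IsSimpleGroup.eq_bot_or_eq_top_of_normal (commutator G) inferInstance).resolve_left fun h =>
      hxy (commutator_eq_bot_iff_le_centralizer.1 h (mem_top y) x (mem_top x))
  have Φ : Fis D := fis_of_hsol (fun N hN hs => (hN.eq_bot_or_eq_top).resolve_right fun h => by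
      subst h
      have : Group.IsSolvable G := Group.isSolvable_of_surjective
        (f := (⊤ : Subgroup G).subtype) fun g => ⟨⟨g, mem_top g⟩, rfl⟩
      exact (Group.IsSolvable.commutator_lt_top_of_nontrivial G).ne hc)
    (by rw [hc, ← _root_.commutator_def, hc]) hD
  have F := fi_of_fis Φ
  have hcz : centralizer D = ⊥ := by rw [← centralizer_closure, Φ.gen, coe_top, centralizer_univ, hZ]
  have hk : Ker D ∅ := fun g _ h => by rw [hcz, mem_bot] at h; exact h ▸ one_mem _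
  have hi : iord D = Nat.card G := by rw [iord, hcz, Φ.gen, relIndex_top_right, index_bot]
  rcases F.loc with L | h | h
  · rcases step A F L fun d hd => classify A _ _ (Nat.lt_succ_self _) (L d hd) with
      h | ⟨m, c, hm, h⟩ | h | h | h
    · exact (A.sym G D Φ.gen F L h).elim
    · exact Or.inr (Or.inr (Or.inl (A.o G D m c hm Φ.gen F.ts h)))
    · exact Or.inr (Or.inr (Or.inr (Or.inl
        ⟨inferInstance, hi ▸ (out22 A h (fun _ h => h.elim) hk).ord⟩)))
    · exact Or.inr (Or.inr (Or.inr (Or.inr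
        ⟨inferInstance, hi ▸ (out23 A h (fun _ h => h.elim) hk).ord⟩)))
    · exact (not_sg F.ts Φ.gen F.exn (sg24 A Φ.gen hZ h hk)).elim
  · have P := pol_of_thick Φ hZ h
    obtain ⟨x, hx, y, hy, h1, h2⟩ := Φ.exc
    have hl := isLn_ln hx hy h1.symm h2
    rcases P.ncard_cases hl with h3 | h5
    · obtain ⟨n, -, -, -, e⟩ := P.symplectic fun l h => (Φ.ncard_ln h hl).trans h3
      exact Or.inl ⟨n, e⟩
    · obtain ⟨n, -, -, -, -, e⟩ := P.unitary fun l h => (Φ.ncard_ln h hl).trans h5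
      exact Or.inr (Or.inl ⟨F4, inferInstance, inferInstance, n, rfl, e⟩)
  · obtain ⟨d, hd, y, hy, y', hy', h1, h2⟩ := h
    obtain ⟨e⟩ := Φ.iso_S5_of_W hy hy' hd h1 h2 hZ
    refine (not_sg F.ts Φ.gen F.exn ⟨(Equiv.Perm.sign.comp e.toMonoidHom).ker, ?_, ?_⟩).elim
    all_goals
      have h3 : ∀ a ∈ D, Equiv.Perm.sign (e a) = -1 := fun a ha => by
        by_contra h
        have h2 : Equiv.Perm.sign (e a) = 1 := (Int.units_eq_one_or _).resolve_right h
        have h3 : closure D ≤ (Equiv.Perm.sign.comp e.toMonoidHom).ker := (closure_le _).2 fun b hb => by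
          obtain ⟨g, rfl⟩ := Φ.trans a ha b hb
          rw [SetLike.mem_coe, MonoidHom.mem_ker, map_mul, map_mul, map_inv]
          change _ * Equiv.Perm.sign (e a) * _ = 1
          rw [h2, mul_one, mul_inv_cancel]
        have := h3 (Φ.gen ▸ mem_top (e.symm (Equiv.swap 0 1)))
        simp at this
    · intro a ha b hb
      rw [MonoidHom.mem_ker, map_mul]
      change Equiv.Perm.sign (e a) * Equiv.Perm.sign (e b) = 1
      rw [h3 a ha, h3 b hb]; simp
    · intro a ha h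
      rw [MonoidHom.mem_ker] at h
      change Equiv.Perm.sign (e a) = 1 at h
      rw [h3 a ha] at h
      exact absurd h (by decide)

end CfsgFI
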