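import Cfsg.Agent.FI.O0
import Cfsg.Agent.H8.MatAut
import Cfsg.Agent.H8.Disc

/-! Fischer's theorem: identification of the orthogonal groups. -/

set_option autoImplicit false

namespace CfsgFI

open Subgroup CfsgH4 CfsgH8 QuadraticMap Module

universe u

section abs

variable {V : Type*} [AddCommGroup V] [Module (ZMod 3) V] {Q : QuadraticForm (ZMod 3) V}

theorem o8_two : (2 : ZMod 3) ≠ 0 := by decide

theorem o8_scal [hB : Big Q] {k : OG Q} (h : ∀ g ∈ commutator (OG Q), k * g = g * k) :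
    k = 1 ∨ k = negOne Q := by
  have := Big.fd Q
  have hn := hB.five
  obtain ⟨a, ha⟩ := eq_scal_of_fix hB.nd (by omega) (ofOG Q k) fun u hu => by
    by_cases hu0 : u = 0
    · simp [hu0]
    refine mem_span_of_fixed hB.nd (by omega) hu hu0 fun v hv => ?_
    have := congrArg (fun g : OG Q => g.1 u) (h _ (sieg_mem_commutator hB.nd Big.good u v))
    simpa [sieg_apply_self hu hv] using this.symm
  have e : ∀ y, k.1 y = (a : ZMod 3) • y := fun y => congrArg (fun γ : Gam Q => γ.T y) ha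
  rcases z3_cases (a : ZMod 3) with h0 | h0 | h0
  · exact absurd h0 a.ne_zero
  · exact Or.inl (OG.ext' fun x => by simp [e, h0])
  · exact Or.inr (OG.ext' fun x => by simp [e, h0])

theorem o8_le [hB : Big Q] (R : Subgroup (OG Q)) [R.Normal] (h1 : ∀ v, Q v = 1 → refl Q v ∈ R)
    (h2 : ∀ v w, Q v = -1 → Q w = -1 → refl Q v * refl Q w ∈ R) : commutator (OG Q) ≤ R := by
  have := Big.fd Q
  have hn := hB.five
  obtain ⟨w, hw⟩ := hB.nd.represents (by omega) (-1)
  have key : ∀ g : OG Q, (g : OG Q ⧸ R) ∈ zpowers (refl Q w : OG Q ⧸ R) := fun g => by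
    refine refl_induction hB.nd Big.good (P := fun g => (g : OG Q ⧸ R) ∈ zpowers (refl Q w : OG Q ⧸ R))
      (one_mem _) (fun v g hv hg => ?_) g
    rw [QuotientGroup.mk_mul]
    refine mul_mem ?_ hg
    rcases z3_cases (Q v) with h0 | h0 | h0
    · exact absurd h0 hv
    · rw [(QuotientGroup.eq_one_iff _).2 (h1 v h0)]; exact one_mem _
    · rw [QuotientGroup.eq.2 (show (refl Q v)⁻¹ * refl Q w ∈ R by rw [refl_inv]; exact h2 v w h0 hw)]
      exact mem_zpowers _
  rw [commutator_def, commutator_le]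
  intro a _ b _
  rw [← QuotientGroup.eq_one_iff, ← QuotientGroup.mk'_apply, map_commutatorElement,
    commutatorElement_eq_one_iff_commute]
  obtain ⟨i, hi⟩ := key a
  obtain ⟨j, hj⟩ := key b
  rw [QuotientGroup.mk'_apply, QuotientGroup.mk'_apply, ← hi, ← hj]
  exact Commute.zpow_zpow_self _ _ _

theorem o8_orth {v w : V} (hv : Q v = -1) (hw : Q w = -1) (h : polar Q v w = 0) :
    Q (v + w) = 1 ∧ Q (v - w) = 1 ∧ refl Q v * refl Q w = refl Q (v + w) * refl Q (v - w) := by
  have h1 : Q (v + w) = 1 := by rw [Q_add, hv, hw, h]; decide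
  have h2 : Q (v - w) = 1 := by rw [Q_sub, hv, hw, h]; decide
  refine ⟨h1, h2, OG.ext' fun x => ?_⟩
  have e1 := polar_self' (Q := Q) v
  have e2 := polar_self' (Q := Q) w
  have e3 : polar Q w v = 0 := by rw [pcomm, h]
  have t3 : (3 : ZMod 3) = 0 := rfl
  simp only [Subgroup.coe_mul, LinearEquiv.mul_apply, refl_apply, hv, hw, h1, h2, polar_sub_right,
    polar_add_left, polar_sub_left, polar_sr, h, e1, e2, e3, inv_one, inv_neg, smul_add, smul_sub]
  match_scalars
  · ring
  · linear_combination (polar Q w x) * t3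
  · linear_combination (polar Q v x) * t3

theorem o8_main [hB : Big Q] {G : Type*} [Group G] [Finite G] [IsSimpleGroup G] {D : Set G}
    (hgen : closure D = ⊤) (T : TS D) (hna : ∃ a ∈ D, ∃ b ∈ D, ¬ Commute a b) (r : G → OG Q)
    (hr : ∀ d ∈ D, ∃ v, Q v = 1 ∧ r d = refl Q v) (hs : ∀ v, Q v = 1 → ∃ d ∈ D, r d = refl Q v)
    (hi : ∀ a ∈ D, ∀ b ∈ D, r a = r b → a = b)
    (hc : ∀ a ∈ D, ∀ b ∈ D, r (a * b * a) = r a * r b * (r a)⁻¹)
    (h2 : ∀ R : Subgroup (OG Q), (∀ v, Q v = 1 → refl Q v ∈ R) →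
      ∀ v w, Q v = -1 → Q w = -1 → refl Q v * refl Q w ∈ R) :
    Odd (finrank (ZMod 3) V) ∧ Nonempty (G ≃* POm Q) := by
  have := Big.fd Q
  obtain ⟨a, ha, b, hb, hab⟩ := hna
  have hZ : ∀ g : G, (∀ x, x * g = g * x) → g = 1 := fun g hg => by
    rcases (inferInstance : (center G).Normal).eq_bot_or_eq_top with h | h
    · exact mem_bot.1 (h ▸ mem_center_iff.2 hg)
    · exact absurd (mem_center_iff.1 (h ▸ mem_top b : b ∈ center G) a) hab
  have hP : commutator G = ⊤ := by
    rcases (inferInstance : (commutator G).Normal).eq_bot_or_eq_top with h | h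
    · exact absurd (commutatorElement_eq_one_iff_commute.1 (mem_bot.1
        (h ▸ commutator_mem_commutator (mem_top a) (mem_top b)))) hab
    · exact h
  have hD : ∀ g : G, (∀ d ∈ D, Commute g d) → g = 1 := fun g hg => hZ g fun x =>
    mem_centralizer_singleton_iff.1 ((closure_le (centralizer {g})).2
      (fun d hd => mem_centralizer_singleton_iff.2 (hg d hd).symm.eq) (hgen ▸ mem_top x))
  let R : Subgroup (OG Q) := closure (r '' D)
  have hR : ∀ v, Q v = 1 → refl Q v ∈ R := fun v hv => by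
    obtain ⟨d, hd, e⟩ := hs v hv
    exact subset_closure ⟨d, hd, e⟩
  have hcj : ∀ (g : OG Q), ∀ d ∈ D, ∃ d' ∈ D, r d' = g * r d * g⁻¹ := fun g d hd => by
    obtain ⟨v, hv, e⟩ := hr d hd
    rw [e, refl_conj]
    exact hs _ (by rw [mem_OG.1 g.2, hv])
  haveI : R.Normal := ⟨fun n hn g => by
    refine (closure_le (R.comap (MulAut.conj g).toMonoidHom)).2 ?_ hn
    rintro _ ⟨d, hd, rfl⟩
    obtain ⟨d', hd', e⟩ := hcj g d hd
    exact subset_closure ⟨d', hd', e⟩⟩
  have hΩ := o8_le R hR (h2 R hR)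
  let s : D → R := fun d => ⟨r d, subset_closure ⟨d, d.2, rfl⟩⟩
  have hsr : closure (Set.range s) = ⊤ := by
    rw [← closure_closure_coe_preimage (k := r '' D)]
    congr 1
    ext x
    exact ⟨fun ⟨d, e⟩ => ⟨d, d.2, congrArg Subtype.val e⟩, fun ⟨d, hd, e⟩ => ⟨⟨d, hd⟩, Subtype.ext e⟩⟩
  obtain ⟨f, hf⟩ := exists_hom_of_table (G := G) s Subtype.val hsr s Subtype.val
    (fun i j e => Subtype.ext (hi _ i.2 _ j.2 (congrArg Subtype.val e)))
    (fun g _ h => hD g fun d hd => commute_of_conj_eq (h ⟨d, hd⟩))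
    (fun i j => ⟨i * j * i, T.cl _ i.2 _ j.2⟩) (fun i j => Subtype.ext (hc _ i.2 _ j.2).symm)
    (fun i j => by rw [T.inv i.2])
  have hfs : Function.Surjective f := MonoidHom.range_eq_top.1 (top_le_iff.1 (hgen ▸
    (closure_le _).2 fun d hd => ⟨s ⟨d, hd⟩, hf _⟩))
  have hk : ∀ k : R, f k = 1 → ∀ g ∈ R, (k : OG Q) * g = g * k := fun k hk g hg => by
    refine (mem_centralizer_singleton_iff.1 ((closure_le (centralizer {(k : OG Q)})).2 ?_ hg)).symm
    rintro _ ⟨d, hd, rfl⟩
    obtain ⟨d', hd', e⟩ := hcj k d hd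
    have e1 : s ⟨d', hd'⟩ = k * s ⟨d, hd⟩ * k⁻¹ := Subtype.ext e
    have e2 := congrArg f e1
    rw [_root_.map_mul, _root_.map_mul, map_inv, hk, hf, hf, one_mul, inv_one, mul_one] at e2
    rw [show d' = d from e2] at e
    exact mem_centralizer_singleton_iff.2 (mul_inv_eq_iff_eq_mul.1 e.symm).symm
  let f' : commutator (OG Q) →* G := f.comp (inclusion hΩ)
  have hs' : Function.Surjective f' := fun g => by
    have : g ∈ (commutator R).map f := by
      rw [commutator_def, map_commutator, ← MonoidHom.range_eq_map, MonoidHom.range_eq_top.2 hfs]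
      exact hP.ge (mem_top g)
    obtain ⟨w, hw, rfl⟩ := this
    exact ⟨⟨w, mem_commutator_hom R.subtype hw⟩, rfl⟩
  have hker : f'.ker = center _ := by
    ext z
    refine ⟨fun h => mem_center_iff.2 fun g => Subtype.ext (hk _ h g (hΩ g.2)).symm,
      fun h => hZ _ fun x => ?_⟩
    obtain ⟨g, rfl⟩ := hs' x
    rw [← _root_.map_mul, mem_center_iff.1 h g, _root_.map_mul]
  refine ⟨?_, ⟨(QuotientGroup.quotientKerEquivOfSurjective f' hs').symm.trans
    (QuotientGroup.quotientMulEquivOfEq hker)⟩⟩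
  obtain ⟨w, hw⟩ := hs' a
  obtain ⟨v, hv, e⟩ := hr a ha
  have h1 : f (s ⟨a, ha⟩ * (inclusion hΩ w)⁻¹) = 1 := by
    rw [_root_.map_mul, map_inv, hf]; exact mul_inv_eq_one.2 hw.symm
  have h3 : dickF (r a * (w : OG Q)⁻¹) = -1 := by
    rw [e, dickF_refl_mul hB.nd _ (by rw [hv]; exact one_ne_zero), dickF_inv hB.nd Big.good,
      ((mem_commutator_iff hB.nd Big.good _).1 w.2).1]
  rcases o8_scal (k := r a * (w : OG Q)⁻¹) (fun g hg => hk _ h1 g (hΩ hg)) with k | k
  · rw [k, dickF_one] at h3; exact absurd h3 (by decide)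
  · rw [k, dickF_negOne o8_two] at h3
    rw [← Nat.not_even_iff_odd]
    intro h
    rw [h.neg_one_pow] at h3
    exact absurd h3 (by decide)

theorem o8_std [FiniteDimensional (ZMod 3) V] (hQ : CfsgH8.ND Q) {k : ℕ}
    (hn : finrank (ZMod 3) V = 2 * k + 1) : Nonempty (OG Q ≃* OG (QO k (ZMod 3))) := by
  have h0 : finrank (ZMod 3) V = finrank (ZMod 3) (Unit ⊕ (Fin k ⊕ Fin k) → ZMod 3) := by
    simp [hn]; ring
  by_cases h : discC Q = discC (QO k (ZMod 3))
  · exact (iso_of_discC o8_two hQ (ND_QO o8_two) h0 h).og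
  have he : ∀ x, (-Q) (LinearEquiv.refl (ZMod 3) V x) = (-1) * Q x := fun x => by simp
  have h1 := discC_sim hQ _ (by decide) he
  rw [chi_eq_neg_one_iff.2 (by decide), hn, Odd.neg_one_pow ⟨k, rfl⟩] at h1
  obtain ⟨e⟩ := (iso_of_discC o8_two (hQ.congr _ (by decide) he) (ND_QO o8_two) h0 (by
    rw [h1]
    rcases Int.units_eq_one_or (discC Q) with a | a <;>
      rcases Int.units_eq_one_or (discC (QO k (ZMod 3))) with b | b <;> simp_all)).og
  exact ⟨(congrOG _ (by decide) he).trans e⟩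

end abs

section conc

variable {m : ℕ} (c : Fin m → ZMod 3)

/-- the quadratic form with polar form `bO c` -/
noncomputable def QD : QuadraticForm (ZMod 3) (Fin m → ZMod 3) := weightedSumSquares (ZMod 3) (-c)

theorem bO_neg (u v : Fin m → ZMod 3) : bO (-c) u v = - bO c u v := by
  simp [bO]

theorem QD_apply (u : Fin m → ZMod 3) : QD c u = - bO c u u := by
  simp [QD, bO, mul_assoc]

theorem polar_QD (u v : Fin m → ZMod 3) : polar (QD c) u v = bO c u v := by
  have t3 : (3 : ZMod 3) = 0 := rfl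
  simp only [polar, QD_apply, bO_lin, bO_comm c v u]
  linear_combination (- bO c u v) * t3

variable {c}

theorem big_QD (hc : ∀ i, c i ≠ 0) (hm : 5 ≤ m) : Big (QD c) :=
  ⟨CfsgH8.ND.of_forall fun x h => by
    by_contra h0
    obtain ⟨y, -, hy⟩ := (nd_top hc le_rfl).2 x trivial h0
    exact hy (by rw [bO_comm, ← polar_QD, h]), by simpa using hm⟩

theorem QD_one {u : Fin m → ZMod 3} : QD c u = 1 ↔ bO c u u = 2 := by
  rw [QD_apply]; generalize bO c u u = x; revert x; decide

theorem QD_neg {u : Fin m → ZMod 3} : QD c u = -1 ↔ bO (-c) u u = 2 := by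
  rw [QD_apply, bO_neg]; generalize bO c u u = x; revert x; decide

theorem o8_pm {x y : Fin m → ZMod 3} (h : pm x y) : refl (QD c) x = refl (QD c) y := by
  rcases h with rfl | rfl
  exacts [rfl, refl_neg _]

theorem o8_two_refl (hc : ∀ i, c i ≠ 0) (hm : 5 ≤ m) (R : Subgroup (OG (QD c)))
    (hR : ∀ v, QD c v = 1 → refl (QD c) v ∈ R) (v w : Fin m → ZMod 3) (hv : QD c v = -1)
    (hw : QD c w = -1) : refl (QD c) v * refl (QD c) w ∈ R := by
  have k0 : ∀ v w, QD c v = -1 → QD c w = -1 → bO (-c) v w = 0 →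
      refl (QD c) v * refl (QD c) w ∈ R := fun v w hv hw h => by
    obtain ⟨h1, h2, e⟩ := o8_orth hv hw (by rw [polar_QD, ← neg_eq_zero, ← bO_neg, h])
    rw [e]; exact mul_mem (hR _ h1) (hR _ h2)
  have k1 : ∀ w, QD c w = -1 → bO (-c) v w = -1 → refl (QD c) v * refl (QD c) w ∈ R :=
    fun w hw h => by
    by_cases e : w - v = 0
    · rw [sub_eq_zero.1 e, refl_mul_self]; exact one_mem _
    have a1 := QD_neg.1 hv
    have a2 := QD_neg.1 hw
    have a3 : bO (-c) w v = -1 := by rw [bO_comm, h]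
    obtain ⟨p, p1, p2, p3⟩ := ((nd_top (c := -c) (fun i => neg_ne_zero.2 (hc i)) hm).pp
      (b := v) trivial (by rw [a1]; decide)).exists_plus_perp (w := w - v)
      ((mem_pp _).2 ⟨trivial, by rw [bO_sub_left, a1, a3]; decide⟩) e
      (by simp only [bO_lin, a1, a2, a3, h]; decide)
    have p4 := ((mem_pp _).1 p1).2
    rw [bO_sub_right, p4, sub_zero] at p3
    have := mul_mem (k0 v p hv (QD_neg.2 p2) (by rw [bO_comm, p4])) (k0 p w (QD_neg.2 p2) hw p3)
    rwa [mul_assoc, ← mul_assoc (refl _ p), refl_mul_self, one_mul] at this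
  rcases z3_cases (bO (-c) v w) with h | h | h
  · exact k0 v w hv hw h
  · rw [← refl_neg w]; exact k1 _ (by rw [Q_neg, hw]) (by rw [bO_neg_right, h])
  · exact k1 w hw h

theorem specO : SpecO.{u} := fun G _ _ _ D m c hm hgen T ⟨v, h⟩ => by
  haveI hB := big_QD h.nz (by omega : 5 ≤ m)
  have hq : ∀ d ∈ D, QD c (v d) = 1 := fun d hd => QD_one.2 (h.norm d hd)
  have hna : ∃ a ∈ D, ∃ b ∈ D, ¬ Commute a b := by
    obtain ⟨x, -, hx⟩ := (nd_top h.nz (k := 2) (by omega)).exists_plus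
    have N := (nd_top h.nz (k := 5) (by omega)).pp (b := x) trivial (by rw [hx]; decide)
    obtain ⟨y, y1, hy⟩ := (N.mono (l := 2) (by omega)).exists_plus
    have N' := N.pp y1 (by rw [hy]; decide)
    obtain ⟨z, z1, hz⟩ := (N'.mono (l := 2) (by omega)).exists_plus
    have N'' := N'.pp z1 (by rw [hz]; decide)
    obtain ⟨t, t1, ht⟩ := N''.exists_plus
    obtain ⟨⟨⟨-, t2⟩, t3⟩, t4⟩ : ((True ∧ bO c t x = 0) ∧ bO c t y = 0) ∧ bO c t z = 0 := t1
    obtain ⟨⟨-, z2⟩, z3⟩ : (True ∧ bO c z x = 0) ∧ bO c z y = 0 := z1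
    obtain ⟨-, y2⟩ : True ∧ bO c y x = 0 := y1
    have b1 := bO_comm c x y; have b2 := bO_comm c x z; have b3 := bO_comm c x t
    have b4 := bO_comm c y z; have b5 := bO_comm c y t; have b6 := bO_comm c z t
    obtain ⟨a, ha, ea⟩ := h.surj' hx
    obtain ⟨b, hb, eb⟩ := h.surj' (u := x + y + z + t) (by
      simp only [bO_lin, b1, b2, b3, b4, b5, b6, hx, hy, hz, ht, t2, t3, t4, z2, z3, y2]; decide)
    refine ⟨a, ha, b, hb, fun k => ?_⟩
    have n1 : bO c x (x + y + z + t) ≠ 0 := by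
      simp only [bO_lin, b1, b2, b3, hx, t2, z2, y2]; decide
    have n2 : bO c y (x + y + z + t) ≠ 0 := by
      simp only [bO_lin, b4, b5, hy, t3, z3, y2]; decide
    by_cases e : a = b
    · subst e
      exact n2 ((eb.right y).2 ((ea.right y).1 y2))
    · exact n1 ((ea.left _).2 ((eb.right _).2 ((h.comm a ha b hb e).1 k)))
  obtain ⟨⟨k, hk⟩, ⟨e⟩⟩ := o8_main (Q := QD c) hgen T hna (fun d => refl (QD c) (v d))
    (fun d hd => ⟨_, hq d hd, rfl⟩)
    (fun u hu => let ⟨d, hd, e⟩ := h.surj' (QD_one.1 hu); ⟨d, hd, (o8_pm e).symm⟩)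
    (fun a ha b hb e => by
      have h1 := congrArg (fun g : OG (QD c) => g.1 (v a)) e
      simp only [refl_self (show QD c (v a) ≠ 0 by rw [hq a ha]; decide), refl_apply, hq b hb,
        inv_one, one_mul] at h1
      have h2 : v a = -(polar (QD c) (v b) (v a) • v b) := by
        rw [← smul_two, two_smul]
        have t := add_self3 (v a)
        rw [eq_sub_iff_add_eq, neg_add_eq_iff_eq_add, t] at h1
        rw [h1, add_self3, neg_neg]
      refine h.inj' ha hb ?_
      rcases z3_cases (polar (QD c) (v b) (v a)) with k | k | k <;> rw [k] at h2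
      · have := hq a ha
        rw [h2, zero_smul, neg_zero, map_zero] at this
        exact absurd this (by decide)
      · exact Or.inr (by simpa using h2)
      · exact Or.inl (by simpa using h2))
    (fun a ha b hb => by
      rw [refl_conj, o8_pm (h.conj (by omega) T ha hb), refl_apply, hq a ha, polar_QD, inv_one,
        one_mul, bO_comm]; rfl)
    (o8_two_refl h.nz (by omega))
  obtain ⟨e'⟩ := o8_std hB.nd hk
  exact ⟨k, ⟨e.trans ((centCongr (commCongr e')).trans (pomE (QO_coe k _)).symm)⟩⟩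

end conc

end CfsgFI
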