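import Cfsg.Agent.FI.OX1

/-! The common neighbours of two non-commuting points in a locally orthogonal geometry. -/

set_option autoImplicit false

namespace CfsgFI

open Subgroup CfsgH4

universe u

section
variable {G : Type*} [Group G] {E : Set G} {m : ℕ} {c : Fin m → ZMod 3}

/-- singular vectors transfer between two local geometries -/
theorem ort_transfer (hm : 5 ≤ m) (hE : TS E) {d f : G} {v v' : G → Fin m → ZMod 3}
    (hv : OrtM c (Dd E d) v) (hv' : OrtM c (Dd E f) v') (hf : f ∈ Dd E d) (hd : d ∈ Dd E f)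
    {w : Fin m → ZMod 3} (w0 : w ≠ 0) (ww : bO c w w = 0) (wd : bO c w (v' d) = 0) :
    ∃ u, u ≠ 0 ∧ bO c u u = 0 ∧ bO c u (v f) = 0 ∧
      ∀ p ∈ Dd E d, p ∈ Dd E f → (bO c (v p) u = 0 ↔ bO c (v' p) w = 0) := by
  have hU : ND c 4 (pp c ⊤ (v' d)) :=
    (nd_top hv'.nz hm).pp trivial (by rw [hv'.norm d hd]; decide)
  obtain ⟨x0, hx0, xx, xw⟩ := hU.exists_plus_perp (w := w) ⟨trivial, wd⟩ w0 ww
  have xd : bO c x0 (v' d) = 0 := hx0.2
  obtain ⟨x, hx, ex⟩ := hv'.surj' xx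
  obtain ⟨y, hy, ey⟩ := hv'.surj' (u := x0 + w)
    (by simp only [bO_lin, xx, xw, ww, bO_comm c w x0]; decide)
  have hxd := (hv'.orth hx hd).mp ((ex.left _).mp xd)
  have hyd := (hv'.orth hy hd).mp ((ey.left _).mp (by simp only [bO_lin, xd, wd]; decide))
  have hx' : x ∈ Dd E d := ⟨hx.1, hxd.1, hxd.2.symm⟩
  have hy' : y ∈ Dd E d := ⟨hy.1, hyd.1, hyd.2.symm⟩
  have hxy : ¬ Commute x y := by
    intro hc
    by_cases e : x = y
    · subst e
      rcases ey.trans ex.symm with k | k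
      · exact w0 (by simpa using k)
      · have : w = x0 := by
          have := add_self3 x0
          linear_combination (exp := 1) k - this
        rw [this, xx] at ww
        exact absurd ww (by decide)
    · have := (hv'.orth hx hy).mpr ⟨e, hc⟩
      rw [← ex.left, ← ey.right] at this
      simp only [bO_lin, xx, xw] at this
      exact absurd this (by decide)
  obtain ⟨r0, r1, -⟩ := hv.rad_spec hx' hy' hxy
  have hr : pm (rad c v' x y) w := by
    unfold rad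
    have s3 := add_self3 x0
    rcases ex.symm with k | k <;> rcases ey.symm with k' | k' <;> rw [k, k'] <;>
      simp only [bO_lin, xx, bO_comm c w x0, xw, add_zero, neg_neg, neg_smul, smul_neg, smul_two,
        neg_add, neg_zero]
    · left; abel
    · right; abel
    · left; abel
    · right; abel
  refine ⟨rad c v x y, r0, r1, ?_, fun p hp hp' => ?_⟩
  · have a1 : bO c (v x) (v f) = 0 := (hv.orth hx' hf).mpr ⟨hx.2.1, hx.2.2.symm⟩
    have a2 : bO c (v y) (v f) = 0 := (hv.orth hy' hf).mpr ⟨hy.2.1, hy.2.2.symm⟩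
    simp only [rad, bO_lin, a1, a2, mul_zero, add_zero]
  · rw [hv.rad_iff hm (hE.dd d) hx' hy' hp hxy, ← hr.right,
      hv'.rad_iff hm (hE.dd f) hx hy hp' hxy]

/-- the vectors of the common neighbours -/
def PX (E : Set G) (d a : G) (v : G → Fin m → ZMod 3) (p : Fin m → ZMod 3) : Prop :=
  ∃ z ∈ Dd E d, Commute a z ∧ pm p (v z)

theorem px_iff {d a : G} {v : G → Fin m → ZMod 3} (hv : OrtM c (Dd E d) v) {z : G}
    (hz : z ∈ Dd E d) {p : Fin m → ZMod 3} (e : pm p (v z)) : PX E d a v p ↔ Commute a z := by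
  refine ⟨?_, fun h => ⟨z, hz, h, e⟩⟩
  rintro ⟨z', hz', h, e'⟩
  rwa [hv.inj' hz hz' (e.symm.trans e')]

theorem loc_of {d a f : G} {v : G → Fin m → ZMod 3}
    (hv : OrtM c (Dd E d) v) (hf : f ∈ Dd E d) {u : Fin m → ZMod 3} (u0 : u ≠ 0)
    (uu : bO c u u = 0) (uf : bO c u (v f) = 0)
    (H : ∀ p ∈ Dd E d, p ∈ Dd E f → (bO c (v p) u = 0 ↔ Commute a p)) {e : Fin m → ZMod 3}
    (he : pm e (v f)) : Loc c (PX E d a v) e u := by
  refine ⟨u0, uu, (he.right u).mpr uf, fun p pp2 pe => ?_⟩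
  obtain ⟨z, hz, ez⟩ := hv.surj' pp2
  have := (hv.orth hz hf).mp ((ez.left _).mp ((he.right p).mp pe))
  rw [px_iff hv hz ez, ez.left, H z hz ⟨hz.1, this.1, this.2.symm⟩]

theorem vh_px (hm : 5 ≤ m) (hE : TS E) (hO : ∀ e ∈ E, Ort c (Dd E e)) {d a : G} (hd : d ∈ E)
    (ha : a ∈ E) (hda : ¬ Commute d a) {v : G → Fin m → ZMod 3} (hv : OrtM c (Dd E d) v) :
    VH c (PX E d a v) where
  nz := hv.nz
  norm := by
    rintro p ⟨z, hz, -, e⟩
    rw [e.norm, hv.norm z hz]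
  refl := by
    rintro p q ⟨z, hz, h, e⟩ ⟨z', hz', h', e'⟩
    exact ⟨z * z' * z, (hE.dd d).cl z hz z' hz', (h.mul_right h').mul_right h,
      (e.rf e').trans (hv.conj hm (hE.dd d) hz hz').symm⟩
  neg := by
    rintro p ⟨z, hz, h, e⟩
    exact ⟨z, hz, h, pm.trans (Or.inr rfl) e⟩
  loc := by
    rintro e ⟨f, hf, haf, ef⟩
    obtain ⟨v', hv'⟩ := hO f hf.1
    have hd' : d ∈ Dd E f := ⟨hd, hf.2.1.symm, hf.2.2.symm⟩
    have ha' : a ∈ Dd E f := ⟨ha, fun e => hda (e ▸ hf.2.2), haf.symm⟩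
    obtain ⟨r0, r1, r2⟩ := hv'.rad_spec hd' ha' hda
    obtain ⟨u, u0, uu, uf, H⟩ := ort_transfer hm hE hv hv' hf hd' r0 r1 r2
    refine ⟨u, loc_of hv hf u0 uu uf (fun p hp hp' => ?_) ef⟩
    have h1 : bO c (v' p) (v' d) = 0 := (hv'.orth hp' hd').mpr ⟨hp.2.1, hp.2.2.symm⟩
    rw [H p hp hp']
    simp only [rad, bO_lin, h1, mul_zero, add_zero]
    rw [hv'.orth hp' ha']
    exact ⟨fun h => h.2.symm, fun h => ⟨fun e => hda (e ▸ hp.2.2), h.symm⟩⟩
  leaf := by
    intro p q pp2 qq pq hp hq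
    obtain ⟨x, hx, ex⟩ := hv.surj' pp2
    obtain ⟨y, hy, ey⟩ := hv.surj' qq
    have hxy := (hv.orth hx hy).mp ((ex.left _).mp ((ey.right p).mp pq))
    rw [px_iff hv hx ex] at hp
    rw [px_iff hv hy ey] at hq
    obtain ⟨l, hl, l1, l2, l3, l4, l5, l6, l7, l8, -⟩ := hE.leaf4 ha hd hx.1 hy.1 hx.2.1.symm
      hy.2.1.symm hxy.1 hx.2.2 hy.2.2 hxy.2 (fun e => hda e.symm) hp hq
    have hl' : l ∈ Dd E d := ⟨hl, l5, l1⟩
    refine ⟨v l, hv.norm l hl', ?_, ?_, ?_, ?_⟩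
    · rw [ex.right, hv.orth hl' hx]; exact ⟨l6, l2.symm⟩
    · rw [ey.right, hv.orth hl' hy]; exact ⟨l7, l3.symm⟩
    · rw [px_iff hv hl' (pm.refl _)]; exact l4
    · rintro z ⟨t, ht, hat, et⟩
      have D := hE.dd d
      have m1 := D.cl l hl' t ht
      have m2 := D.cl y hy _ m1
      have m3 := D.cl x hx _ m2
      refine ⟨_, m3, ?_, ?_⟩
      · have e : x * (y * (l * t * l) * y) * x = (d * x * y * l) * t * (d * x * y * l)⁻¹ := by
          have e1 : d * (x * (y * (l * t * l) * y) * x) * d = x * (y * (l * t * l) * y) * x :=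
            hE.cj_eq hd m3.2.2
          rw [← e1]
          simp only [mul_inv_rev, hE.inv hd, hE.inv hx.1, hE.inv hy.1, hE.inv hl, mul_assoc]
        rw [e]
        exact (l8.mul_right hat).mul_right l8.inv_right
      · exact (ex.rf ((ey.rf (((pm.refl _).rf et).trans (hv.conj hm D hl' ht).symm)).trans
          (hv.conj hm D hy m1).symm)).trans (hv.conj hm D hx m2).symm

end

theorem specOX : SpecOX.{u} := by
  intro G _ E m c hm hE hO d hd v hv
  refine ⟨fun a ha hda ⟨x, hx, hdx, hax⟩ => ?_, fun u u0 uu => ?_,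
    fun a ha a' ha' hda hda' ⟨x, hx, hdx, hax⟩ hX => ?_⟩
  · have H := vh_px hm hE hO hd ha hda hv
    have hx' : x ∈ Dd E d := ⟨hx, fun e => hda (e ▸ hax.symm), hdx⟩
    have P0 : PX E d a v (v x) := ⟨x, hx', hax, pm.refl _⟩
    obtain ⟨u, hu⟩ := H.loc _ P0
    refine ⟨u, hu.1, hu.2.1, fun e he => ?_⟩
    rw [bO_comm, ← H.main hm P0 hu (hv.norm e he), px_iff hv he (pm.refl _)]
  · obtain ⟨f0, -, ff, fu⟩ := (nd_top hv.nz (k := 4) (by omega)).exists_plus_perp (w := u)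
      trivial u0 uu
    obtain ⟨f, hf, ef⟩ := hv.surj' ff
    obtain ⟨v', hv'⟩ := hO f hf.1
    have hd' : d ∈ Dd E f := ⟨hd, hf.2.1.symm, hf.2.2.symm⟩
    have uf : bO c u (v f) = 0 := by rw [← ef.right, bO_comm, fu]
    obtain ⟨w, w0, ww, wd, H⟩ := ort_transfer hm hE hv' hv hd' hf u0 uu uf
    have dd := hv'.norm d hd'
    obtain ⟨a, ha, ea⟩ := hv'.surj' (u := v' d + w)
      (by simp only [bO_lin, dd, wd, ww, bO_comm c (v' d) w]; decide)
    have hda : ¬ Commute d a := by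
      intro hc
      by_cases e : d = a
      · subst e
        rcases ea with k | k
        · exact w0 (by simpa using k)
        · have : w = v' d := by
            have := add_self3 (v' d)
            linear_combination (exp := 1) k - this
          rw [this, dd] at ww
          exact absurd ww (by decide)
      · have := (hv'.orth hd' ha).mpr ⟨e, hc⟩
        rw [← ea.right] at this
        simp only [bO_lin, dd, bO_comm c (v' d) w, wd] at this
        exact absurd this (by decide)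
    have HV := vh_px hm hE hO hd ha.1 hda hv
    have P0 : PX E d a v (v f) := ⟨f, hf, ha.2.2.symm, pm.refl _⟩
    have hu : Loc c (PX E d a v) (v f) u := by
      refine loc_of hv hf u0 uu uf (fun p hp hp' => ?_) (pm.refl _)
      have h1 : bO c (v' p) (v' d) = 0 := (hv'.orth hp' hd').mpr ⟨hp.2.1, hp.2.2.symm⟩
      have h2 : bO c (v' p) (v' a) = 0 ↔ bO c (v' p) w = 0 := by
        rw [← ea.right]; simp only [bO_lin, h1, zero_add]
      rw [← H p hp' hp, ← h2, hv'.orth hp' ha]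
      exact ⟨fun h => h.2.symm, fun h => ⟨fun e => hda (e ▸ hp.2.2), h.symm⟩⟩
    refine ⟨a, ha.1, hda, fun e he => ?_⟩
    rw [bO_comm, ← HV.main hm P0 hu (hv.norm e he), px_iff hv he (pm.refl _)]
  · obtain ⟨v', hv'⟩ := hO x hx
    have hx' : x ∈ Xs E d a' := hX ▸ (⟨hx, hdx, hax⟩ : x ∈ Xs E d a)
    have hd' : d ∈ Dd E x := ⟨hd, fun e => hda (e ▸ hax.symm), hdx.symm⟩
    have h1 : a ∈ Dd E x := ⟨ha, fun e => hda (e ▸ hdx), hax.symm⟩
    have h2 : a' ∈ Dd E x := ⟨ha', fun e => hda' (e ▸ hdx), hx'.2.2.symm⟩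
    refine hv'.fib hm (hE.dd x) hd' h1 h2 hda hda' (fun y hy _ hdy => ⟨fun h => ?_, fun h => ?_⟩)
    · exact (hX ▸ (⟨hy.1, hdy, h⟩ : y ∈ Xs E d a) : y ∈ Xs E d a').2.2
    · exact (hX.symm ▸ (⟨hy.1, hdy, h⟩ : y ∈ Xs E d a') : y ∈ Xs E d a).2.2

end CfsgFI
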