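import Cfsg.Agent.FI.O0

/-! The common neighbours of two non-commuting points: the vector level argument. -/

set_option autoImplicit false

namespace CfsgFI

variable {m : ℕ} {c : Fin m → ZMod 3}

variable (c) in
/-- near `e` the set `P` is the perp of the singular vector `u` -/
def Loc (P : (Fin m → ZMod 3) → Prop) (e u : Fin m → ZMod 3) : Prop :=
  u ≠ 0 ∧ bO c u u = 0 ∧ bO c u e = 0 ∧ ∀ p, bO c p p = 2 → bO c p e = 0 → (P p ↔ bO c p u = 0)

variable (c) in
/-- the vector level hypotheses -/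
structure VH (P : (Fin m → ZMod 3) → Prop) : Prop where
  nz : ∀ i, c i ≠ 0
  norm : ∀ p, P p → bO c p p = 2
  refl : ∀ p q, P p → P q → P (rf c p q)
  neg : ∀ p, P p → P (-p)
  loc : ∀ e, P e → ∃ u, Loc c P e u
  leaf : ∀ p q, bO c p p = 2 → bO c q q = 2 → bO c p q = 0 → ¬ P p → ¬ P q →
    ∃ l, bO c l l = 2 ∧ bO c l p = 0 ∧ bO c l q = 0 ∧ ¬ P l ∧
      ∀ z, P z → P (rf c p (rf c q (rf c l z)))

variable {P : (Fin m → ZMod 3) → Prop}

theorem Loc.neg {e u : Fin m → ZMod 3} (h : Loc c P e u) : Loc c P e (-u) :=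
  ⟨neg_ne_zero.mpr h.1, by simp only [bO_lin, h.2.1, neg_zero], by simp only [bO_lin, h.2.2.1, neg_zero],
    fun p h1 h2 => by rw [h.2.2.2 p h1 h2, bO_neg_right, neg_eq_zero]⟩

theorem rf_norm {a x : Fin m → ZMod 3} (ha : bO c a a = 2) : bO c (rf c a x) (rf c a x) = bO c x x :=
  rf_rf ha x x

set_option synthInstance.maxSize 100000 in
set_option synthInstance.maxHeartbeats 400000 in
/-- the Petersen configuration does not occur -/
theorem VH.petersen (h : VH c P) {e x u u' y : Fin m → ZMod 3} (he : P e) (hx : P x)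
    (ex : bO c e x = 0) (hu : Loc c P e u) (hu' : Loc c P x u') (uu : bO c u u' = 2)
    (ye : bO c y e = 0) (yx : bO c y x = 0) (yu : bO c y u = 0) (yu' : bO c y u' = 0)
    (yy : bO c y y = 1)
    (np : ∀ p, bO c p e = 0 → bO c p x = 0 → bO c p u = 0 → bO c p u' = 0 → bO c p p ≠ 2) :
    False := by
  have ee := h.norm e he
  have xx := h.norm x hx
  have xe : bO c x e = 0 := by rw [bO_comm, ex]
  obtain ⟨-, u0, ue, Lu⟩ := hu
  obtain ⟨-, u0', ux', Lu'⟩ := hu'
  have xu : bO c x u = 0 := (Lu x xx xe).mp hx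
  have eu' : bO c e u' = 0 := (Lu' e ee ex).mp he
  have ux : bO c u x = 0 := by rw [bO_comm, xu]
  have ue' : bO c u' e = 0 := by rw [bO_comm, eu']
  have eu : bO c e u = 0 := by rw [bO_comm, ue]
  have xu' : bO c x u' = 0 := by rw [bO_comm, ux']
  have uu2 : bO c u' u = 2 := by rw [bO_comm, uu]
  have ey : bO c e y = 0 := by rw [bO_comm, ye]
  have xy : bO c x y = 0 := by rw [bO_comm, yx]
  have uy : bO c u y = 0 := by rw [bO_comm, yu]
  have uy' : bO c u' y = 0 := by rw [bO_comm, yu']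
  have P1 : P (x + u) := by
    rw [Lu] <;> simp only [bO_lin, xx, xu, ux, u0, xe, ue] <;> decide
  have P2 : P (x - u) := by
    rw [Lu] <;> simp only [bO_lin, xx, xu, ux, u0, xe, ue] <;> decide
  have nf : bO c (u + u' - y) (u + u' - y) = 2 := by
    simp only [bO_lin, u0, u0', uu, uu2, uy, uy', yu, yu', yy]; decide
  have nz : bO c (e + x - u' + y) (e + x - u' + y) = 2 := by
    simp only [bO_lin, ee, xx, ex, xe, eu', ue', xu', ux', u0', ey, ye, xy, yx, uy', yu', yy]
    decide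
  have fz : bO c (u + u' - y) (e + x - u' + y) = 0 := by
    simp only [bO_lin, ue, ux, uu, uy, ue', ux', u0', uy', ye, yx, yu', yy]; decide
  have nPf : ¬ P (u + u' - y) := by
    rw [Lu _ nf]
    · simp only [bO_lin, u0, uu2, yu]; decide
    · simp only [bO_lin, ue, ue', ye]; decide
  have nPz : ¬ P (e + x - u' + y) := by
    intro hz
    have := h.refl _ _ P2 hz
    rw [Lu' _ (h.norm _ this)] at this
    · revert this
      simp only [rf, bO_lin, ee, xx, ex, xe, eu, eu', ue', xu, xu', ux, ux', u0, u0', uu, uu2, yx,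
        yu, yu']
      decide
    · simp only [rf, bO_lin, ee, xx, ex, xe, eu, eu', ue', xu, xu', ux, ux', u0, u0', uu, uu2, yx,
        yu, yu']
      decide
  obtain ⟨l, ll, l1, l2, -, hl⟩ := h.leaf _ _ nf nz fz nPf nPz
  have A := hl e he
  have B := hl _ P1
  have A' := Lu _ (h.norm _ A)
  have B' := Lu' _ (h.norm _ B)
  simp only [A, B, true_iff] at A' B'
  have W := np (l + bO c l e • e + bO c l x • x + bO c l u' • u + bO c l u • u' - bO c l y • y)
  have W' := np (l + bO c l e • e + bO c l x • x + bO c l u' • u + bO c l u • u' - bO c l y • y + y)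
  revert l1 l2 A' B' W W'
  simp only [rf, bO_lin, ee, xx, ex, xe, eu, ue, eu', ue', xu, xu', ux, ux', u0, u0', uu, uu2,
    ey, ye, xy, yx, uy, yu, uy', yu', yy, ll, bO_comm c e l, bO_comm c x l, bO_comm c u l,
    bO_comm c u' l, bO_comm c y l]
  generalize bO c l e = a1
  generalize bO c l x = a2
  generalize bO c l u = a3
  generalize bO c l u' = a4
  generalize bO c l y = a5
  revert a1 a2 a3 a4 a5
  decide +kernel

theorem VH.x1 (hm : 5 ≤ m) (h : VH c P) {e x u u' : Fin m → ZMod 3} (he : P e) (hx : P x)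
    (ex : bO c e x = 0) (hu : Loc c P e u) (hu' : Loc c P x u') : pm u' u := by
  have ee := h.norm e he
  have xx := h.norm x hx
  have xe : bO c x e = 0 := by rw [bO_comm, ex]
  have xu : bO c x u = 0 := (hu.2.2.2 x xx xe).mp hx
  have eu' : bO c e u' = 0 := (hu'.2.2.2 e ee ex).mp he
  have hU : ND c 3 (pp c (pp c ⊤ e) x) :=
    ((nd_top h.nz hm).pp trivial (by rw [ee]; decide)).pp ⟨trivial, xe⟩ (by rw [xx]; decide)
  have mu : u ∈ pp c (pp c ⊤ e) x := ⟨⟨trivial, hu.2.2.1⟩, by rw [bO_comm, xu]⟩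
  have mu' : u' ∈ pp c (pp c ⊤ e) x := ⟨⟨trivial, by rw [bO_comm, eu']⟩, hu'.2.2.1⟩
  have key : ∀ p, bO c p p = 2 → bO c p e = 0 → bO c p x = 0 → bO c p u = 0 → bO c p u' = 0 :=
    fun p h1 h2 h3 h4 => (hu'.2.2.2 p h1 h3).mp ((hu.2.2.2 p h1 h2).mpr h4)
  by_contra hn
  by_cases hww : bO c u' u = 0
  · obtain ⟨p, hp, a, b, d⟩ := hU.lemmaS0 mu mu' hu.1 hu'.1 hu'.2.1 hww
      (fun e => hn (Or.inl e)) (fun e => hn (Or.inr e))
    rw [key p a hp.1.2 hp.2 b] at d
    exact absurd d (by decide)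
  have np : ∀ p, bO c p e = 0 → bO c p x = 0 → bO c p u = 0 → bO c p u' = 0 → bO c p p ≠ 2 := by
    intro p h1 h2 h3 h4 h5
    apply hww
    have := key (p + u) (by simp only [bO_lin, h5, h3, hu.2.1, bO_comm c u p]; decide)
      (by simp only [bO_lin, h1, hu.2.2.1]; decide) (by simp only [bO_lin, h2, mu.2]; decide)
      (by simp only [bO_lin, h3, hu.2.1]; decide)
    simpa only [bO_lin, h4, zero_add, bO_comm c u u'] using this
  obtain ⟨U', hU', e'⟩ := hU.hyp (k := 1) mu mu' hu.2.1 hu'.2.1 hww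
  obtain ⟨y, hy, yy⟩ := hU'.exists_aniso
  obtain ⟨⟨⟨-, ye⟩, yx⟩, yu, yu'⟩ := (e' y).mp hy
  have yy1 : bO c y y = 1 := by
    have := np y ye yx yu yu'
    revert yy this; generalize bO c y y = t; revert t; decide
  rcases z3_cases (bO c u' u) with t | t | t
  · exact hww t
  · refine h.petersen he hx ex hu hu'.neg ?_ ye yx yu (by rw [bO_neg_right, yu', neg_zero]) yy1 ?_
    · rw [bO_neg_right, bO_comm, t]; decide
    · intro p h1 h2 h3 h4
      exact np p h1 h2 h3 (by rwa [bO_neg_right, neg_eq_zero] at h4)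
  · exact h.petersen he hx ex hu hu' (by rw [bO_comm, t]; decide) ye yx yu yu' yy1 np

/-- a line with radical `u` inside `P` -/
theorem VH.line (hm : 5 ≤ m) (h : VH c P) {e u : Fin m → ZMod 3} (he : P e) (hu : Loc c P e u) :
    ∃ x, bO c x e = 0 ∧ bO c x u = 0 ∧ P x ∧ P (x + u) ∧ P (x - u) := by
  have ee := h.norm e he
  have hU : ND c 4 (pp c ⊤ e) := (nd_top h.nz hm).pp trivial (by rw [ee]; decide)
  obtain ⟨x, hx, xx, xu⟩ := hU.exists_plus_perp (w := u) ⟨trivial, hu.2.2.1⟩ hu.1 hu.2.1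
  have xe : bO c x e = 0 := hx.2
  refine ⟨x, xe, xu, ?_, ?_, ?_⟩ <;> rw [hu.2.2.2] <;>
    simp only [bO_lin, xx, xu, xe, hu.2.1, hu.2.2.1, bO_comm c u x] <;> decide

theorem VH.sub (hm : 5 ≤ m) (h : VH c P) {e u : Fin m → ZMod 3} (he : P e) (hu : Loc c P e u)
    {f : Fin m → ZMod 3} (hf : P f) : bO c f u = 0 := by
  obtain ⟨x, xe, xu, P0, P1, P2⟩ := h.line hm he hu
  have key : ∀ x', P x' → bO c x' e = 0 → bO c f x' = 0 → bO c f u = 0 := by
    intro x' h1 h2 h3
    obtain ⟨u', hu'⟩ := h.loc x' h1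
    rw [← (h.x1 hm he h1 (by rw [bO_comm, h2]) hu hu').right]
    exact (hu'.2.2.2 f (h.norm f hf) h3).mp hf
  have k0 := key x P0 xe
  have k1 := key _ P1 (by simp only [bO_lin, xe, hu.2.2.1]; decide)
  have k2 := key _ P2 (by simp only [bO_lin, xe, hu.2.2.1]; decide)
  revert k0 k1 k2
  simp only [bO_lin]
  generalize bO c f x = s; generalize bO c f u = t; revert s t; decide

theorem VH.x3 (hm : 5 ≤ m) (h : VH c P) {e u : Fin m → ZMod 3} (he : P e) (hu : Loc c P e u)
    {e' p : Fin m → ZMod 3} (he' : P e') (pp2 : bO c p p = 2) (pe : bO c p e' = 0)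
    (pu : bO c p u = 0) : P p := by
  obtain ⟨u', hu'⟩ := h.loc e' he'
  obtain ⟨x, xe, xu, P0, P1, P2⟩ := h.line hm he hu
  have uu : bO c u u' = 0 := by
    have k0 := h.sub hm he' hu' P0
    have k1 := h.sub hm he' hu' P1
    simpa only [bO_lin, k0, zero_add] using k1
  have hU : ND c 4 (pp c ⊤ e') := (nd_top h.nz hm).pp trivial (by rw [h.norm e' he']; decide)
  have key : pm u u' := by
    by_contra hn
    obtain ⟨q, hq, a, b, d⟩ := hU.lemmaS0 (w := u') (w' := u) ⟨trivial, hu'.2.2.1⟩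
      ⟨trivial, by rw [bO_comm]; exact h.sub hm he hu he'⟩ hu'.1 hu.1 hu.2.1 uu
      (fun e => hn (Or.inl e)) (fun e => hn (Or.inr e))
    rw [h.sub hm he hu ((hu'.2.2.2 q a hq.2).mpr b)] at d
    exact absurd d (by decide)
  exact (hu'.2.2.2 p pp2 pe).mpr ((key.right p).mp pu)

/-- the set `P` is the perp of `u` -/
theorem VH.main (hm : 5 ≤ m) (h : VH c P) {e u : Fin m → ZMod 3} (he : P e) (hu : Loc c P e u)
    {p : Fin m → ZMod 3} (pp2 : bO c p p = 2) : P p ↔ bO c p u = 0 := by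
  refine ⟨fun hp => h.sub hm he hu hp, fun pu => ?_⟩
  by_contra hp
  have ee := h.norm e he
  have hU : ND c 4 (pp c ⊤ p) := (nd_top h.nz hm).pp trivial (by rw [pp2]; decide)
  obtain ⟨q, hq, qq, qu⟩ := hU.exists_plus_perp (w := u) ⟨trivial, by rw [bO_comm, pu]⟩ hu.1 hu.2.1
  have qp : bO c q p = 0 := hq.2
  have pq : bO c p q = 0 := by rw [bO_comm, qp]
  have hq' : ¬ P q := fun hq' => hp (h.x3 hm he hu hq' pp2 pq pu)
  obtain ⟨l, ll, lp, lq, hl, hρ⟩ := h.leaf p q pp2 qq pq hp hq'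
  obtain ⟨x, xe, xu, P0, P1, P2⟩ := h.line hm he hu
  have lu : bO c l u = 0 := by
    have k0 := h.sub hm he hu (hρ _ P0)
    have k1 := h.sub hm he hu (hρ _ P1)
    revert k0 k1
    simp only [rf, bO_lin, pu, qu, xu, hu.2.1, bO_comm c u l]
    generalize bO c x l = s; generalize bO c l u = t
    simp only [mul_zero, sub_zero]
    revert s t; decide
  have c1 : bO c p e ≠ 0 := fun e => hp (h.x3 hm he hu he pp2 e pu)
  have c2 : bO c q e ≠ 0 := fun e => hq' (h.x3 hm he hu he qq e qu)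
  have c3 : bO c l e ≠ 0 := fun e => hl (h.x3 hm he hu he ll e lu)
  apply hp
  refine h.x3 hm he hu (h.refl _ _ he (hρ _ he)) pp2 ?_ pu
  revert c1 c2 c3
  simp only [rf, bO_lin, ee, pp2, qq, ll, lp, lq, pq, qp, bO_comm c p l, bO_comm c q l,
    bO_comm c e p, bO_comm c e q, bO_comm c e l]
  generalize bO c p e = s; generalize bO c q e = t; generalize bO c l e = r
  revert s t r; decide

end CfsgFI
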