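import Cfsg.Agent.FI.Ort1

/-! Locally orthogonal is orthogonal. -/

set_option autoImplicit false

namespace CfsgFI

open Subgroup CfsgH4

universe u

namespace OT

variable {G : Type*} [Group G] {m : ℕ}

/-- the non-neighbour `a` of `d` is described by the singular vector `u` -/
structure R (c : Fin m → ZMod 3) (E : Set G) (d : G) (v : G → Fin m → ZMod 3) (a : G)
    (u : Fin m → ZMod 3) : Prop where
  mem : a ∈ E
  nc : ¬ Commute d a
  ne : u ≠ 0
  sg : bO c u u = 0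
  pe : ∀ e ∈ Dd E d, (Commute a e ↔ bO c u (v e) = 0)

/-- the local data at `d` -/
structure Cx (c : Fin m → ZMod 3) (E : Set G) (d : G) (v : G → Fin m → ZMod 3) : Prop where
  hm : 5 ≤ m
  T : TS E
  hd : d ∈ E
  O : OrtM c (Dd E d) v
  ex : ∀ a ∈ E, ¬ Commute d a → ∃ u, R c E d v a u
  su : ∀ u, u ≠ 0 → bO c u u = 0 → ∃ a, R c E d v a u
  fi : ∀ {a a' u}, R c E d v a u → R c E d v a' u → a' = a ∨ a' = d * a * d

/-- compatible signs -/
def Ok (c : Fin m → ZMod 3) (a : G) (u : Fin m → ZMod 3) (a' : G) (u' : Fin m → ZMod 3) : Prop :=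
  bO c u u' ≠ 0 → (Commute a a' ↔ bO c u u' = 1)

variable {c : Fin m → ZMod 3} {E : Set G} {d : G} {v : G → Fin m → ZMod 3} {a a' a0 : G}
  {u u' u0 : Fin m → ZMod 3}

theorem Ok.symm (h : Ok c a u a' u') : Ok c a' u' a u := by
  unfold Ok at h ⊢
  rw [bO_comm, Commute.symm_iff]; exact h

theorem ok_neg (h : bO c u u' ≠ 0) : Ok c a u a' (-u') ↔ ¬ Ok c a u a' u' := by
  unfold Ok
  rw [bO_neg_right]
  rcases z3_cases (bO c u u') with e | e | e
  · exact (h e).elim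
  · rw [e]; simp only [show (-1 : ZMod 3) ≠ 0 by decide, show ¬ (-1 : ZMod 3) = 1 by decide]; simp
  · rw [e]; simp only [show (-1 : ZMod 3) ≠ 0 by decide, show ¬ (-1 : ZMod 3) = 1 by decide]; simp

theorem R.neg (h : R c E d v a u) : R c E d v a (-u) :=
  ⟨h.mem, h.nc, neg_ne_zero.2 h.ne, by rw [bO_neg_left, bO_neg_right, neg_neg, h.sg],
    fun e he => by rw [bO_neg_left, neg_eq_zero]; exact h.pe e he⟩

namespace Cx

variable (X : Cx c E d v)
include X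

theorem nd : ND c 5 ⊤ := nd_top X.O.nz X.hm

theorem dd (h : R c E d v a u) : R c E d v (d * a * d) u :=
  ⟨X.T.cl d X.hd a h.mem, X.T.third_nc_left X.hd h.nc, h.ne, h.sg, fun e he => by
    rw [X.T.cj_left X.hd he.2.2]; exact h.pe e he⟩

theorem pm_of (h : R c E d v a u) (h' : R c E d v a u') : pm u' u := by
  by_contra hn
  obtain ⟨p, -, p1, p2, p3⟩ := (X.nd.mono (l := 4) (by norm_num)).lemmaS trivial trivial h.ne h'.ne
    h.sg h'.sg (fun e => hn (Or.inl e)) fun e => hn (Or.inr e)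
  obtain ⟨e, he, k⟩ := X.O.surj' p1
  rw [bO_comm, k.right] at p2
  rw [bO_comm, ne_eq, k.right] at p3
  exact p3 ((h'.pe e he).1 ((h.pe e he).2 p2))

theorem cj (h : R c E d v a u) {q : G} (hq : q ∈ Dd E d) :
    R c E d v (q * a * q) (rf c (v q) u) := by
  have hn := X.O.norm q hq
  refine ⟨X.T.cl q hq.1 a h.mem, fun k => h.nc ((X.T.cj_right hq.1 hq.2.2.symm).1 k), fun k => ?_,
    by rw [rf_rf hn, h.sg], fun e he => ?_⟩
  · have k1 : u = bO c u (v q) • v q := sub_eq_zero.1 k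
    have k2 := h.sg
    rw [k1, bO_smul_left, bO_smul_right, hn] at k2
    have k3 : bO c u (v q) = 0 := by
      revert k2; generalize bO c u (v q) = t; revert t; decide
    exact h.ne (by rw [k1, k3, zero_smul])
  · rw [← X.T.cj_swap hq.1, h.pe _ ((X.T.dd d).cl q hq e he),
      (X.O.conj X.hm (X.T.dd d) hq he).right]
    simp only [rf, bO_lin, bO_comm c (v q) (v e), mul_comm (bO c (v e) (v q))]

theorem lem1 (h : R c E d v a u) (h' : R c E d v a' u') (hne : a ≠ a') (hc : Commute a a') :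
    bO c u u' ≠ 0 := by
  have T := X.T
  have n1 : ¬ Commute a d := fun k => h.nc k.symm
  have n2 : ¬ Commute a' d := fun k => h'.nc k.symm
  have e := T.s4_conj h.mem h'.mem X.hd hc n1 n2
  have c1 := T.s4 h.mem h'.mem X.hd hc n1 n2
  have hE := T.cl a h.mem _ (T.cl a' h'.mem d X.hd)
  generalize a * (a' * d * a') * a = q at e c1 hE
  have hq : q ∈ Dd E d := ⟨hE, fun k => hne (by
    rw [k] at e; exact mul_left_cancel (mul_right_cancel e)), c1⟩
  have k1 : ¬ Commute a q := fun k => by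
    rw [T.cj_eq hE k.symm] at e
    exact T.third_nc_right X.hd h'.mem h'.nc (e ▸ hc.symm)
  have k2 := X.cj h hq
  rw [e] at k2
  rw [ne_eq, (X.pm_of k2 (X.dd h')).right]
  rw [h.pe q hq] at k1
  simp only [rf, bO_lin, h.sg]
  revert k1; generalize bO c u (v q) = t; revert t; decide

theorem lem2 (h : R c E d v a u) (h' : R c E d v a' u') (hb : bO c u u' = 1) :
    ∃ q ∈ Dd E d, pm (u + u') (v q) ∧ ¬ Commute a q ∧ (q * a * q = a' ∨ q * a * q = d * a' * d) := by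
  obtain ⟨q, hq, k⟩ := X.O.surj' (u := u + u') (by
    simp only [bO_lin, h.sg, h'.sg, hb, bO_comm c u' u]; decide)
  refine ⟨q, hq, k, ?_, ?_⟩
  · rw [h.pe q hq, ← k.right]; simp only [bO_lin, h.sg, hb]; decide
  · have k1 : pm (rf c (v q) u) (-u') := by
      refine (k.symm.rf (pm.refl u)).trans (Or.inl ?_)
      simp only [rf, bO_lin, h.sg, hb]; module
    have k2 := X.cj h hq
    rcases k1 with k1 | k1 <;> rw [k1] at k2
    · exact X.fi h'.neg k2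
    · exact X.fi h'.neg.neg k2

theorem lem3 (h : R c E d v a u) (h' : R c E d v a' u') (hb : bO c u u' ≠ 0) :
    Commute a (d * a' * d) ↔ ¬ Commute a a' := by
  have T := X.T
  have key : ∀ {w}, R c E d v a' w → bO c u w = 1 → (Commute a (d * a' * d) ↔ ¬ Commute a a') := by
    intro w hw hb
    obtain ⟨q, hq, -, k1, k2⟩ := X.lem2 h hw hb
    have n1 : ¬ Commute q a := fun k => k1 k.symm
    have c1 := T.s4 X.hd hq.1 h.mem hq.2.2 h.nc n1
    have c2 := T.third_nc_right hq.1 h.mem n1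
    rcases k2 with k2 | k2 <;> rw [k2] at c1 c2
    · exact iff_of_true c1 c2
    · rw [T.cj_cj X.hd] at c1
      exact iff_of_false c2 (not_not.2 c1)
  rcases z3_cases (bO c u u') with e | e | e
  · exact (hb e).elim
  · exact key h' e
  · exact key h'.neg (by rw [bO_neg_right, e, neg_neg])

theorem flip (h : R c E d v a u) (h' : R c E d v a' u') (k : Ok c a u a' u') :
    Ok c a u (d * a' * d) (-u') := by
  intro hb
  have hb' : bO c u u' ≠ 0 := by rwa [bO_neg_right, neg_ne_zero] at hb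
  rw [X.lem3 h h' hb', k hb', bO_neg_right]
  revert hb'; generalize bO c u u' = t; revert t; decide

theorem tri0 (h0 : R c E d v a0 u0) (h : R c E d v a u) (h' : R c E d v a' u')
    (b1 : bO c u0 u = 1) (b2 : bO c u0 u' = 1) (c1 : Commute a0 a) (c2 : Commute a0 a') :
    Ok c a u a' u' := by
  have T := X.T
  intro hb
  have key : ∀ {b w}, R c E d v b w → bO c u0 w = 1 → Commute a0 b →
      ∃ q ∈ Dd E d, pm (u0 + w) (v q) ∧ d * b * d = a0 * q * a0 := by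
    intro b w hw k1 k2
    obtain ⟨q, hq, e1, e2, e3⟩ := X.lem2 h0 hw k1
    refine ⟨q, hq, e1, ?_⟩
    rcases e3 with e3 | e3
    · exact (T.third_nc_right hq.1 h0.mem (fun k => e2 k.symm) (e3 ▸ k2)).elim
    · rw [← e3, T.braid h0.mem hq.1 e2]
  obtain ⟨q, hq, p1, e1⟩ := key h b1 c1
  obtain ⟨q', hq', p2, e2⟩ := key h' b2 c2
  have hne : q ≠ q' := fun k => by
    rw [k, ← e2] at e1
    obtain rfl : a = a' := mul_left_cancel (mul_right_cancel e1)
    exact hb (((X.pm_of h h').right _).2 h.sg)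
  rw [← T.cj_iff X.hd, e1, e2, T.cj_iff h0.mem, X.O.comm q hq q' hq' hne, ← p1.left, ← p2.right]
  simp only [bO_lin, h0.sg, b2, bO_comm c u u0, b1]
  generalize bO c u u' = t; revert t; decide

theorem tri1 (h0 : R c E d v a0 u0) (h : R c E d v a u) (b1 : bO c u0 u ≠ 0)
    (k : Ok c a0 u0 a u) : (bO c u0 u = 1 ∧ Commute a0 a) ∨
      (bO c u0 (-u) = 1 ∧ Commute a0 (d * a * d)) := by
  rcases z3_cases (bO c u0 u) with e | e | e
  · exact (b1 e).elim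
  · exact Or.inl ⟨e, (k b1).2 e⟩
  · have e' : bO c u0 (-u) = 1 := by rw [bO_neg_right, e, neg_neg]
    exact Or.inr ⟨e', (X.flip h0 h k (by rw [e']; decide)).2 e'⟩

theorem unflip (h : R c E d v a u) (h' : R c E d v a' u') (k : Ok c a u (d * a' * d) (-u')) :
    Ok c a u a' u' := by
  have := X.flip h (X.dd h').neg k
  rwa [X.T.cj_cj X.hd, neg_neg] at this

theorem tri (h0 : R c E d v a0 u0) (h : R c E d v a u) (h' : R c E d v a' u')
    (b1 : bO c u0 u ≠ 0) (b2 : bO c u0 u' ≠ 0) (k1 : Ok c a0 u0 a u) (k2 : Ok c a0 u0 a' u') :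
    Ok c a u a' u' := by
  rcases X.tri1 h0 h b1 k1 with ⟨e1, c1⟩ | ⟨e1, c1⟩ <;>
    rcases X.tri1 h0 h' b2 k2 with ⟨e2, c2⟩ | ⟨e2, c2⟩
  · exact X.tri0 h0 h h' e1 e2 c1 c2
  · exact X.unflip h h' (X.tri0 h0 h (X.dd h').neg e1 e2 c1 c2)
  · exact (X.unflip h' h (X.tri0 h0 h' (X.dd h).neg e2 e1 c2 c1)).symm
  · exact (X.unflip h' h (X.unflip (X.dd h).neg h'
      (X.tri0 h0 (X.dd h).neg (X.dd h').neg e1 e2 c1 c2)).symm).symm

end Cx

/-- correctly signed, not orthogonal to the base vector -/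
def S1 (c : Fin m → ZMod 3) (E : Set G) (d : G) (v : G → Fin m → ZMod 3) (a0 : G)
    (u0 : Fin m → ZMod 3) (a : G) (u : Fin m → ZMod 3) : Prop :=
  R c E d v a u ∧ bO c u0 u ≠ 0 ∧ Ok c a0 u0 a u

/-- correctly signed -/
def S2 (c : Fin m → ZMod 3) (E : Set G) (d : G) (v : G → Fin m → ZMod 3) (a0 : G)
    (u0 : Fin m → ZMod 3) (a : G) (u : Fin m → ZMod 3) : Prop :=
  R c E d v a u ∧ ∀ b w, S1 c E d v a0 u0 b w → Ok c b w a u

theorem s1_or (h : R c E d v a u) (hb : bO c u0 u ≠ 0) :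
    S1 c E d v a0 u0 a u ∨ S1 c E d v a0 u0 a (-u) := by
  by_cases k : Ok c a0 u0 a u
  · exact Or.inl ⟨h, hb, k⟩
  · exact Or.inr ⟨h.neg, by rwa [bO_neg_right, neg_ne_zero], (ok_neg hb).2 k⟩

namespace Cx

variable (X : Cx c E d v)
include X

theorem ex1 {y : Fin m → ZMod 3} (hy : bO c y y = 0) (hb : bO c u0 y ≠ 0) :
    ∃ b w, S1 c E d v a0 u0 b w ∧ pm w y := by
  obtain ⟨b, h⟩ := X.su y (fun e => hb (by rw [e, bO_zero_right])) hy
  rcases s1_or (a0 := a0) h hb with k | k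
  · exact ⟨b, _, k, Or.inl rfl⟩
  · exact ⟨b, _, k, Or.inr rfl⟩

theorem nbr (h0 : R c E d v a0 u0) (hu : u ≠ 0) : ∃ b w, S1 c E d v a0 u0 b w ∧ bO c w u ≠ 0 := by
  obtain ⟨y, y1, y2, y3⟩ := cn2 X.nd h0.ne h0.sg hu
  obtain ⟨b, w, k, p⟩ := X.ex1 (a0 := a0) (u0 := u0) y1 (by rwa [bO_comm])
  exact ⟨b, w, k, by rwa [ne_eq, p.left]⟩

theorem s2_ok (h0 : R c E d v a0 u0) (h : S2 c E d v a0 u0 a u) (h' : S2 c E d v a0 u0 a' u') :
    Ok c a u a' u' := by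
  intro hb
  obtain ⟨y, y1, y2, y3, y4⟩ := cn3 X.nd h.1.sg h'.1.sg (by rwa [bO_comm]) h0.ne
  obtain ⟨b, w, k, p⟩ := X.ex1 (a0 := a0) (u0 := u0) y1 (by rwa [bO_comm])
  exact X.tri k.1 h.1 h'.1 (by rwa [ne_eq, p.left]) (by rwa [ne_eq, p.left]) (h.2 b w k)
    (h'.2 b w k) hb

theorem s2_of_s1 (h0 : R c E d v a0 u0) (h : S1 c E d v a0 u0 a u) : S2 c E d v a0 u0 a u :=
  ⟨h.1, fun _ _ k => X.tri h0 k.1 h.1 k.2.1 h.2.1 k.2.2 h.2.2⟩

theorem s2_flip (h : S2 c E d v a0 u0 a u) : S2 c E d v a0 u0 (d * a * d) (-u) :=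
  ⟨(X.dd h.1).neg, fun b w k => X.flip k.1 h.1 (h.2 b w k)⟩

theorem s2_ex (h0 : R c E d v a0 u0) (h : R c E d v a u) :
    S2 c E d v a0 u0 a u ∨ S2 c E d v a0 u0 a (-u) := by
  by_cases hb : bO c u0 u ≠ 0
  · exact (s1_or h hb).imp (X.s2_of_s1 h0) (X.s2_of_s1 h0)
  rw [not_not] at hb
  by_cases hp : pm u u0
  · have k0 : S2 c E d v a0 u0 a0 u0 := ⟨h0, fun b w k => k.2.2.symm⟩
    have k1 := X.s2_flip k0
    rcases hp with rfl | rfl
    · rcases X.fi h0 h with rfl | rfl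
      exacts [Or.inl k0, Or.inr k1]
    · rcases X.fi h0.neg h with rfl | rfl
      exacts [Or.inr (by rwa [neg_neg]), Or.inl k1]
  have step : ∀ {w b1 y1 b2 y2}, R c E d v a w → S1 c E d v a0 u0 b1 y1 → S1 c E d v a0 u0 b2 y2 →
      bO c y1 w ≠ 0 → bO c y1 y2 ≠ 0 → Ok c b1 y1 a w → Ok c b2 y2 a w := by
    intro w b1 y1 b2 y2 hw k1 k2 n1 n2 o
    exact X.tri k1.1 k2.1 hw n2 n1 ((X.s2_of_s1 h0 k2).2 _ _ k1) o
  have opp : ∀ {w b1 y1 b2 y2}, R c E d v a w → bO c u0 w = 0 → S1 c E d v a0 u0 b1 y1 →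
      S1 c E d v a0 u0 b2 y2 → bO c y1 w ≠ 0 →
      bO c u0 y1 * bO c y1 w ≠ bO c u0 y2 * bO c y2 w → Ok c b1 y1 a w → Ok c b2 y2 a w := by
    intro w b1 y1 b2 y2 hw hw0 k1 k2 n1 n2 o
    by_cases n3 : bO c y1 y2 = 0
    · obtain ⟨y, z1, z2, z3, z4, z5⟩ := cn4 X.nd h0.sg hw.sg k1.1.sg k2.1.sg hw0 n3 k1.2.1 k2.2.1 n1 n2
      obtain ⟨b, y', k, p⟩ := X.ex1 (a0 := a0) z1 z2
      exact step hw k k2 (by rwa [ne_eq, p.left]) (by rwa [ne_eq, p.left])
        (step hw k1 k n1 (by rwa [ne_eq, p.right]) o)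
    · exact step hw k1 k2 n1 n3 o
  have all : ∀ {w b1 y1}, R c E d v a w → bO c u0 w = 0 → ¬ pm w u0 → S1 c E d v a0 u0 b1 y1 →
      bO c y1 w ≠ 0 → Ok c b1 y1 a w → S2 c E d v a0 u0 a w := by
    intro w b1 y1 hw hw0 hp k1 n1 o
    refine ⟨hw, fun b2 y2 k2 => ?_⟩
    by_cases n2 : bO c u0 y1 * bO c y1 w = bO c u0 y2 * bO c y2 w
    · have hη := mul_ne_zero k1.2.1 n1
      obtain ⟨y, z1, z2, z3⟩ := ex_sign X.nd h0.ne hw.ne h0.sg hw0 hp (neg_ne_zero.2 hη)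
      obtain ⟨b, y', k, p⟩ := X.ex1 (a0 := a0) z1 (by rw [z2]; decide)
      have e : bO c u0 y' * bO c y' w = - (bO c u0 y1 * bO c y1 w) := by
        rcases p with rfl | rfl <;> simp only [bO_lin, z2, z3] <;> ring
      have ne : ∀ t : ZMod 3, t ≠ 0 → t ≠ -t := by decide
      exact opp hw hw0 k k2 (fun k => hη (by rw [k, mul_zero] at e; exact neg_eq_zero.1 e.symm))
        (by rw [e, ← n2]; exact (ne _ hη).symm) (opp hw hw0 k1 k n1 (by rw [e]; exact ne _ hη) o)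
    · exact opp hw hw0 k1 k2 n1 n2 o
  obtain ⟨b, w, k, n⟩ := X.nbr h0 h.ne
  by_cases o : Ok c b w a u
  · exact Or.inl (all h hb hp k n o)
  · exact Or.inr (all h.neg (by rw [bO_neg_right, hb, neg_zero])
      (fun e => hp ((show pm u (-u) from Or.inr (neg_neg u).symm).trans e)) k
      (by rwa [bO_neg_right, neg_ne_zero]) ((ok_neg n).2 o))

theorem s2_uniq (h0 : R c E d v a0 u0) (h : S2 c E d v a0 u0 a u) (h' : S2 c E d v a0 u0 a u') :
    u' = u := by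
  rcases X.pm_of h.1 h'.1 with e | rfl
  · exact e
  · obtain ⟨b, w, k, n⟩ := X.nbr h0 h.1.ne
    exact ((ok_neg n).1 (h'.2 b w k) (h.2 b w k)).elim

theorem s2_inj (h0 : R c E d v a0 u0) (h : S2 c E d v a0 u0 a u) (h' : S2 c E d v a0 u0 a' u) :
    a' = a := by
  rcases X.fi h.1 h'.1 with e | rfl
  · exact e
  · have e := X.s2_uniq h0 (X.s2_flip h) h'
    have k : ∀ t : ZMod 3, t = -t → t = 0 := by decide
    exact (h.1.ne (funext fun i => k _ (congrFun e i))).elim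

end Cx

theorem bO_cons (x y : ZMod 3) (u w : Fin m → ZMod 3) :
    bO (Fin.cons 2 c : Fin (m + 1) → ZMod 3) (Fin.cons x u) (Fin.cons y w) = 2 * x * y + bO c u w := by
  simp [bO, Fin.sum_univ_succ]

theorem neg_cons (x : ZMod 3) (u : Fin m → ZMod 3) :
    - (Fin.cons x u : Fin (m + 1) → ZMod 3) = Fin.cons (-x) (-u) := by
  funext i; refine Fin.cases ?_ (fun i => ?_) i <;> simp

theorem pm_cons {x y : ZMod 3} {u w : Fin m → ZMod 3}
    (h : pm (Fin.cons x u : Fin (m + 1) → ZMod 3) (Fin.cons y w)) :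
    (x = y ∧ u = w) ∨ (x = -y ∧ u = -w) := by
  rcases h with h | h
  · exact Or.inl (Fin.cons_inj.1 h)
  · rw [neg_cons] at h; exact Or.inr (Fin.cons_inj.1 h)

/-- the global coordinates -/
def Vr (c : Fin m → ZMod 3) (E : Set G) (d : G) (v : G → Fin m → ZMod 3) (a0 : G)
    (u0 : Fin m → ZMod 3) (a : G) (U : Fin (m + 1) → ZMod 3) : Prop :=
  (a = d ∧ U = Fin.cons 1 0) ∨ (a ∈ Dd E d ∧ U = Fin.cons 0 (v a)) ∨
    ∃ u, S2 c E d v a0 u0 a u ∧ U = Fin.cons 1 u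

theorem Cx.ort (X : Cx c E d v) : Ort (Fin.cons 2 c : Fin (m + 1) → ZMod 3) E := by
  obtain ⟨u0, n0, s0⟩ := ex_sing X.nd
  obtain ⟨a0, h0⟩ := X.su u0 n0 s0
  have : ∀ a, ∃ U, a ∈ E → Vr c E d v a0 u0 a U := fun a => by
    by_cases ha : a ∈ E
    · by_cases h1 : a = d
      · exact ⟨_, fun _ => Or.inl ⟨h1, rfl⟩⟩
      by_cases h2 : Commute d a
      · exact ⟨_, fun _ => Or.inr (Or.inl ⟨⟨ha, h1, h2⟩, rfl⟩)⟩
      obtain ⟨u, hu⟩ := X.ex a ha h2
      rcases X.s2_ex h0 hu with k | k <;> exact ⟨_, fun _ => Or.inr (Or.inr ⟨_, k, rfl⟩)⟩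
    · exact ⟨0, fun h => absurd h ha⟩
  choose V hV using this
  have uniq : ∀ a ∈ E, ∀ U, Vr c E d v a0 u0 a U → V a = U := by
    intro a ha U h
    rcases hV a ha with ⟨e, k⟩ | ⟨e, k⟩ | ⟨u, e, k⟩ <;>
      rcases h with ⟨e', k'⟩ | ⟨e', k'⟩ | ⟨u', e', k'⟩
    · rw [k, k']
    · exact (e'.2.1 e).elim
    · exact (e'.1.nc (e ▸ Commute.refl _)).elim
    · exact (e.2.1 e').elim
    · rw [k, k']
    · exact (e'.1.nc e.2.2).elim
    · exact (e.1.nc (e' ▸ Commute.refl _)).elim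
    · exact (e.1.nc e'.2.2).elim
    · rw [k, k', X.s2_uniq h0 e e']
  have t1 : ¬ (1 : ZMod 3) = 0 := by decide
  have t2 : ¬ (1 : ZMod 3) = -1 := by decide
  have t3 : ¬ (0 : ZMod 3) = 1 := by decide
  have t4 : ¬ (0 : ZMod 3) = -1 := by decide
  have t5 : ¬ (2 : ZMod 3) = 0 := by decide
  refine ⟨V, fun i => Fin.cases t5 (fun i => X.O.nz i) i, fun a ha => ?_, fun a ha b hb hne => ?_,
    fun U hU => ?_, fun a ha b hb h => ?_⟩
  · rcases hV a ha with ⟨e, k⟩ | ⟨e, k⟩ | ⟨u, e, k⟩ <;> rw [k, bO_cons]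
    · simp [bO_zero_left]
    · simp [X.O.norm a e]
    · simp [e.1.sg]
  · rcases hV a ha with ⟨e, k⟩ | ⟨e, k⟩ | ⟨u, e, k⟩ <;>
      rcases hV b hb with ⟨e', k'⟩ | ⟨e', k'⟩ | ⟨u', e', k'⟩ <;> rw [k, k', bO_cons] <;>
      simp only [bO_zero_left, bO_zero_right, mul_one, mul_zero, zero_mul, add_zero, zero_add, t5]
    · exact (hne (e.trans e'.symm)).elim
    · exact iff_true_intro (e ▸ e'.2.2)
    · exact iff_false_intro (e ▸ e'.1.nc)
    · exact iff_true_intro (e' ▸ e.2.2.symm)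
    · exact X.O.comm a e b e' hne
    · rw [Commute.symm_iff, bO_comm]; exact e'.1.pe a e
    · exact iff_false_intro fun h => e.1.nc (e' ▸ h.symm)
    · exact e.1.pe b e'
    · by_cases h : bO c u u' = 0
      · rw [h]; exact iff_of_false (fun k => X.lem1 e.1 e'.1 hne k h) (by decide)
      · rw [X.s2_ok h0 e e' h]
        generalize bO c u u' = t; revert t; decide
  · have key : ∀ w, bO c w w = 0 → ∃ a ∈ E, V a = Fin.cons 1 w := by
      intro w hw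
      by_cases h : w = 0
      · exact ⟨d, X.hd, uniq d X.hd _ (Or.inl ⟨rfl, by rw [h]⟩)⟩
      obtain ⟨a, ha⟩ := X.su w h hw
      rcases X.s2_ex h0 ha with k | k
      · exact ⟨a, ha.mem, uniq a ha.mem _ (Or.inr (Or.inr ⟨_, k, rfl⟩))⟩
      · have k1 := X.s2_flip k
        rw [neg_neg] at k1
        exact ⟨_, k1.1.mem, uniq _ k1.1.mem _ (Or.inr (Or.inr ⟨_, k1, rfl⟩))⟩
    obtain ⟨x, w, rfl⟩ : ∃ x w, U = Fin.cons x w := ⟨_, _, (Fin.cons_self_tail U).symm⟩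
    rw [bO_cons] at hU
    rcases z3_cases x with rfl | rfl | rfl
    · obtain ⟨a, ha, k⟩ := X.O.surj w (by simpa using hU)
      refine ⟨a, ha.1, ?_⟩
      rw [uniq a ha.1 _ (Or.inr (Or.inl ⟨ha, rfl⟩)), neg_cons, neg_zero]
      exact k.imp (fun k => by rw [k]) fun k => by rw [k]
    · obtain ⟨a, ha, k⟩ := key w (by simpa using hU)
      exact ⟨a, ha, Or.inl k.symm⟩
    · obtain ⟨a, ha, k⟩ := key (-w) (by
        rw [bO_neg_left, bO_neg_right, neg_neg]; simpa using hU)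
      exact ⟨a, ha, Or.inr (by rw [k, neg_cons, neg_neg])⟩
  · replace h : pm (V a) (V b) := h
    rcases hV a ha with ⟨e, k⟩ | ⟨e, k⟩ | ⟨u, e, k⟩ <;>
      rcases hV b hb with ⟨e', k'⟩ | ⟨e', k'⟩ | ⟨u', e', k'⟩ <;> rw [k, k'] at h <;>
      replace h := pm_cons h <;>
      simp only [t1, t2, t3, t4, neg_zero, false_and, or_false, true_and] at h
    · rw [e, e']
    · exact (e'.1.ne h.symm).elim
    · exact X.O.inj a e b e' h
    · exact (e.1.ne h).elim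
    · exact X.s2_inj h0 (h ▸ e') e

end OT

open OT in
theorem specOrt (hX : SpecOX.{u}) : SpecOrt.{u} := by
  intro G _ E m c hm T hO d hd hmu
  obtain ⟨v, hv⟩ := hO d hd
  obtain ⟨h1, h2, h3⟩ := hX G E m c hm T hO d hd v hv
  refine Cx.ort (v := v) ⟨hm, T, hd, hv, fun a ha h => ?_, fun u n s => ?_, fun {a a' u} h h' => ?_⟩
  · obtain ⟨u, k1, k2, k3⟩ := h1 a ha h (hmu a ha h)
    exact ⟨u, ha, h, k1, k2, k3⟩
  · obtain ⟨a, k1, k2, k3⟩ := h2 u n s
    exact ⟨a, k1, k2, n, s, k3⟩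
  · have key : ∀ {b b'}, R c E d v b u → R c E d v b' u → Xs E d b ⊆ Xs E d b' := by
      intro b b' k k' y hy
      have hy' : y ∈ Dd E d := ⟨hy.1, fun e => k.nc (e ▸ hy.2.2).symm, hy.2.1⟩
      exact ⟨hy.1, hy.2.1, (k'.pe y hy').2 ((k.pe y hy').1 hy.2.2)⟩
    exact h3 a h.mem a' h'.mem h.nc h'.nc (hmu a h.mem h.nc) ((key h h').antisymm (key h' h))

end CfsgFI
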