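import Cfsg.Agent.FI.O0

/-! Common neighbours of singular vectors. -/

set_option autoImplicit false

namespace CfsgFI.OT

variable {m : ℕ} {c : Fin m → ZMod 3}

theorem ex_sing (h : ND c 5 ⊤) : ∃ u, u ≠ 0 ∧ bO c u u = 0 := by
  obtain ⟨x, -, hx⟩ := (h.mono (l := 2) (by norm_num)).exists_plus
  have h1 := h.pp (b := x) trivial (by rw [hx]; decide)
  obtain ⟨y, hy1, hy⟩ := (h1.mono (l := 2) (by norm_num)).exists_plus
  have h2 := h1.pp hy1 (by rw [hy]; decide)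
  obtain ⟨z, hz1, hz⟩ := (h2.mono (l := 2) (by norm_num)).exists_plus
  refine ⟨x + y + z, fun e => ?_, ?_⟩
  · have : bO c (x + y + z) x = 2 := by simp only [bO_lin, hx, hy1.2, hz1.1.2]; ring
    rw [e, bO_zero_left] at this
    exact absurd this (by decide)
  · simp only [bO_lin, hx, hy, hz, hy1.2, hz1.1.2, hz1.2, bO_comm c x y, bO_comm c x z,
      bO_comm c y z]
    decide

theorem mk_sing {y w : Fin m → ZMod 3} (hs : bO c w w = 0) (e : bO c y w = 1) :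
    bO c (y + bO c y y • w) (y + bO c y y • w) = 0 := by
  simp only [bO_lin, e, hs, bO_comm c w y]
  generalize bO c y y = t; revert t; decide

theorem cn3 (h : ND c 5 ⊤) {u u' w : Fin m → ZMod 3} (hu : bO c u u = 0) (hu' : bO c u' u' = 0)
    (huu : bO c u' u ≠ 0) (hw : w ≠ 0) :
    ∃ y, bO c y y = 0 ∧ bO c y u ≠ 0 ∧ bO c y u' ≠ 0 ∧ bO c y w ≠ 0 := by
  obtain ⟨U, hU, e⟩ := h.hyp (k := 3) trivial trivial hu hu' huu
  have key : ∀ x ∈ U, bO c x x ≠ 0 →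
      bO c u w + bO c u' u * bO c x x * bO c u' w + bO c x w ≠ 0 →
      ∃ y, bO c y y = 0 ∧ bO c y u ≠ 0 ∧ bO c y u' ≠ 0 ∧ bO c y w ≠ 0 := by
    intro x hx h1 h2
    obtain ⟨-, x1, x2⟩ := (e x).1 hx
    refine ⟨u + (bO c u' u * bO c x x) • u' + x, ?_, ?_, ?_, by simpa only [bO_lin] using h2⟩ <;>
      simp only [bO_lin, hu, hu', x1, x2, bO_comm c u u', bO_comm c u x, bO_comm c u' x] <;>
      revert huu h1 <;> generalize bO c u' u = s <;> generalize bO c x x = t <;>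
      revert s t <;> decide
  obtain ⟨x, hx, hxx⟩ := (hU.mono (l := 2) (by norm_num)).exists_plus
  obtain ⟨x', hx', hxx'⟩ := (hU.pp hx (by rw [hxx]; decide)).exists_plus
  have n1 : bO c (x + x') (x + x') = 1 := by
    simp only [bO_lin, hxx, hxx', hx'.2, bO_comm c x x']; decide
  by_cases h0 : bO c u w = 0 ∧ bO c u' w = 0
  · obtain ⟨y, hy, y1⟩ := hU.exists_one ((e w).2 ⟨trivial, by rw [bO_comm, h0.1],
      by rw [bO_comm, h0.2]⟩) hw
    by_contra hn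
    have k0 := mt (fun k : _ ∧ _ => key x hx k.1 k.2) hn
    have k1 := mt (fun k : _ ∧ _ => key y hy k.1 k.2) hn
    have k2 := mt (fun k : _ ∧ _ => key _ (U.add_mem hy hx) k.1 k.2) hn
    have k3 := mt (fun k : _ ∧ _ => key _ (U.sub_mem hy hx) k.1 k.2) hn
    simp only [bO_lin, h0.1, h0.2, y1, hxx, bO_comm c x y] at k0 k1 k2 k3
    revert k0 k1 k2 k3
    generalize bO c u' u = s, bO c y y = t, bO c y x = r, bO c x w = p
    revert s t r p; decide
  · by_contra hn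
    have k0 := mt (fun k : _ ∧ _ => key x hx k.1 k.2) hn
    have k1 := mt (fun k : _ ∧ _ => key _ (U.neg_mem hx) k.1 k.2) hn
    have k2 := mt (fun k : _ ∧ _ => key _ (U.add_mem hx hx'.1) k.1 k.2) hn
    have k3 := mt (fun k : _ ∧ _ => key _ (U.neg_mem (U.add_mem hx hx'.1)) k.1 k.2) hn
    simp only [bO_neg_left, bO_neg_right, neg_neg, n1, hxx] at k0 k1 k2 k3
    revert k0 k1 k2 k3 h0 huu
    generalize bO c u' u = s, bO c u w = t, bO c u' w = r, bO c x w = p, bO c (x + x') w = q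
    revert s t r p q; decide

theorem cn2 (h : ND c 5 ⊤) {u w : Fin m → ZMod 3} (h0 : u ≠ 0) (hu : bO c u u = 0) (hw : w ≠ 0) :
    ∃ y, bO c y y = 0 ∧ bO c y u ≠ 0 ∧ bO c y w ≠ 0 := by
  obtain ⟨y, -, e⟩ := h.exists_one trivial h0
  obtain ⟨z, z1, z2, -, z3⟩ := cn3 h hu (mk_sing hu e) (by simp only [bO_lin, e, hu]; simp) hw
  exact ⟨z, z1, z2, z3⟩

/-- two orthogonal singular pairs in duality have a common neighbour -/
theorem cn4 (h : ND c 5 ⊤) {u0 u y1 y2 : Fin m → ZMod 3} (s0 : bO c u0 u0 = 0) (s : bO c u u = 0)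
    (s1 : bO c y1 y1 = 0) (s2 : bO c y2 y2 = 0) (h0 : bO c u0 u = 0) (h1 : bO c y1 y2 = 0)
    (a1 : bO c u0 y1 ≠ 0) (a2 : bO c u0 y2 ≠ 0) (b1 : bO c y1 u ≠ 0)
    (b : bO c u0 y1 * bO c y1 u ≠ bO c u0 y2 * bO c y2 u) :
    ∃ y, bO c y y = 0 ∧ bO c u0 y ≠ 0 ∧ bO c y u ≠ 0 ∧ bO c y1 y ≠ 0 ∧ bO c y y2 ≠ 0 := by
  obtain ⟨U, hU, e⟩ := h.hyp (k := 3) trivial trivial s1 s0 a1
  obtain ⟨U', hU', e'⟩ := hU.hyp (k := 1) (w := y2 - (bO c u0 y2 * bO c u0 y1) • y1)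
    (w' := u - (bO c y1 u * bO c u0 y1) • u0)
    ((e _).2 ⟨trivial, by simp only [bO_lin, s1, bO_comm c y2 y1, h1]; ring, by
      simp only [bO_lin, bO_comm c y2 u0, bO_comm c y1 u0]; rw [mul_assoc, z3_sq a1]; ring⟩)
    ((e _).2 ⟨trivial, by
      simp only [bO_lin, bO_comm c u y1]; rw [mul_assoc, z3_sq a1]; ring, by
      simp only [bO_lin, bO_comm c u u0, s0, h0]; ring⟩)
    (by simp only [bO_lin, s1, s2, bO_comm c y2 y1, h1]; ring)
    (by simp only [bO_lin, s0, s, bO_comm c u u0, h0]; ring)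
    (by
      simp only [bO_lin, bO_comm c u y1, bO_comm c u y2]
      revert a1 a2 b1 b
      generalize bO c u0 y1 = p, bO c u0 y2 = q, bO c y1 u = r, bO c y2 u = t
      revert p q r t; decide)
  obtain ⟨x, hx, hxx⟩ := hU'.exists_aniso
  obtain ⟨hx1, x3, x4⟩ := (e' x).1 hx
  obtain ⟨-, x1, x2⟩ := (e x).1 hx1
  simp only [bO_lin, x1, x2, mul_zero, sub_zero] at x3 x4
  refine ⟨(bO c x x * bO c u0 y1) • u0 + y1 + x, ?_, ?_, ?_, ?_, ?_⟩ <;>
    simp only [bO_lin, s0, s1, x1, x2, x3, x4, h0, h1, bO_comm c u0 x, bO_comm c y1 x,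
      bO_comm c y1 u0] <;>
    revert a1 a2 b1 hxx <;>
    generalize bO c u0 y1 = p, bO c u0 y2 = q, bO c y1 u = r, bO c x x = t <;>
    revert p q r t <;> decide

/-- both signs occur -/
theorem ex_sign (h : ND c 5 ⊤) {u0 u : Fin m → ZMod 3} (n0 : u0 ≠ 0) (n : u ≠ 0)
    (s0 : bO c u0 u0 = 0) (h0 : bO c u0 u = 0) (hp : ¬ pm u u0) {η : ZMod 3} (hη : η ≠ 0) :
    ∃ y, bO c y y = 0 ∧ bO c u0 y = 1 ∧ bO c y u = η := by
  have k : ∀ t : ZMod 3, u ≠ t • u0 := fun t e => by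
    rcases z3_cases t with rfl | rfl | rfl
    · exact n (by simpa using e)
    · exact hp (Or.inl (by simpa using e))
    · exact hp (Or.inr (by simpa using e))
  obtain ⟨y, -, y1, y2⟩ := h.exists_sep (w := u - η • u0) (w' := u0) trivial trivial
    (fun e => k η (sub_eq_zero.1 e)) n0
    (fun e => k (η + 1) (by rw [add_smul, one_smul]; linear_combination (exp := 1) -e))
    (fun e => k (η - 1) (by rw [sub_smul, one_smul]; linear_combination (exp := 1) e))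
  refine ⟨_, mk_sing s0 y2, by simp only [bO_lin, s0, bO_comm c u0 y, y2]; ring, ?_⟩
  simp only [bO_lin, y2, h0] at y1 ⊢
  linear_combination y1

end CfsgFI.OT
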