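import Cfsg.Agent.FI.B0

/-! Irreducible sets have the rank three property. -/

set_option autoImplicit false

namespace CfsgFI

open Subgroup CfsgH4

universe u

variable {G : Type*} [Group G]

theorem Irr.exn' {E : Set G} (I : Irr E) {a : G} (ha : a ∈ E) : ∃ x ∈ E, ¬ Commute x a := by
  obtain ⟨b, hb, c, hc, h⟩ := I.exn
  obtain ⟨g, hg, rfl⟩ := I.cls b hb a ha
  exact ⟨_, I.toTS.conj_mem hg hc, by rw [commute_conj_iff]; exact fun h1 => h h1.symm⟩

theorem Irr.diam {E : Set G} (I : Irr E) {a b : G} (ha : a ∈ E) (hb : b ∈ E) :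
    ∃ x ∈ E, ¬ Commute x a ∧ ¬ Commute x b := I.toTS.diam2 ha (I.exn' ha) (I.cls a ha b hb)

theorem Irr.isClass {D : Set G} (I : Irr D) (hg : closure D = ⊤) :
    Cfsg.IsThreeTranspositionClass D := by
  obtain ⟨a, ha, -⟩ := I.exn
  refine ⟨I.tt, ⟨a, ha, Set.ext fun b => ⟨fun hb => ?_, fun hb => ?_⟩⟩, hg⟩
  · obtain ⟨g, -, rfl⟩ := I.cls a ha b hb
    exact isConj_iff.2 ⟨g, rfl⟩
  · obtain ⟨g, rfl⟩ := isConj_iff.1 hb
    exact I.toTS.conj_mem (hg ▸ mem_top g) ha

theorem Irr.hperf {D : Set G} (I : Irr D) (hg : closure D = ⊤) :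
    ⁅commutator G, commutator G⁆ = commutator G := by
  have T := I.toTS
  have hD := I.isClass hg
  refine le_antisymm (commutator_le_left _ _) ?_
  set M := ⁅commutator G, commutator G⁆
  let f := QuotientGroup.mk' M
  have h0 : ∀ x ∈ commutator G, ∀ y ∈ commutator G, Commute (f x) (f y) := fun x hx y hy => by
    rw [← commutatorElement_eq_one_iff_commute, ← map_commutatorElement]
    exact (QuotientGroup.eq_one_iff _).2 (commutator_mem_commutator hx hy)
  have h1 : ∀ a ∈ D, ∀ b ∈ D, Commute a b → f a = f b := fun a ha b hb h => by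
    obtain ⟨c, hc, h1, h2⟩ := I.diam ha hb
    have e1 : a * b = (a * c) * (c * b) := by rw [mul_assoc, T.cancel hc]
    have e2 : (f (a * b)) ^ 3 = 1 := by
      rw [e1, map_mul, (h0 _ (class_mul_mem hD ha hc) _ (class_mul_mem hD hc hb)).mul_pow,
        ← map_pow, ← map_pow, T.cube ha hc fun h => h1 h.symm, T.cube hc hb h2, map_one, one_mul]
    have e3 : (f (a * b)) ^ 2 = 1 := by
      rw [← map_pow, h.mul_pow, sq, sq, T.sq ha, T.sq hb, one_mul, map_one]
    rw [pow_succ, e3, one_mul, map_mul, mul_eq_one_iff_eq_inv, ← map_inv, T.inv hb] at e2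
    exact e2
  have h2 : ∀ a ∈ D, ∀ b ∈ D, f a = f b := fun a ha b hb => by
    by_cases h : Commute a b
    · exact h1 a ha b hb h
    · obtain ⟨x, hx, h3, h4⟩ := I.mu a ha b hb h
      exact (h1 a ha x hx h3).trans (h1 b hb x hx h4).symm
  obtain ⟨d, hd, -⟩ := I.exn
  have h3 : ∀ g : G, f g ∈ zpowers (f d) := fun g => by
    have : closure D ≤ (zpowers (f d)).comap f := (closure_le _).2 fun a ha => by
      simp only [coe_comap, Set.mem_preimage, h2 a ha d hd]; exact mem_zpowers _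
    exact this (hg ▸ mem_top g)
  rw [_root_.commutator_def, commutator_le]
  intro x _ y _
  rw [← QuotientGroup.eq_one_iff]
  change f _ = 1
  rw [map_commutatorElement, commutatorElement_eq_one_iff_commute]
  obtain ⟨i, hi⟩ := h3 x
  obtain ⟨j, hj⟩ := h3 y
  rw [← hi, ← hj]
  exact (Commute.refl _).zpow_zpow i j

theorem Irr.abelian_bot {D : Set G} (I : Irr D) (hg : closure D = ⊤) (hZ : center G = ⊥)
    (A : Subgroup G) [hA : A.Normal] (hc : ∀ x ∈ A, ∀ y ∈ A, Commute x y) : A = ⊥ := by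
  have T := I.toTS
  rw [eq_bot_iff, ← hZ]
  intro n hn
  have : closure D ≤ centralizer {n} := (closure_le _).2 fun d hd => by
    rw [SetLike.mem_coe, mem_centralizer_singleton_iff]
    by_contra h0
    have hd' : n * d * n⁻¹ ∈ D := T.conj_mem (hg ▸ mem_top n) hd
    have hne : d ≠ n * d * n⁻¹ := fun h => h0 (commute_of_conj_eq h.symm).symm
    have hα : d * (n * d * n⁻¹) ∈ A := by
      have := mul_mem (hA.conj_mem n hn d) (inv_mem hn)
      rwa [T.inv hd, mul_assoc, mul_assoc, ← mul_assoc n] at this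
    generalize n * d * n⁻¹ = e at *
    have key : ∀ d ∈ D, ∀ e ∈ D, d * e ∈ A → ∀ x ∈ D, Commute d x → (x = d → Commute d e) →
        Commute e x := by
      intro d hd e he hα x hx h1 h2
      by_contra h3
      have c3 := T.cube hx he fun h => h3 h.symm
      have c2 : (x * d) ^ 2 = 1 := by rw [h1.symm.mul_pow, sq, sq, T.sq hx, T.sq hd, one_mul]
      have e1 : x * e = (x * d) * (d * e) := by rw [mul_assoc, T.cancel hd]
      have m1 : x * d ∈ A := by
        let f := QuotientGroup.mk' A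
        have f1 : f (d * e) = 1 := (QuotientGroup.eq_one_iff _).2 hα
        have f2 : (f (x * d)) ^ 3 = 1 := by
          have := congrArg f c3
          rwa [map_pow, e1, map_mul, f1, mul_one, map_one] at this
        rw [pow_succ, ← map_pow, c2, map_one, one_mul] at f2
        exact (QuotientGroup.eq_one_iff _).1 f2
      rw [e1, (hc _ m1 _ hα).mul_pow, pow_succ, c2, one_mul] at c3
      by_cases h4 : Commute d e
      · have c4 : (d * e) ^ 2 = 1 := by rw [h4.mul_pow, sq, sq, T.sq hd, T.sq he, one_mul]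
        rw [pow_succ, c4, one_mul, ← e1, mul_eq_one_iff_eq_inv, T.inv he] at c3
        exact h3 (c3 ▸ Commute.refl _)
      · rw [T.cube hd he h4, mul_one, mul_eq_one_iff_eq_inv, T.inv hd] at c3
        exact h4 (h2 c3)
    have hα' : e * d ∈ A := by
      have := inv_mem hα
      rwa [mul_inv_rev, T.inv hd, T.inv hd'] at this
    by_cases h : Commute d e
    · obtain ⟨x, hx, h1⟩ := I.tau d hd e hd' hne h
      exact h1 ⟨fun h2 => key d hd e hd' hα x hx h2 fun _ => h,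
        fun h2 => key e hd' d hd hα' x hx h2 fun _ => h.symm⟩
    · refine I.theta d hd e hd' h (Set.ext fun x => ⟨fun hx => ?_, fun hx => ?_⟩)
      · exact ⟨hx.1, fun h1 => h (h1 ▸ hx.2.2), key d hd e hd' hα x hx.1 hx.2.2 fun h1 => (hx.2.1 h1).elim⟩
      · exact ⟨hx.1, fun h1 => h (h1 ▸ hx.2.2.symm),
          key e hd' d hd hα' x hx.1 hx.2.2 fun h1 => (hx.2.1 h1).elim⟩
  exact mem_center_iff.2 fun g => mem_centralizer_singleton_iff.1 (this (hg ▸ mem_top g))

theorem Irr.hsol [Finite G] {D : Set G} (I : Irr D) (hg : closure D = ⊤) (hZ : center G = ⊥)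
    (N : Subgroup G) (hN : N.Normal) (hs : Group.IsSolvable N) : N = ⊥ := by
  induction N using WellFoundedLT.induction with
  | _ N ih =>
  by_contra h0
  have : Nontrivial N := (nontrivial_iff_ne_bot N).2 h0
  have h1 : ⁅N, N⁆ < N := lt_of_le_of_ne (commutator_le_left _ _) fun h => by
    apply (Group.IsSolvable.commutator_lt_top_of_nontrivial N).ne
    apply map_injective N.subtype_injective
    rw [_root_.commutator_def, map_commutator, ← MonoidHom.range_eq_map, range_subtype, h]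
  have h2 := ih _ h1 inferInstance
    (Group.isSolvable_of_isSolvable_injective (f := inclusion h1.le) (inclusion_injective _))
  exact h0 (I.abelian_bot hg hZ N fun x hx y hy =>
    (commutator_eq_bot_iff_le_centralizer.1 h2 hx y hy).symm)

theorem Irr.fis [Finite G] {D : Set G} (I : Irr D) (hg : closure D = ⊤) (hZ : center G = ⊥) :
    Fis D := fis_of_hsol (I.hsol hg hZ) (I.hperf hg) (I.isClass hg)

/-- a faithful model of `E` -/
structure Mdl (E : Set G) {K : Type*} [Group K] (π : closure E →* K) (β : G → K) (D : Set K) :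
    Prop where
  surj : Function.Surjective π
  eq : ∀ a (ha : a ∈ E), β a = π ⟨a, subset_closure ha⟩
  img : D = β '' E
  comm : ∀ a ∈ E, ∀ b ∈ E, (Commute (β a) (β b) ↔ Commute a b)
  inj : ∀ a ∈ E, ∀ b ∈ E, β a = β b → a = b
  cen : center K = ⊥

theorem exists_mdl {E : Set G} (T : TS E) (hn : ∀ a ∈ E, ∃ x ∈ E, ¬ Commute x a) :
    ∃ β D, Mdl E (QuotientGroup.mk' (center (closure E))) β D := by
  classical
  let π := QuotientGroup.mk' (center (closure E))
  let β : G → closure E ⧸ center (closure E) := fun a =>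
    if h : a ∈ E then π ⟨a, subset_closure h⟩ else 1
  have eq : ∀ a (ha : a ∈ E), β a = π ⟨a, subset_closure ha⟩ := fun a ha => dif_pos ha
  have cz : ∀ z : closure E, π z = 1 → ∀ a ∈ E, Commute (z : G) a := fun z hz a ha =>
    (congrArg Subtype.val (mem_center_iff.1 ((QuotientGroup.eq_one_iff _).1 hz)
      ⟨a, subset_closure ha⟩)).symm
  have comm : ∀ a ∈ E, ∀ b ∈ E, (Commute (β a) (β b) ↔ Commute a b) := fun a ha b hb => by
    rw [eq a ha, eq b hb]
    refine ⟨fun h => by_contra fun h1 => ?_, fun h => Commute.map (Subtype.ext h.eq :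
      (⟨a, subset_closure ha⟩ * ⟨b, subset_closure hb⟩ : closure E) = ⟨b, _⟩ * ⟨a, _⟩) π⟩
    rw [← commutatorElement_eq_one_iff_commute, ← map_commutatorElement] at h
    have h2 := cz _ h a ha
    simp only [commutatorElement_def, coe_mul, InvMemClass.coe_inv, T.inv ha, T.inv hb] at h2
    rw [T.braid ha hb h1, mul_assoc _ b b, T.sq hb, mul_one] at h2
    exact h1 (mul_right_cancel (h2.eq.trans (mul_assoc a b a).symm)).symm
  have inj : ∀ a ∈ E, ∀ b ∈ E, β a = β b → a = b := fun a ha b hb h => by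
    obtain ⟨x, hx, h1⟩ := hn a ha
    have h2 : ¬ Commute x b := by rwa [← comm x hx b hb, ← h, comm x hx a ha]
    have h3 : Commute a b := by rw [← comm a ha b hb, h]
    have h4 : ∀ y ∈ E, Commute (a * b) y := cz (⟨a, subset_closure ha⟩ * ⟨b, subset_closure hb⟩) (by
      rw [map_mul, ← eq a ha, h, eq b hb, ← map_mul]
      exact (congrArg π (Subtype.ext (T.sq hb))).trans (map_one π))
    by_contra h5
    exact h1 ((T.cent2 ha hb hx h5 h3).1 (h4 x hx).symm).1
  refine ⟨β, β '' E, QuotientGroup.mk'_surjective _, eq, rfl, comm, inj, ?_⟩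
  rw [eq_bot_iff]
  intro k hk
  obtain ⟨g, rfl⟩ := QuotientGroup.mk'_surjective _ k
  refine (QuotientGroup.eq_one_iff _).2 (mem_center_iff.2 fun y => Subtype.ext ?_)
  have : closure E ≤ centralizer {(g : G)} := (closure_le _).2 fun a ha => by
    rw [SetLike.mem_coe, mem_centralizer_singleton_iff]
    refine (commute_of_conj_eq (inj _ (T.conj_mem g.2 ha) a ha ?_)).symm
    rw [eq a ha, eq _ (T.conj_mem g.2 ha)]
    have := mem_center_iff.1 hk (π ⟨a, subset_closure ha⟩)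
    rw [← mul_inv_eq_iff_eq_mul] at this
    have h2 : π g * π ⟨a, subset_closure ha⟩ * (π g)⁻¹ = π ⟨a, subset_closure ha⟩ := by
      rw [mul_inv_eq_iff_eq_mul]; exact (mem_center_iff.1 hk _).symm
    rw [← h2, ← map_inv, ← map_mul, ← map_mul]; rfl
  exact mem_centralizer_singleton_iff.1 (this y.2)

namespace Mdl

variable {E : Set G} {K : Type*} [Group K] {π : closure E →* K} {β : G → K} {D : Set K}
  (M : Mdl E π β D)
include M

theorem mem {a : G} (ha : a ∈ E) : β a ∈ D := M.img ▸ ⟨a, ha, rfl⟩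

theorem ex {x : K} (hx : x ∈ D) : ∃ a ∈ E, β a = x := by rwa [M.img] at hx

theorem conj (T : TS E) (g : closure E) {a : G} (ha : a ∈ E) :
    β (g * a * (g : G)⁻¹) = π g * β a * (π g)⁻¹ := by
  rw [M.eq a ha, M.eq _ (T.conj_mem g.2 ha), ← map_inv, ← map_mul, ← map_mul]; rfl

theorem cj (T : TS E) {a b : G} (ha : a ∈ E) (hb : b ∈ E) : β (a * b * a) = β a * β b * β a := by
  rw [M.eq a ha, M.eq b hb, M.eq _ (T.cl a ha b hb), ← map_mul, ← map_mul]; rfl

theorem lift {S : Set G} {S' : Set K} (hS : S ⊆ E) (h : ∀ x ∈ S', ∃ a ∈ S, β a = x) {k : K}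
    (hk : k ∈ closure S') : ∃ g : closure E, (g : G) ∈ closure S ∧ π g = k := by
  induction hk using closure_induction with
  | mem x hx =>
    obtain ⟨a, ha, rfl⟩ := h x hx
    exact ⟨⟨a, subset_closure (hS ha)⟩, subset_closure ha, (M.eq a (hS ha)).symm⟩
  | one => exact ⟨1, one_mem _, map_one _⟩
  | mul x y _ _ hx hy =>
    obtain ⟨g, h1, rfl⟩ := hx
    obtain ⟨g', h2, rfl⟩ := hy
    exact ⟨g * g', mul_mem h1 h2, map_mul _ _ _⟩
  | inv x _ hx =>
    obtain ⟨g, h1, rfl⟩ := hx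
    exact ⟨g⁻¹, inv_mem h1, map_inv _ _⟩

theorem gen : closure D = ⊤ := by
  rw [eq_top_iff]
  rintro k -
  obtain ⟨⟨g, hg⟩, rfl⟩ := M.surj k
  induction hg using closure_induction with
  | mem x hx => exact subset_closure (M.eq x hx ▸ M.mem hx)
  | one => exact (map_one π).symm ▸ one_mem _
  | mul x y h1 h2 hx hy => exact (map_mul π ⟨x, h1⟩ ⟨y, h2⟩).symm ▸ mul_mem hx hy
  | inv x h1 hx => exact (map_inv π ⟨x, h1⟩).symm ▸ inv_mem hx

theorem dd {d a : G} (hd : d ∈ E) (ha : a ∈ E) : β a ∈ Dd D (β d) ↔ a ∈ Dd E d :=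
  ⟨fun h => ⟨ha, fun h1 => h.2.1 (h1 ▸ rfl), (M.comm d hd a ha).1 h.2.2⟩,
    fun h => ⟨M.mem ha, fun h1 => h.2.1 (M.inj a ha d hd h1), (M.comm d hd a ha).2 h.2.2⟩⟩

theorem irr (I : Irr E) : Irr D := by
  have T := I.toTS
  have sq : ∀ a ∈ E, β a * β a = 1 := fun a ha => by
    rw [M.eq a ha, ← map_mul]; exact (congrArg π (Subtype.ext (T.sq ha))).trans (map_one π)
  have : Fact (Nat.Prime 2) := ⟨Nat.prime_two⟩
  refine ⟨⟨⟨fun x hx => ?_, fun x hx y hy => ?_⟩, fun x hx y hy => ?_⟩, fun x hx y hy => ?_, ?_,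
    fun x hx y hy h => ?_, fun x hx y hy h1 h => ?_, fun x hx y hy h h1 => ?_⟩
  · obtain ⟨a, ha, rfl⟩ := M.ex hx
    refine orderOf_eq_prime (by rw [pow_two, sq a ha]) fun h => ?_
    obtain ⟨b, hb, h1⟩ := I.exn' ha
    exact h1 ((M.comm b hb a ha).1 (h ▸ Commute.one_right _))
  all_goals try obtain ⟨a, ha, rfl⟩ := M.ex hx
  all_goals try obtain ⟨b, hb, rfl⟩ := M.ex hy
  · rw [M.eq a ha, M.eq b hb, ← map_mul, ← map_pow, ← map_pow]
    exact (T.tt.2 a ha b hb).imp (fun h => (congrArg π (Subtype.ext h)).trans (map_one π))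
      fun h => (congrArg π (Subtype.ext h)).trans (map_one π)
  · rw [← M.cj T ha hb]; exact M.mem (T.cl a ha b hb)
  · obtain ⟨g, hg, rfl⟩ := I.cls a ha b hb
    exact ⟨π ⟨g, hg⟩, M.gen ▸ mem_top _, (M.conj T ⟨g, hg⟩ ha).symm⟩
  · obtain ⟨a, ha, b, hb, h⟩ := I.exn
    exact ⟨_, M.mem ha, _, M.mem hb, by rwa [M.comm a ha b hb]⟩
  · obtain ⟨c, hc, h1, h2⟩ := I.mu a ha b hb (by rwa [M.comm a ha b hb] at h)
    exact ⟨_, M.mem hc, (M.comm a ha c hc).2 h1, (M.comm b hb c hc).2 h2⟩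
  · obtain ⟨c, hc, h2⟩ := I.tau a ha b hb (fun h2 => h1 (h2 ▸ rfl)) ((M.comm a ha b hb).1 h)
    exact ⟨_, M.mem hc, by rwa [M.comm a ha c hc, M.comm b hb c hc]⟩
  · refine I.theta a ha b hb (by rwa [M.comm a ha b hb] at h) (Set.ext fun c => ⟨fun hc => ?_, fun hc => ?_⟩)
    · rw [← M.dd hb hc.1, ← h1, M.dd ha hc.1]; exact hc
    · rw [← M.dd ha hc.1, h1, M.dd hb hc.1]; exact hc

theorem fi [Finite K] (I : Irr E) : Fi E := by
  have T := I.toTS
  have F := (M.irr I).fis M.gen M.cen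
  refine ⟨I, fun d hd a ha h => ?_, fun d hd b hb h => ?_, fun d hd b hb c hc h1 h2 => ?_,
    fun d hd a ha b hb => ?_⟩
  · obtain ⟨x, hx, h1, h2⟩ := F.V_triv (M.mem hd) (M.mem ha) fun h1 => h (M.inj a ha d hd h1)
    obtain ⟨y, hy, rfl⟩ := M.ex hx
    exact ⟨y, hy, (M.comm d hd y hy).1 h1, by rwa [M.comm a ha y hy] at h2⟩
  · obtain ⟨x, hx, h0, h1, h2⟩ := F.W_triv (M.mem hd) (M.mem hb) (by rwa [M.comm d hd b hb])
    obtain ⟨y, hy, rfl⟩ := M.ex hx
    exact ⟨y, hy, fun h => h0 (h ▸ rfl), (M.comm d hd y hy).1 h1, by rwa [M.comm b hb y hy] at h2⟩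
  · obtain ⟨k, hk, h3⟩ := F.HR_all (M.mem hd) (M.mem hb) (M.mem hc) (by rwa [M.comm d hd b hb])
      (by rwa [M.comm d hd c hc])
    obtain ⟨g, hg, rfl⟩ := M.lift (S := perp E d) (fun _ h => h.1) (fun x hx => by
      obtain ⟨y, hy, rfl⟩ := M.ex hx.1
      exact ⟨y, ⟨hy, (M.comm d hd y hy).1 hx.2⟩, rfl⟩) hk
    exact ⟨g, hg, M.inj _ (T.conj_mem g.2 hb) c hc (by rw [M.conj T g hb, h3])⟩
  · obtain ⟨k, hk, h3⟩ := F.Dd_conj (M.mem hd) ((M.dd hd ha.1).2 ha) ((M.dd hd hb.1).2 hb)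
    obtain ⟨g, hg, rfl⟩ := M.lift (S := Dd E d) (fun _ h => h.1) (fun x hx => by
      obtain ⟨y, hy, rfl⟩ := M.ex hx.1
      exact ⟨y, (M.dd hd hy).1 hx, rfl⟩) hk
    exact ⟨g, hg, M.inj _ (T.conj_mem g.2 ha.1) b hb.1 (by rw [M.conj T g ha.1, h3])⟩

end Mdl

theorem Irr.fi [Finite G] {E : Set G} (I : Irr E) : Fi E := by
  obtain ⟨β, D, M⟩ := exists_mdl I.toTS fun a ha => I.exn' ha
  exact M.fi I

theorem specFi : SpecFi.{u} := fun _ _ _ _ I => I.fi

end CfsgFI
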