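import Cfsg.Agent.FI.P0a

/-! Local connectivity and the trichotomy. -/

set_option autoImplicit false

namespace CfsgFI

open Subgroup CfsgH4 CfsgH5

universe u

variable {G : Type*} [Group G]

theorem closure_perp_le (E : Set G) (d : G) : closure (perp E d) ≤ closure E :=
  closure_mono fun _ h => h.1

theorem closure_dd_le (E : Set G) (d : G) : closure (Dd E d) ≤ closure E :=
  closure_mono fun _ h => h.1

namespace Fi

variable {E : Set G} (F : Fi E)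
include F

theorem ts : TS E := F.toIrr.toTS

theorem pair_nc {a b c d : G} (ha : a ∈ E) (hb : b ∈ E) (hc : c ∈ E) (hd : d ∈ E)
    (h1 : ¬ Commute a b) (h2 : ¬ Commute c d) :
    ∃ g ∈ closure E, g * a * g⁻¹ = c ∧ g * b * g⁻¹ = d := by
  obtain ⟨g, hg, rfl⟩ := F.cls a ha c hc
  obtain ⟨h, hh, rfl⟩ := F.HR _ hc _ (F.ts.conj_mem hg hb) d hd (by rwa [commute_conj_iff]) h2
  refine ⟨h * g, mul_mem (closure_perp_le _ _ hh) hg, ?_, by group⟩
  rw [← conj_eq_of_commute (commute_of_mem_perp hh)]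
  group

theorem pair_c {a b c d : G} (ha : a ∈ E) (hc : c ∈ E) (hb : b ∈ Dd E a) (hd : d ∈ Dd E c) :
    ∃ g ∈ closure E, g * a * g⁻¹ = c ∧ g * b * g⁻¹ = d := by
  obtain ⟨g, hg, rfl⟩ := F.cls a ha c hc
  obtain ⟨h, hh, rfl⟩ := F.Dcl _ hc (g * b * g⁻¹) ⟨F.ts.conj_mem hg hb.1,
    fun h => hb.2.1 (by simpa using h), commute_conj_iff.2 hb.2.2⟩ d hd
  refine ⟨h * g, mul_mem (closure_dd_le _ _ hh) hg, ?_, by group⟩
  rw [← conj_eq_of_commute (commute_of_mem_Dd hh)]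
  group

theorem exc {d : G} (hd : d ∈ E) : ∃ y, y ∈ Dd E d := by
  obtain ⟨a, ha, h⟩ := F.toIrr.exn' hd
  obtain ⟨x, hx, h1, h2⟩ := F.mu a ha d hd h
  exact ⟨x, hx, fun h3 => h (h3 ▸ h1), h2⟩

theorem lc {e : G} (he : e ∈ E)
    (h : ∃ g ∈ Dd E e, ∃ g' ∈ Dd E e, ∃ h ∈ Dd E e, ¬ Commute g g' ∧ Commute g h ∧ Commute g' h) :
    Mu (Dd E e) := by
  have T := F.ts
  obtain ⟨g, hg, g', hg', h, hh, h1, h2, h3⟩ := h
  intro f hf f' hf' h4
  obtain ⟨k, hk, rfl, rfl⟩ := F.pair_nc hg.1 hg'.1 hf.1 hf'.1 h1 h4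
  have hy := T.conj_mem hk he
  have hz := T.conj_mem hk hh.1
  have y1 := (commute_conj_iff (g := k)).2 hg.2.2
  have y2 := (commute_conj_iff (g := k)).2 hg'.2.2
  have z1 := (commute_conj_iff (g := k)).2 h2
  have z2 := (commute_conj_iff (g := k)).2 h3
  have yz := (commute_conj_iff (g := k)).2 hh.2.2
  have ne : k * h * k⁻¹ ≠ k * e * k⁻¹ := fun h5 => hh.2.1 (by simpa using h5)
  generalize k * e * k⁻¹ = y at *
  generalize k * h * k⁻¹ = z at *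
  generalize k * g * k⁻¹ = f at *
  generalize k * g' * k⁻¹ = f' at *
  by_cases c1 : y = e
  · subst c1; exact ⟨z, ⟨hz, ne, yz⟩, z1, z2⟩
  by_cases c2 : Commute e y
  · exact ⟨y, ⟨hy, c1, c2⟩, y1.symm, y2.symm⟩
  have ht := T.cl e he y hy
  have t1 : Commute (e * y * e) f := (hf.2.2.mul_left y1).mul_left hf.2.2
  have t2 : Commute (e * y * e) f' := (hf'.2.2.mul_left y2).mul_left hf'.2.2
  have t3 : (e * y * e) * y * (e * y * e) = e := by
    nth_rewrite 1 [T.braid he hy c2]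
    simp only [mul_assoc, T.cancel hy, T.cancel he, T.sq hy, mul_one]
  generalize e * y * e = t at *
  refine ⟨t * z * t, ⟨T.cl t ht z hz, fun h5 => ne ?_, ?_⟩, (T.cj_right ht t1).2 z1,
    (T.cj_right ht t2).2 z2⟩
  · rw [← T.cj_cj ht z, h5, ← t3, T.cj_cj ht]
  · rw [← t3]; exact (T.cj_iff ht).2 yz

end Fi

theorem specLC : SpecLC.{u} := fun _ _ _ _ F _ he h => F.lc he h

def Thick (E : Set G) : Prop := ∃ d ∈ E, ∃ a ∈ Dd E d, ∃ b ∈ Dd E d, a ≠ b ∧ Commute a b ∧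
  ∀ x ∈ Dd E d, (Commute a x ↔ Commute b x)

def Wc (E : Set G) : Prop := ∃ d ∈ E, ∃ y ∈ Dd E d, ∃ y' ∈ Dd E d, ¬ Commute y y' ∧
  ∀ z ∈ Dd E d, z ≠ y → Commute y z → Commute y' z

theorem Fi.loc [Finite G] {E : Set G} (F : Fi E) : LFi E ∨ Thick E ∨ Wc E := by
  by_contra h
  rw [not_or, not_or] at h
  obtain ⟨h0, h1, h2⟩ := h
  refine h0 fun d hd => Irr.fi ?_
  have tau : ∀ a ∈ Dd E d, ∀ b ∈ Dd E d, a ≠ b → Commute a b →
      ∃ x ∈ Dd E d, ¬ (Commute a x ↔ Commute b x) := fun a ha b hb h3 h4 => by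
    by_contra h5
    push Not at h5
    exact h1 ⟨d, hd, a, ha, b, hb, h3, h4, h5⟩
  refine ⟨F.ts.dd d, F.Dcl d hd, ?_, fun f hf f' hf' h3 => ?_, tau, fun a ha b hb h3 h4 => ?_⟩
  · obtain ⟨y, hy⟩ := F.exc hd
    obtain ⟨x, hx, h3, h4⟩ := F.V d hd y hy.1 hy.2.1
    exact ⟨y, hy, x, ⟨hx, fun h5 => h4 (h5 ▸ hy.2.2.symm), h3⟩, h4⟩
  · refine F.lc hd ?_ f hf f' hf' h3
    have : ∃ z ∈ Dd E d, z ≠ f ∧ Commute f z := by
      by_contra h4
      push Not at h4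
      exact h2 ⟨d, hd, f, hf, f', hf', h3, fun z hz h5 h6 => (h4 z hz h5 h6).elim⟩
    obtain ⟨z, hz, h4, h5⟩ := this
    obtain ⟨x, hx, h6⟩ := tau f hf z hz h4.symm h5
    by_cases h7 : Commute f x
    · exact ⟨z, hz, x, hx, f, hf, fun h8 => h6 (by simp [h7, h8]), h5.symm, h7.symm⟩
    · have h8 : Commute z x := by_contra fun h8 => h6 (by simp [h7, h8])
      exact ⟨f, hf, x, hx, z, hz, h7, h5, h8.symm⟩
  · refine h2 ⟨d, hd, a, ha, b, hb, h3, fun z hz h5 h6 => ?_⟩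
    have : z ∈ Dd (Dd E d) a := ⟨hz, h5, h6⟩
    rw [h4] at this
    exact this.2.2

theorem pol_of_thick [Finite G] {D : Set G} (F : Fis D) (hZ : center G = ⊥) (h : Thick D) :
    Pol D := by
  obtain ⟨d, hd, a, ha, b, hb, h1, h2, h3⟩ := h
  refine ⟨F, fun x hx y hy => ?_, hZ⟩
  obtain ⟨g, rfl, rfl⟩ := F.pair_trans hd hx ha hy
  refine ⟨g * b * g⁻¹, F.ln_conj g ⟨hb.1, fun u hu c1 c2 => ?_⟩, fun h => hb.2.1 (by simpa using h),
    fun h => h1 (by simpa using h.symm)⟩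
  by_cases c3 : u = d
  · rw [c3]; exact hb.2.2
  · exact ((h3 u ⟨hu, c3, c1.symm⟩).1 c2.symm).symm

def L5 : List (Equiv.Perm (Fin 5)) :=
  [Equiv.swap 0 1, Equiv.swap 0 2, Equiv.swap 0 3, Equiv.swap 0 4, Equiv.swap 1 2, Equiv.swap 1 3,
    Equiv.swap 1 4, Equiv.swap 2 3, Equiv.swap 2 4, Equiv.swap 3 4]

theorem mem_L5 : ∀ s : Equiv.Perm (Fin 5), s * s = 1 → Equiv.Perm.sign s = -1 → s ∈ L5 := by
  decide +kernel

theorem sym_L5 : ∀ a ∈ L5, ∀ b ∈ L5, ∀ x ∈ L5, ¬ a * b = b * a →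
    x * a = a * x ∨ x * b = b * x ∨ x * (a * b * a) = a * b * a * x := by
  decide +kernel

theorem sym_of_S5 {D : Set G} (F : Fis D) (e : G ≃* Equiv.Perm (Fin 5)) : Sym D := by
  have h1 : ∀ a ∈ D, e a ∈ L5 := fun a ha => by
    refine mem_L5 _ (by rw [← map_mul, F.sq ha, map_one]) ?_
    by_contra h
    have h2 : Equiv.Perm.sign (e a) = 1 := (Int.units_eq_one_or _).resolve_right h
    have h3 : closure D ≤ (Equiv.Perm.sign.comp e.toMonoidHom).ker := (closure_le _).2 fun b hb => by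
      obtain ⟨g, rfl⟩ := F.trans a ha b hb
      rw [SetLike.mem_coe, MonoidHom.mem_ker, map_mul, map_mul, map_inv]
      change _ * Equiv.Perm.sign (e a) * _ = 1
      rw [h2, mul_one, mul_inv_cancel]
    have := h3 (F.gen ▸ mem_top (e.symm (Equiv.swap 0 1)))
    simp at this
  intro a ha b hb x hx h
  have := sym_L5 _ (h1 a ha) _ (h1 b hb) _ (h1 x hx) fun h2 => h (e.injective (by simpa using h2))
  exact this.imp (fun h => e.injective (by simpa using h)) fun h =>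
    h.imp (fun h => e.injective (by simpa using h)) fun h => e.injective (by simpa using h)

theorem conj_t {F ι K : Type*} [Field F] [Fintype ι] [DecidableEq ι] [Group K] (T : TvG F ι K)
    {w : F} (hw : w ^ 2 + w + 1 = 0) [Finite G] {D : Set G} (Φ : Fis D) (φ : G → ι → F)
    (h1 : ∀ a ∈ D, ∀ b ∈ D, Commute a b ↔ T.h (φ a) (φ b) = 0)
    (h2 : ∀ u, u ≠ 0 → T.h u u = 0 → ∃ d ∈ D, ∃ c : F, u = c • φ d) {a b : G} (ha : a ∈ D)
    (hb : b ∈ D) : ∃ c : F, φ (a * b * a⁻¹) = c • (φ b + T.h (φ b) (φ a) • φ a) := by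
  have hi : ∀ a ∈ D, T.h (φ a) (φ a) = 0 := fun a ha => (h1 a ha a ha).1 (Commute.refl a)
  by_cases h : Commute a b
  · exact ⟨1, by rw [conj_eq_of_commute h, T.perp ((h1 a ha b hb).1 h)]; simp⟩
  have hc := Φ.conj a b hb
  have h3 : T.h (φ b) (φ a) ≠ 0 := fun h3 => h ((h1 b hb a ha).2 h3).symm
  obtain ⟨_, ⟨g, hg, rfl⟩, e, he, e1, e2⟩ := Φ.exists_HR_common ha hb h
  obtain ⟨e, rfl⟩ : ∃ e', g * e' * g⁻¹ = e := ⟨g⁻¹ * e * g, by group⟩
  rw [commute_conj_iff] at e2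
  rw [commute_conj_right (commute_of_mem_perp hg)] at e1
  replace he : e ∈ D := by simpa [mul_assoc] using Φ.conj g⁻¹ _ he
  have hu : T.h (T.h (φ b) (φ a) • φ a) (T.h (φ b) (φ a) • φ a) = 0 := by
    rw [T.smul_left, T.smul_right, hi a ha]; simp
  have h4 := T.double_perp hw (z := φ (a * b * a⁻¹)) (y₀ := φ e) hu (hi b hb) (by
      rw [T.smul_left, T.symm (φ b) (φ a), f4_cube T.p4 h3])
    ⟨by rw [T.smul_right, (h1 e he a ha).1 e1.symm, mul_zero], (h1 e he b hb).1 e2.symm⟩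
    (fun h4 => by
      obtain ⟨b, hb, h5⟩ := Φ.exn' he
      exact h5 ((h1 e he b hb).2 (by rw [h4, T.zero_left]))) (hi e he) fun y hy h4 => by
      by_cases y0 : y = 0
      · rw [y0, T.zero_left]
      obtain ⟨d, hd, c, rfl⟩ := h2 y y0 h4
      have c0 := left_ne_zero_of_smul y0
      obtain ⟨h5, h6⟩ := hy
      rw [T.smul_left, T.smul_right, mul_eq_zero, mul_eq_zero, pow_eq_zero_iff two_ne_zero,
        or_iff_right c0, or_iff_right h3, ← h1 d hd a ha] at h5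
      rw [T.smul_left, mul_eq_zero, or_iff_right c0, ← h1 d hd b hb] at h6
      rw [T.smul_left, (h1 d hd _ hc).1 ((h5.mul_right h6).mul_right h5.inv_right), mul_zero]
  have h5 : T.h (φ (a * b * a⁻¹)) (φ b) ≠ 0 := fun h5 => h (by
    have := (h1 _ hc b hb).2 h5
    rw [Φ.inv ha, Φ.braid ha hb h, Φ.cj_left hb (Commute.refl b)] at this
    exact this)
  have h6 : T.h (φ (a * b * a⁻¹)) (T.h (φ b) (φ a) • φ a) ≠ 0 := fun h6 => h (by
    rw [T.smul_right, mul_eq_zero, pow_eq_zero_iff two_ne_zero, or_iff_right h3, ← h1 _ hc a ha,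
      commute_conj_left (Commute.refl a)] at h6
    exact h6.symm)
  have h7 := hi _ hc
  have h8 : T.h (T.h (φ b) (φ a) • φ a) (φ b) = 1 := by
    rw [T.smul_left, T.symm (φ b) (φ a), f4_cube T.p4 h3]
  generalize T.h (φ b) (φ a) • φ a = u at *
  generalize T.h (φ (a * b * a⁻¹)) (φ b) = α at *
  generalize T.h (φ (a * b * a⁻¹)) u = β at *
  have h9 : T.h (φ b) u = 1 := by rw [T.symm, h8, one_pow]
  rw [h4, T.add_left, T.add_right, T.add_right] at h7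
  simp only [T.smul_left, T.smul_right, hu, hi b hb, h8, h9] at h7
  have h10 : α = β := by
    have := f4_cube T.p4 h5
    have := f4_cube T.p4 h6
    have h11 : α * β * (α + β) = 0 := by linear_combination h7
    have h12 := (mul_eq_zero.1 h11).resolve_left (mul_ne_zero h5 h6)
    linear_combination h12 - β * T.two
  exact ⟨β, by rw [h4, h10, ← smul_add, add_comm]⟩

theorem uni_of_phi [Finite G] {D : Set G} (F : Fis D) {n : ℕ} {φ : G → Fin n → F4}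
    (h1 : ∀ a ∈ D, ∀ b ∈ D, Commute a b ↔ (TU n).h (φ a) (φ b) = 0)
    (h2 : ∀ u, u ≠ 0 → (TU n).h u u = 0 → ∃ d ∈ D, ∃ c : F4, u = c • φ d) : UniM n D φ := by
  refine ⟨fun a ha h => ?_, h1, h2, fun a ha b hb c h => by_contra fun h3 => ?_, fun a ha b hb => ?_⟩
  · obtain ⟨b, hb, h3⟩ := F.exn' ha
    exact h3 ((h1 a ha b hb).2 (by rw [h, (TU n).zero_left]))
  · obtain ⟨x, hx, h4, h5⟩ := F.V_triv hb ha h3
    exact h5 ((h1 a ha x hx).2 (by rw [h, (TU n).smul_left, (h1 b hb x hx).1 h4, mul_zero]))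
  · have := conj_t (TU n) f4_w F φ h1 h2 ha hb
    rwa [F.inv ha] at this

namespace Mdl

variable {E : Set G} {K : Type*} [Group K] {π : closure E →* K} {β : G → K} {D : Set K}
  (M : Mdl E π β D)
include M

theorem sym (T : TS E) (h : Sym D) : Sym E := fun a ha b hb x hx h1 => by
  have := h _ (M.mem ha) _ (M.mem hb) _ (M.mem hx) (by rwa [M.comm a ha b hb])
  rwa [← M.cj T ha hb, M.comm x hx a ha, M.comm x hx b hb, M.comm x hx _ (T.cl a ha b hb)] at this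

theorem uni (T : TS E) {n : ℕ} (h : Uni n D) : Uni n E := by
  obtain ⟨φ, U⟩ := h
  refine ⟨φ ∘ β, fun a ha => U.ne _ (M.mem ha), fun a ha b hb => ?_, fun u h0 h1 => ?_,
    fun a ha b hb c h => M.inj a ha b hb (U.inj _ (M.mem ha) _ (M.mem hb) c h), fun a ha b hb => ?_⟩
  · rw [← M.comm a ha b hb]; exact U.comm _ (M.mem ha) _ (M.mem hb)
  · obtain ⟨d, hd, c, h⟩ := U.surj u h0 h1
    obtain ⟨a, ha, rfl⟩ := M.ex hd
    exact ⟨a, ha, c, h⟩
  · simp only [Function.comp, M.cj T ha hb]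
    exact U.conj _ (M.mem ha) _ (M.mem hb)

theorem thick (h : Thick E) : Thick D := by
  obtain ⟨d, hd, a, ha, b, hb, h1, h2, h3⟩ := h
  refine ⟨_, M.mem hd, _, (M.dd hd ha.1).2 ha, _, (M.dd hd hb.1).2 hb,
    fun h => h1 (M.inj a ha.1 b hb.1 h), (M.comm a ha.1 b hb.1).2 h2, fun x hx => ?_⟩
  obtain ⟨y, hy, rfl⟩ := M.ex hx.1
  rw [M.comm a ha.1 y hy, M.comm b hb.1 y hy]
  exact h3 y ((M.dd hd hy).1 hx)

theorem wc (h : Wc E) : Wc D := by
  obtain ⟨d, hd, a, ha, b, hb, h1, h3⟩ := h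
  refine ⟨_, M.mem hd, _, (M.dd hd ha.1).2 ha, _, (M.dd hd hb.1).2 hb,
    by rwa [M.comm a ha.1 b hb.1], fun x hx h4 => ?_⟩
  obtain ⟨y, hy, rfl⟩ := M.ex hx.1
  rw [M.comm a ha.1 y hy, M.comm b hb.1 y hy]
  exact h3 y ((M.dd hd hy).1 hx) fun h => h4 (h ▸ rfl)

end Mdl

theorem Fi.tri [Finite G] {E : Set G} (F : Fi E) : LFi E ∨ Sym E ∨ ∃ n, 4 ≤ n ∧ Uni n E := by
  obtain ⟨β, D, M⟩ := exists_mdl F.ts fun a ha => F.toIrr.exn' ha
  have Φ := (M.irr F.toIrr).fis M.gen M.cen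
  rcases F.loc with h | h | h
  · exact Or.inl h
  · have P := pol_of_thick Φ M.cen (M.thick h)
    obtain ⟨x, hx, y, hy, h1, h2⟩ := Φ.exc
    have hl := isLn_ln hx hy h1.symm h2
    rcases P.ncard_cases hl with h3 | h5
    · refine Or.inr (Or.inl (M.sym F.ts fun a ha b hb p hp h4 => ?_))
      by_cases c1 : Commute p a
      · exact Or.inl c1
      by_cases c2 : Commute p b
      · exact Or.inr (Or.inl c2)
      exact Or.inr (Or.inr (P.no_affine (fun l h => (Φ.ncard_ln h hl).trans h3) hp ha hb h4 c1 c2))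
    · obtain ⟨n, φ, hn, k1, k2, -⟩ := P.unitary fun l h => (Φ.ncard_ln h hl).trans h5
      exact Or.inr (Or.inr ⟨n, hn, M.uni F.ts ⟨φ, uni_of_phi Φ k1 k2⟩⟩)
  · obtain ⟨d, hd, y, hy, y', hy', h1, h2⟩ := M.wc h
    obtain ⟨e⟩ := Φ.iso_S5_of_W hy hy' hd h1 h2 M.cen
    exact Or.inr (Or.inl (M.sym F.ts (sym_of_S5 Φ e)))

theorem specTri : SpecTri.{u} := fun _ _ _ _ F => F.tri

end CfsgFI
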