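import Cfsg.Agent.FI.U0a

/-! Unitary basics. -/

set_option autoImplicit false
set_option maxRecDepth 100000

namespace CfsgFI

open Subgroup CfsgH4 CfsgH5 U0

universe u

namespace U0

/-- the 45 isotropic points of the unitary 4-space -/
def tU (i : Fin 45) (j : Fin 4) : F4 := Fin.ofNat 4 (Nat.shiftRight
  0xfdbd7dedad6ddd9d5d0df9b979e9a969d9995909f5b575e5a565d5955505312111c18141342414c48444d09050
  (8 * i.1 + 2 * j.1))

/-- the corresponding points of the orthogonal 5-space -/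
def tO (i : Fin 45) (j : Fin 5) : ZMod 3 := Fin.ofNat 3 (Nat.land 3 (Nat.shiftRight
  0x59a518565065a4685644a9254a5945545446991654514991540149619894048a5194a410101a498589a9161a2564a8549991a19261545500
  (10 * i.1 + 2 * j.1)))

theorem tA : ∀ a b c d : F4, hU ![a, b, c, d] ![a, b, c, d] = 0 → (a = 0 ∧ b = 0 ∧ c = 0 ∧ d = 0) ∨
    ∃ i, ∃ k : F4, a = k * tU i 0 ∧ b = k * tU i 1 ∧ c = k * tU i 2 ∧ d = k * tU i 3 := by
  decide +kernel

theorem tB : ∀ i j, i = j ∨ ((hU (tU i) (tU j) = 0 ↔ bO (c2 5) (tO i) (tO j) = 0) ∧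
    tO i ≠ tO j ∧ tO i ≠ - tO j ∧ ∀ k : F4, tU i ≠ k • tU j) := by decide +kernel

theorem tC : ∀ a b c d e : ZMod 3, bO (c2 5) ![a, b, c, d, e] ![a, b, c, d, e] = 2 →
    ∃ i, ![a, b, c, d, e] = tO i ∨ ![a, b, c, d, e] = - tO i := by decide +kernel

theorem tD : ∀ i, bO (c2 5) (tO i) (tO i) = 2 ∧ tU i ≠ 0 ∧ hU (tU i) (tU i) = 0 := by
  decide +kernel

theorem tA' (u : Fin 4 → F4) (h0 : u ≠ 0) (h : hU u u = 0) : ∃ i, ∃ k : F4, u = k • tU i := by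
  have e : u = ![u 0, u 1, u 2, u 3] := by ext i; fin_cases i <;> rfl
  rcases tA (u 0) (u 1) (u 2) (u 3) (e ▸ h) with ⟨a, b, c, d⟩ | ⟨i, k, a, b, c, d⟩
  · exact absurd (by ext i; fin_cases i <;> assumption) h0
  · exact ⟨i, k, by ext j; fin_cases j <;> assumption⟩

theorem hU_cons {n : ℕ} (u v : Fin (n + 2) → F4) : hU u v =
    u 0 * v 0 ^ 2 + (u 1 * v 1 ^ 2 + hU (fun i => u i.succ.succ) fun i => v i.succ.succ) := by
  simp only [hU, Cfsg.hermForm, Fin.sum_univ_succ, Fin.succ_zero_eq_one]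

theorem f4_two0 : ∀ a b : F4, 1 * a ^ 2 + 1 * b ^ 2 = 0 → 1 * a ^ 2 + F4.w * b ^ 2 = 0 →
    a = 0 ∧ b = 0 := by decide +kernel

end U0

variable {G : Type*} [Group G] {E : Set G}

theorem UniM.ort {φ : G → Fin 4 → F4} (U : UniM 4 E φ) : Ort (c2 5) E := by
  have : ∀ a, ∃ i, a ∈ E → ∃ k : F4, k ≠ 0 ∧ φ a = k • tU i := fun a => by
    by_cases ha : a ∈ E
    · obtain ⟨i, k, e⟩ := tA' _ (U.ne a ha) (U.iso ha)
      exact ⟨i, fun _ => ⟨k, fun h => U.ne a ha (by rw [e, h, zero_smul]), e⟩⟩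
    · exact ⟨0, fun h => absurd h ha⟩
  choose ι hι using this
  have inj : ∀ a ∈ E, ∀ b ∈ E, ι a = ι b → a = b := fun a ha b hb e => by
    obtain ⟨k, -, e1⟩ := hι a ha
    obtain ⟨l, l0, e2⟩ := hι b hb
    exact U.inj a ha b hb (k * l⁻¹) (by
      rw [e1, e2, e, smul_smul, mul_assoc, inv_mul_cancel₀ l0, mul_one])
  refine ⟨fun a => tO (ι a), by decide, fun a _ => (tD _).1, fun a ha b hb h => ?_, fun w hw => ?_,
    fun a ha b hb h => ?_⟩
  · obtain ⟨k, k0, e1⟩ := hι a ha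
    obtain ⟨l, l0, e2⟩ := hι b hb
    rw [U.comm a ha b hb, e1, e2, sl, sr, mul_eq_zero, mul_eq_zero, or_iff_right k0,
      or_iff_right (pow_ne_zero _ l0)]
    exact ((tB _ _).resolve_left fun e => h (inj a ha b hb e)).1
  · have e : w = ![w 0, w 1, w 2, w 3, w 4] := by ext i; fin_cases i <;> rfl
    obtain ⟨i, hi⟩ := tC (w 0) (w 1) (w 2) (w 3) (w 4) (e ▸ hw)
    obtain ⟨a, ha, c, e1⟩ := U.surj _ (tD i).2.1 (tD i).2.2
    obtain ⟨k, -, e2⟩ := hι a ha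
    obtain rfl : i = ι a := (tB _ _).resolve_right fun h => h.2.2.2 (c * k) (by
      rw [e1, e2, smul_smul])
    exact ⟨a, ha, by rwa [← e] at hi⟩
  · exact inj a ha b hb ((tB _ _).resolve_right fun h' => h.elim h'.2.1 h'.2.2.1)

theorem UniM.tail {n : ℕ} {φ : G → Fin (n + 2) → F4} (U : UniM (n + 2) E φ) (T : TS E) {d a : G}
    (hd : d ∈ E) (ha : a ∈ E) {c c' : F4}
    (e1 : (Fin.cons 1 (Fin.cons 1 0) : Fin (n + 2) → F4) = c • φ d)
    (e2 : (Fin.cons 1 (Fin.cons F4.w 0) : Fin (n + 2) → F4) = c' • φ a) : Uni n (Xs E d a) := by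
  have c0 : c ≠ 0 := fun h => by simpa [h] using congrFun e1 0
  have c1 : c' ≠ 0 := fun h => by simpa [h] using congrFun e2 0
  have p1 : ∀ v, hU (c • φ d) v = 1 * v 0 ^ 2 + 1 * v 1 ^ 2 := fun v => by
    rw [← e1, hU_cons]; simp [zl, ← Pi.zero_def]
  have p2 : ∀ v, hU (c' • φ a) v = 1 * v 0 ^ 2 + F4.w * v 1 ^ 2 := fun v => by
    rw [← e2, hU_cons]; simp [zl, ← Pi.zero_def]
  have z : ∀ y ∈ Xs E d a, φ y 0 = 0 ∧ φ y 1 = 0 := fun y hy => f4_two0 _ _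
    (by rw [← p1, sl, (U.comm d hd y hy.1).1 hy.2.1, mul_zero])
    (by rw [← p2, sl, (U.comm a ha y hy.1).1 hy.2.2, mul_zero])
  have hh : ∀ y ∈ Xs E d a, ∀ v, hU (φ y) v =
      hU (fun i => φ y i.succ.succ) fun i => v i.succ.succ := fun y hy v => by
    rw [hU_cons, (z y hy).1, (z y hy).2]; simp
  have ext : ∀ u v : Fin (n + 2) → F4, u 0 = v 0 → u 1 = v 1 →
      (∀ i : Fin n, u i.succ.succ = v i.succ.succ) → u = v := fun u v h0 h1 h2 => funext fun i =>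
    Fin.cases h0 (fun i => Fin.cases h1 h2 i) i
  refine ⟨fun y i => φ y i.succ.succ, fun y hy h => U.ne y hy.1 ?_, fun x hx y hy => ?_,
    fun u u0 u1 => ?_, fun x hx y hy k h => U.inj x hx.1 y hy.1 k ?_, fun x hx y hy => ?_⟩
  · exact ext _ _ (z y hy).1 (z y hy).2 (congrFun h)
  · rw [U.comm x hx.1 y hy.1, hh x hx]
  · obtain ⟨y, hy, k, -, e, hc⟩ := U.pt (u := Fin.cons 0 (Fin.cons 0 u))
      (fun h => u0 (funext fun i => congrFun h i.succ.succ)) (by rw [hU_cons]; simpa using u1)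
    refine ⟨y, ⟨hy, ((hc d hd).2 (pp ?_)).symm, ((hc a ha).2 (pp ?_)).symm⟩, k,
      funext fun i => congrFun e i.succ.succ⟩
    · have := p1 (Fin.cons 0 (Fin.cons 0 u))
      rw [sl] at this
      simpa [c0] using this
    · have := p2 (Fin.cons 0 (Fin.cons 0 u))
      rw [sl] at this
      simpa [c1] using this
  · exact ext _ _ (by simp [(z x hx).1, (z y hy).1]) (by simp [(z x hx).2, (z y hy).2]) (congrFun h)
  · obtain ⟨k, e⟩ := U.conj x hx.1 y hy.1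
    exact ⟨k, funext fun i => by rw [← hh y hy, e]; rfl⟩

theorem UniM.xs {n : ℕ} {φ : G → Fin (n + 2) → F4} (U : UniM (n + 2) E φ) (Φ : Fi E) {d a : G}
    (hd : d ∈ E) (ha : a ∈ E) (h : ¬ Commute d a) : Uni n (Xs E d a) := by
  have T : TS E := Φ.toIrr.toTS
  obtain ⟨d₀, hd₀, c, c0, e1, k1⟩ := U.pt (u := Fin.cons 1 (Fin.cons 1 0))
    (fun h => one_ne_zero (congrFun h 0)) (by rw [hU_cons]; simp [zl, ← Pi.zero_def]; decide)
  obtain ⟨a₀, ha₀, c', c1, e2, -⟩ := U.pt (u := Fin.cons 1 (Fin.cons F4.w 0))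
    (fun h => one_ne_zero (congrFun h 0)) (by rw [hU_cons]; simp [zl, ← Pi.zero_def]; decide)
  have n0 : ¬ Commute d₀ a₀ := fun h => by
    have h1 := (k1 a₀ ha₀).1 h
    have h2 : hU (Fin.cons 1 (Fin.cons 1 0) : Fin (n + 2) → F4) (Fin.cons 1 (Fin.cons F4.w 0)) = 0 := by
      rw [e2, sr, h1, mul_zero]
    rw [hU_cons] at h2
    simp [zl, ← Pi.zero_def] at h2
    revert h2; decide
  obtain ⟨g, hg, rfl⟩ := Φ.cls d hd d₀ hd₀
  obtain ⟨k, hk, rfl⟩ := Φ.HR _ hd₀ _ (T.conj_mem hg ha) _ ha₀ (by rwa [commute_conj_iff]) n0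
  have hk' : k ∈ closure E := closure_mono (fun _ h => h.1) hk
  refine (U.move T (mul_mem hk' hg)).tail T hd ha (c := c) (c' := c') ?_ ?_
  · rw [e1, show k * g * d * (k * g)⁻¹ = k * (g * d * g⁻¹) * k⁻¹ by group,
      conj_eq_of_commute (commute_of_mem_perp hk)]
  · rw [e2]; congr 2; group

theorem specU0 : SpecU0.{u} := fun _ _ _ T =>
  ⟨fun _ ⟨_, U⟩ Φ _ hd _ ha h => U.xs Φ hd ha h, fun ⟨_, U⟩ => U.ort, fun ⟨_, U⟩ => U.fib T (by omega),
    fun _ h d hd _ he _ hx _ hx' => let ⟨_, U⟩ := h d hd; U.lam he hx hx'⟩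

end CfsgFI
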