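import Cfsg.Agent.FI.Main
import Cfsg.Agent.FI.U0
import Cfsg.Agent.FI.K

/-! The sign at the bottom of the chain. -/

set_option autoImplicit false

namespace CfsgFI

open Subgroup CfsgH4 CfsgH5

universe u

/-- a point and a singular line of a totally isotropic plane -/
def s6v : Fin 6 → Fin 6 → F4 :=
  ![![1, 1, 0, 0, 0, 0], ![0, 0, 1, 1, 0, 0], ![0, 0, 0, 0, 1, 1], ![0, 0, 1, 1, 1, 1],
    ![0, 0, 1, 1, F4.w, F4.w], ![0, 0, 1, 1, F4.w * F4.w, F4.w * F4.w]]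

theorem s6v_orth : ∀ i j, hU (s6v i) (s6v j) = 0 := by decide +kernel

theorem s6v_ne : ∀ i, s6v i ≠ 0 := by decide +kernel

theorem s6v_ind : ∀ i j, ∀ a b : F4, a • s6v i = b • s6v j → a = 0 ∨ i = j := by decide +kernel

theorem s6v_sum : ∀ α β : F4, (α + (F4.w * F4.w) ^ 2 * β) • s6v 5 + (α + F4.w ^ 2 * β) • s6v 4 +
    (α + β) • s6v 3 + β • s6v 2 + α • s6v 1 = 0 := by decide +kernel

theorem f4_cube : ∀ α : F4, α ≠ 0 → α ^ 2 * α = 1 := by decide +kernel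

section
variable {G : Type*} [Group G]

theorem UniM.s6_step {n : ℕ} {E : Set G} {φ : G → Fin n → F4} (U : UniM n E φ) {a b : G}
    (ha : a ∈ E) (hb : b ∈ E) {v w : Fin n → F4} (e1 : ∃ α : F4, α ≠ 0 ∧ φ a = α • w)
    (e2 : ∃ β : F4, φ b = β • v) : ∃ γ : F4, φ (a * b * a) = γ • (v + hU v w • w) := by
  obtain ⟨c, hc⟩ := U.conj a ha b hb
  obtain ⟨α, hα, e1⟩ := e1
  obtain ⟨β, e2⟩ := e2
  refine ⟨c * β, ?_⟩
  rw [hc, e1, e2, U0.sl, U0.sr]
  ext i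
  simp only [Pi.smul_apply, Pi.add_apply, smul_eq_mul]
  linear_combination (c * β * hU v w * w i) * f4_cube α hα

theorem s6_line {Y : Set G} (T : TS Y) (h : Uni 6 Y) : ∃ p : Fin 6 → G, (∀ i, p i ∈ Y) ∧
    Function.Injective p ∧ (∀ i j, Commute (p i) (p j)) ∧
    p 1 * p 2 * p 3 * p 4 * p 5 ∈ centralizer Y := by
  obtain ⟨φ, U⟩ := h
  have h0 : ∀ i, ∃ d ∈ Y, ∃ α : F4, α ≠ 0 ∧ φ d = α • s6v i := fun i => by
    obtain ⟨d, hd, c, hc⟩ := U.surj _ (s6v_ne i) (s6v_orth i i)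
    have hc0 : c ≠ 0 := fun e => s6v_ne i (by rw [hc, e, zero_smul])
    exact ⟨d, hd, c⁻¹, inv_ne_zero hc0, by rw [hc, smul_smul, inv_mul_cancel₀ hc0, one_smul]⟩
  choose p hp hv using h0
  refine ⟨p, hp, fun i j e => ?_, fun i j => ?_, fun b hb => ?_⟩
  · obtain ⟨α, hα, e1⟩ := hv i
    obtain ⟨β, -, e2⟩ := hv j
    exact (s6v_ind i j α β (by rw [← e1, ← e2, e])).resolve_left hα
  · obtain ⟨α, -, e1⟩ := hv i
    obtain ⟨β, -, e2⟩ := hv j
    rw [U.comm _ (hp i) _ (hp j), e1, e2, U0.sl, U0.sr, s6v_orth, mul_zero, mul_zero]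
  · have m5 := T.cl _ (hp 5) _ hb
    have m4 := T.cl _ (hp 4) _ m5
    have m3 := T.cl _ (hp 3) _ m4
    have m2 := T.cl _ (hp 2) _ m3
    have m1 := T.cl _ (hp 1) _ m2
    obtain ⟨γ, e⟩ := U.s6_step (hp 1) m2 (hv 1) (U.s6_step (hp 2) m3 (hv 2) (U.s6_step (hp 3) m4
      (hv 3) (U.s6_step (hp 4) m5 (hv 4) (U.s6_step (hp 5) hb (hv 5) ⟨1, (one_smul _ _).symm⟩))))
    simp only [U0.al, U0.sl, s6v_orth, mul_zero, add_zero] at e
    have k3 : s6v 3 = s6v 1 + s6v 2 := by decide +kernel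
    have k4 : s6v 4 = s6v 1 + F4.w • s6v 2 := by decide +kernel
    have k5 : s6v 5 = s6v 1 + (F4.w * F4.w) • s6v 2 := by decide +kernel
    have k := s6v_sum (hU (φ b) (s6v 1)) (hU (φ b) (s6v 2))
    rw [← U0.sr, ← U0.sr, ← U0.ar, ← U0.ar, ← U0.ar, ← k3, ← k4, ← k5] at k
    simp only [add_assoc] at e k
    rw [k, add_zero] at e
    have e' := U.inj _ m1 _ hb γ e
    have : b * (p 1 * p 2 * p 3 * p 4 * p 5) = (p 1 * (p 2 * (p 3 * (p 4 * (p 5 * b * p 5) * p 4) *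
        p 3) * p 2) * p 1) * (p 1 * p 2 * p 3 * p 4 * p 5) := by rw [e']
    rw [this]
    simp only [mul_assoc, T.cancel (hp _), T.sq (hp _), mul_one]

theorem s6_pow {x : G} (h : x * x = 1) (i : ℕ) : x ^ i = 1 ∨ x ^ i = x := by
  obtain ⟨k, rfl | rfl⟩ := Nat.even_or_odd' i
  · exact Or.inl (by rw [pow_mul, sq, h, one_pow])
  · exact Or.inr (by rw [pow_succ, pow_mul, sq, h, one_pow, one_mul])

theorem s6_form {x y z g : G} (hx : x * x = 1) (hy : y * y = 1) (hz : z * z = 1)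
    (c1 : Commute x y) (c2 : Commute x z) (c3 : Commute y z) (hg : g ∈ closure ({z, y, x} : Set G)) :
    ∃ a b c : G, (a = 1 ∨ a = x) ∧ (b = 1 ∨ b = y) ∧ (c = 1 ∨ c = z) ∧ g = a * b * c := by
  have key : ∀ t ∈ ({z, y, x} : Set G), ∀ i j k : ℕ, ∃ i' j' k' : ℕ,
      t * (x ^ i * y ^ j * z ^ k) = x ^ i' * y ^ j' * z ^ k' := by
    rintro t (rfl | rfl | rfl) i j k
    · exact ⟨i, j, k + 1, by
        rw [← mul_assoc, ← ((c2.pow_left i).mul_left (c3.pow_left j)).eq, pow_succ', mul_assoc]⟩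
    · exact ⟨i, j + 1, k, by
        rw [← mul_assoc, ← mul_assoc, ← (c1.pow_left i).eq, pow_succ', mul_assoc _ t]⟩
    · exact ⟨i + 1, j, k, by rw [pow_succ']; simp only [mul_assoc]⟩
  have : ∃ i j k : ℕ, g = x ^ i * y ^ j * z ^ k := by
    induction hg using closure_induction_left with
    | one => exact ⟨0, 0, 0, by simp⟩
    | mul_left t ht g _ ih =>
      obtain ⟨i, j, k, rfl⟩ := ih
      exact key t ht i j k
    | inv_mul_cancel t ht g _ ih =>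
      obtain ⟨i, j, k, rfl⟩ := ih
      have : t⁻¹ = t := by
        rcases ht with rfl | rfl | rfl <;> exact inv_eq_of_mul_eq_one_right ‹_›
      rw [this]
      exact key t ht i j k
  obtain ⟨i, j, k, rfl⟩ := this
  exact ⟨_, _, _, s6_pow hx i, s6_pow hy j, s6_pow hz k, rfl⟩

/-- the lift with sign -/
def s6l (Y : Set G) : Set (G × ℤˣ) := {q | q.1 ∈ Y ∧ q.2 = -1}

theorem s6_comm {q r : G × ℤˣ} : Commute q r ↔ Commute q.1 r.1 :=
  ⟨fun h => (Prod.commute_iff.1 h).1, fun h => Prod.commute_iff.2 ⟨h, Commute.all _ _⟩⟩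

theorem TS.s6l {Y : Set G} (T : TS Y) : TS (s6l Y) := by
  refine ⟨⟨fun q hq => orderOf_eq_prime (Prod.ext ?_ ?_) fun h => T.ne_one hq.1 (by rw [h]; rfl),
    fun q hq r hr => (T.tt.2 _ hq.1 _ hr.1).imp (fun h => Prod.ext h ?_) fun h => Prod.ext h ?_⟩,
    fun q hq r hr => ⟨T.cl _ hq.1 _ hr.1, ?_⟩⟩
  · simpa [pow_two] using T.sq hq.1
  · simp [hq.2]
  · simp [hq.2, hr.2]
  · simp [hq.2, hr.2]
  · simp [hq.2, hr.2]

theorem Uni.s6l {n : ℕ} {Y : Set G} (h : Uni n Y) : Uni n (s6l Y) := by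
  obtain ⟨φ, U⟩ := h
  refine ⟨fun q => φ q.1, fun a ha => U.ne _ ha.1, fun a ha b hb => s6_comm.trans (U.comm _ ha.1 _ hb.1),
    fun u h0 h1 => ?_, fun a ha b hb c h => Prod.ext (U.inj _ ha.1 _ hb.1 c h) (ha.2.trans hb.2.symm),
    fun a ha b hb => U.conj _ ha.1 _ hb.1⟩
  obtain ⟨d, hd, c, h⟩ := U.surj u h0 h1
  exact ⟨(d, -1), ⟨hd, rfl⟩, c, h⟩

theorem s6_sg {S : Set G} (h : ((1 : G), (-1 : ℤˣ)) ∉ closure (s6l S)) : Sg S := by
  refine ⟨(closure (s6l S)).comap (MonoidHom.inl G ℤˣ), fun x hx y hy => ?_, fun x hx h1 => h ?_⟩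
  · have := mul_mem (subset_closure (k := s6l S) (a := (x, -1)) ⟨hx, rfl⟩)
      (subset_closure (k := s6l S) (a := (y, -1)) ⟨hy, rfl⟩)
    simpa using this
  · have := mul_mem (inv_mem (mem_comap.1 h1)) (subset_closure (k := s6l S) (a := (x, -1)) ⟨hx, rfl⟩)
    simpa using this

theorem s6_five {Y : Set G} {p : Fin 6 → G} (h : ∀ i, i ≠ 0 → p i ∈ Y) :
    (p 1 * p 2 * p 3 * p 4 * p 5, (-1 : ℤˣ)) ∈ closure (s6l Y) := by
  have k : ∀ i, i ≠ 0 → (p i, (-1 : ℤˣ)) ∈ closure (s6l Y) := fun i hi => subset_closure ⟨h i hi, rfl⟩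
  simpa using mul_mem (mul_mem (mul_mem (mul_mem (k 1 (by decide)) (k 2 (by decide)))
    (k 3 (by decide))) (k 4 (by decide))) (k 5 (by decide))

end

variable {G : Type u} [Group G] [Finite G] {E : Set G}

theorem s6_fib22 (h : F22 E) : Fib E :=
  k_fib h.1 fun d hd => (specU0 G _ (h.1.ts.dd d)).2.2.1 (h.2.2 d hd)

theorem s6_oct (hk : Ker E ∅) (h : F24 E) {x y z c : G} (hx : x ∈ E) (hy : y ∈ Dd E x)
    (hz : z ∈ Dd (Dd E x) y) (hc : c ∈ Dd (Dd (Dd E x) y) z) :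
    ∃ p : Fin 6 → G, (∀ i, i ≠ 0 → p i ∈ Dd (Dd (Dd (Dd E x) y) z) c) ∧
      p 1 * p 2 * p 3 * p 4 * p 5 = x * y * z := by
  have T := h.1.ts
  have f3 := h.2 x hx
  have f2 := f3.2 y hy
  have FY := f2.2.1 z hz
  have b3 : ∀ d ∈ E, Fib (Dd E d) := fun d hd =>
    k_fib (h.2 d hd).1 fun e he => s6_fib22 ((h.2 d hd).2 e he)
  obtain ⟨p, hp, inj, com, cen⟩ := s6_line FY.ts (f2.2.2 z hz)
  have mem : p 1 * p 2 * p 3 * p 4 * p 5 ∈ closure (Dd (Dd (Dd E x) y) z) :=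
    mul_mem (mul_mem (mul_mem (mul_mem (subset_closure (hp 1)) (subset_closure (hp 2)))
      (subset_closure (hp 3))) (subset_closure (hp 4))) (subset_closure (hp 5))
  have k := (((hk.dd specK h.1 (k_fib h.1 b3) hx).dd specK f3.1 (b3 x hx) hy).dd specK f2.1
    (s6_fib22 f2) hz) _ mem cen
  have hE : ∀ i, p i ∈ E := fun i => (hp i).1.1.1
  have ne : ∀ {i j}, i ≠ j → p i ≠ p j := fun h => inj.ne h
  have m2 : ∀ i, i ≠ 1 → p i ∈ Dd E (p 1) := fun i h1 => ⟨hE i, ne h1, com _ _⟩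
  have m3 : ∀ i, i ≠ 1 → i ≠ 2 → p i ∈ Dd (Dd E (p 1)) (p 2) := fun i h1 h2 =>
    ⟨m2 i h1, ne h2, com _ _⟩
  obtain ⟨a, ha, a4, a5⟩ := (((h.2 _ (hE 1)).2 _ (m2 2 (by decide))).2.1 _
    (m3 3 (by decide) (by decide))).V (p 4) ⟨m3 4 (by decide) (by decide), ne (by decide), com _ _⟩
    (p 5) ⟨m3 5 (by decide) (by decide), ne (by decide), com _ _⟩ (ne (by decide))
  have ac : Commute a (p 1 * p 2 * p 3 * p 4 * p 5 * p 5) := by
    rw [mul_assoc _ (p 5), T.sq (hE 5), mul_one]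
    exact (((ha.1.1.2.2.mul_left ha.1.2.2).mul_left ha.2.2).mul_left a4).symm
  have hy' := hy.1
  have hz' := hz.1.1
  have n1 := (hp 5).1.1.2
  have n2 := (hp 5).1.2
  have n3 := (hp 5).2
  have main : p 1 * p 2 * p 3 * p 4 * p 5 = x * y * z := by
    obtain ⟨s, t, r, hs, ht, hr, e⟩ := s6_form (T.sq hx) (T.sq hy') (T.sq hz') hy.2.2 hz.1.2.2
      hz.2.2 (by simpa using k)
    rw [e] at ac ⊢
    have aE := ha.1.1.1
    rcases hs with rfl | rfl <;> rcases ht with rfl | rfl <;> rcases hr with rfl | rfl <;>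
      simp only [one_mul, mul_one] at ac ⊢
    · exact absurd ac.symm a5
    · exact absurd ((T.cent2 hz' (hE 5) aE n3.1.symm n3.2).1 ac).2.symm a5
    · exact absurd ((T.cent2 hy' (hE 5) aE n2.1.symm n2.2).1 ac).2.symm a5
    · exact absurd ((T.cent3 hy' hz' (hE 5) aE hz.2.1.symm n2.1.symm n3.1.symm hz.2.2 n2.2 n3.2).1
        ac).2.2.symm a5
    · exact absurd ((T.cent2 hx (hE 5) aE n1.1.symm n1.2).1 ac).2.symm a5
    · exact absurd ((T.cent3 hx hz' (hE 5) aE hz.1.2.1.symm n1.1.symm n3.1.symm hz.1.2.2 n1.2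
        n3.2).1 ac).2.2.symm a5
    · exact absurd ((T.cent3 hx hy' (hE 5) aE hy.2.1.symm n1.1.symm n2.1.symm hy.2.2 n1.2
        n2.2).1 ac).2.2.symm a5
  obtain ⟨g, hg, e⟩ := FY.cls (p 0) (hp 0) c hc
  refine ⟨fun i => g * p i * g⁻¹, fun i hi => ⟨FY.ts.conj_mem hg (hp i), ?_, ?_⟩, ?_⟩
  · rw [← e]
    exact fun h1 => ne hi (by simpa using h1)
  · rw [← e, commute_conj_iff]
    exact com _ _
  · rw [← centralizer_closure] at cen
    rw [← main, ← mul_inv_eq_iff_eq_mul.2 (cen g hg)]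
    group

theorem s6_eight (F : Fi E) {x y z : G} (hx : x ∈ E) (hy : y ∈ Dd E x) (hz : z ∈ Dd (Dd E x) y) :
    8 ∣ Nat.card (closure ({z, y, x} : Set G)) := by
  have T := F.ts
  have hy' := hy.1
  have hz' := hz.1.1
  have hp : IsPGroup 2 (closure ({z, y, x} : Set G)) := fun g => ⟨1, Subtype.ext (by
    obtain ⟨s, t, r, hs, ht, hr, e⟩ := s6_form (T.sq hx) (T.sq hy') (T.sq hz') hy.2.2 hz.1.2.2
      hz.2.2 g.2
    have c1 : Commute s t := by rcases hs with rfl | rfl <;> rcases ht with rfl | rfl <;> simp [hy.2.2]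
    have c2 : Commute (s * t) r := by
      rcases hs with rfl | rfl <;> rcases ht with rfl | rfl <;> rcases hr with rfl | rfl <;>
        simp [hz.2.2, hz.1.2.2, hz.1.2.2.mul_left hz.2.2]
    have s1 : s ^ 2 = 1 := by rcases hs with rfl | rfl <;> simp [pow_two, T.sq hx]
    have s2 : t ^ 2 = 1 := by rcases ht with rfl | rfl <;> simp [pow_two, T.sq hy']
    have s3 : r ^ 2 = 1 := by rcases hr with rfl | rfl <;> simp [pow_two, T.sq hz']
    simp only [pow_one, SubmonoidClass.coe_pow, e, OneMemClass.coe_one]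
    rw [c2.mul_pow, c1.mul_pow, s1, s2, s3, one_mul, one_mul])⟩
  obtain ⟨n, hn⟩ := hp.exists_card_eq
  obtain ⟨a, ha, a1, a2⟩ := F.V z hz' x hx hz.1.2.1.symm
  have e1 : x * y ≠ z := fun e => a2 ((T.cent2 hx hy' ha hy.2.1.symm hy.2.2).1 (e ▸ a1.symm)).1.symm
  have e2 : x * y ≠ 1 := fun e => hy.2.1 (by rw [← T.cancel hx y, e, mul_one])
  have sub : ({x * y, 1, x, y, z} : Set G) ⊆ closure ({z, y, x} : Set G) := by
    rintro t (rfl | rfl | rfl | rfl | rfl)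
    · exact mul_mem (subset_closure (by simp)) (subset_closure (by simp))
    · exact one_mem _
    all_goals exact subset_closure (by simp)
  have h5 := Set.ncard_le_ncard sub (Set.toFinite _)
  rw [Set.ncard_insert_of_notMem (by simp [e1, e2, T.ne_one hx, T.ne_one hy']),
    Set.ncard_insert_of_notMem (by simp [(T.ne_one hx).symm, (T.ne_one hy').symm, (T.ne_one hz').symm]),
    Set.ncard_insert_of_notMem (by simp [hy.2.1.symm, hz.1.2.1.symm]), Set.ncard_pair hz.2.1.symm,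
    ← Nat.card_coe_set_eq] at h5
  change 5 ≤ Nat.card (closure ({z, y, x} : Set G)) at h5
  rw [hn] at h5 ⊢
  refine pow_dvd_pow 2 (show 3 ≤ n from ?_)
  by_contra h
  have : n ≤ 2 := by omega
  interval_cases n <;> omega

theorem specS6 (hU6 : SpecU6.{u}) : SpecS6.{u} := fun G _ _ E hg hZ h x hx y hy z hz => by
  have hcz : centralizer E = ⊥ := by rw [← centralizer_closure, hg, coe_top, centralizer_univ, hZ]
  have hk : Ker E ∅ := fun g _ h => by rw [hcz, mem_bot] at h; exact h ▸ one_mem _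
  have f2 := (h.2 x hx).2 y hy
  obtain ⟨c, hc, -⟩ := (f2.2.1 z hz).exn
  refine s6_sg fun h1 => (hU6 _ _ (f2.2.1 z hz).ts.s6l (f2.2.2 z hz).s6l).2.2 ?_
  obtain ⟨p, hp, e1⟩ := s6_oct hk h hx hy hz hc
  obtain ⟨q, hq, e2⟩ := s6_oct hk h hx hy hc.1 (c := z) ⟨hz, hc.2.1.symm, hc.2.2.symm⟩
  obtain ⟨r, hr, e3⟩ := s6_oct hk h hx hz.1 (z := c) ⟨hc.1.1, hc.2⟩ (c := y)
    ⟨⟨hy, hz.2.1.symm, hz.2.2.symm⟩, hc.1.2.1.symm, hc.1.2.2.symm⟩
  set Y := Dd (Dd (Dd E x) y) z with hY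
  have o1 := s6_five (Y := Y) fun i hi => (hp i hi).1
  have o2 := s6_five (Y := Y) fun i hi => ⟨(hq i hi).1.1, (hq i hi).2⟩
  have o3 := s6_five (Y := Y) fun i hi => ⟨⟨(hr i hi).1.1.1, (hr i hi).2⟩, (hr i hi).1.1.2⟩
  rw [e1] at o1
  rw [e2] at o2
  rw [e3] at o3
  have oc : (c, (-1 : ℤˣ)) ∈ closure (s6l Y) := subset_closure ⟨hc, rfl⟩
  have oz : (z, (-1 : ℤˣ)) ∈ closure (s6l Y) := by
    simpa [mul_assoc] using mul_mem oc (mul_mem (inv_mem o2) o1)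
  have oy : (y, (-1 : ℤˣ)) ∈ closure (s6l Y) := by
    rw [mul_assoc, hz.2.2.eq] at o1
    simpa [mul_assoc] using mul_mem oc (mul_mem (inv_mem o3) o1)
  have ox : (x, (-1 : ℤˣ)) ∈ closure (s6l Y) := by
    simpa [mul_assoc] using mul_mem (mul_mem o1 (inv_mem oz)) (inv_mem oy)
  have oe : ((1 : G), (-1 : ℤˣ)) ∈ closure (s6l Y) := by
    refine (closure_le _).2 ?_ h1
    rintro ⟨t, s⟩ ⟨ht | rfl | rfl | rfl, rfl : s = -1⟩
    exacts [subset_closure ⟨ht, rfl⟩, oz, oy, ox]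
  have le1 : closure ({z, y, x} : Set G) ≤ (closure (s6l Y)).comap (MonoidHom.inl G ℤˣ) := by
    refine (closure_le _).2 ?_
    rintro t (rfl | rfl | rfl)
    · simpa using mul_mem oz oe
    · simpa using mul_mem oy oe
    · simpa using mul_mem ox oe
  have le2 : closure ({z, y, x} : Set G) ≤ centralizer Y := by
    refine (closure_le _).2 ?_
    rintro t (rfl | rfl | rfl)
    exacts [fun w hw => hw.2.2.symm, fun w hw => hw.1.2.2.symm, fun w hw => hw.1.1.2.2.symm]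
  have le : (closure ({z, y, x} : Set G)).prod (⊤ : Subgroup ℤˣ) ≤
      centralizer (s6l Y) ⊓ closure (s6l Y) := by
    rintro ⟨t, s⟩ ⟨ht, -⟩
    refine ⟨fun w hw => s6_comm.2 (le2 ht _ hw.1), ?_⟩
    rcases Int.units_eq_one_or s with rfl | rfl
    · exact le1 ht
    · simpa using mul_mem (mem_comap.1 (le1 ht)) oe
  refine dvd_trans ?_ (card_dvd_of_le le)
  rw [Nat.card_congr (prodEquiv _ _).toEquiv, Nat.card_prod, card_top, Nat.card_eq_fintype_card (α := ℤˣ),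
    Fintype.card_units_int]
  exact Nat.mul_dvd_mul_right (s6_eight h.1 hx hy hz) 2

end CfsgFI
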