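import Cfsg.Agent.FI.SO1

/-! Locally symplectic, globally not symplectic: the local geometry is that of `E₆`. -/

set_option autoImplicit false

namespace CfsgFI

open Subgroup CfsgH4

universe u

namespace SO

variable {G : Type*} [Group G] {E : Set G}

/-- an affine plane spanned by `a` and a line `p, q` in the perp of `d` -/
structure Pl (E : Set G) (d a p q : G) : Prop where
  hd : d ∈ E
  ha : a ∈ E
  hp : p ∈ E
  hq : q ∈ E
  pq : ¬ Commute p q
  ap : ¬ Commute a p
  aq : ¬ Commute a q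
  ar : ¬ Commute a (p * q * p)
  dp : Commute d p
  dq : Commute d q

variable {d a p q : G}

theorem Pl.swap (T : TS E) (h : Pl E d a p q) : Pl E d a q p :=
  ⟨h.hd, h.ha, h.hq, h.hp, fun k => h.pq k.symm, h.aq, h.ap, by
    rw [← T.braid h.hp h.hq h.pq]; exact h.ar, h.dq, h.dp⟩

theorem Pl.third (T : TS E) (h : Pl E d a p q) : Pl E d a (p * q * p) p :=
  ⟨h.hd, h.ha, T.cl p h.hp q h.hq, h.hp, fun k => T.third_nc_left h.hp h.pq k.symm, h.ar, h.ap, by
    rw [← T.braid h.hp (T.cl p h.hp q h.hq) (T.third_nc_left h.hp h.pq), T.cj_cj h.hp]; exact h.aq,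
    (h.dp.mul_right h.dq).mul_right h.dp, h.dp⟩

theorem Pl.conj (T : TS E) (h : Pl E d a p q) {k : G} (hk : k ∈ closure E) :
    Pl E (k * d * k⁻¹) (k * a * k⁻¹) (k * p * k⁻¹) (k * q * k⁻¹) :=
  ⟨T.conj_mem hk h.hd, T.conj_mem hk h.ha, T.conj_mem hk h.hp, T.conj_mem hk h.hq,
    fun e => h.pq (commute_conj_iff.1 e), fun e => h.ap (commute_conj_iff.1 e),
    fun e => h.aq (commute_conj_iff.1 e), fun e => h.ar (by
      rw [show k * p * k⁻¹ * (k * q * k⁻¹) * (k * p * k⁻¹) = k * (p * q * p) * k⁻¹ by group] at e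
      exact commute_conj_iff.1 e), commute_conj_iff.2 h.dp, commute_conj_iff.2 h.dq⟩

variable (T : TS E) (hS : ∀ d ∈ E, Sym (Dd E d))
include hS

theorem Pl.noperp (h : Pl E d a p q) {e : G} (he : e ∈ E) (h1 : Commute e a) (h2 : Commute e p)
    (h3 : Commute e q) : False := by
  rcases hS e he p ⟨h.hp, fun k => h.pq (k ▸ h3), h2⟩ q ⟨h.hq, fun k => h.pq (k ▸ h2).symm, h3⟩
    a ⟨h.ha, fun k => h.ap (k ▸ h2), h1⟩ h.pq with k | k | k
  exacts [h.ap k, h.aq k, h.ar k]

theorem Pl.da (h : Pl E d a p q) : ¬ Commute d a := fun k => h.noperp hS h.hd k h.dp h.dq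

theorem Pl.mem (h : Pl E d a p q) {e : G} (he : e ∈ Xs E d a) : e ∈ Dd E d :=
  ⟨he.1, fun k => h.da hS (k ▸ he.2.2).symm, he.2.1⟩

omit hS in
theorem Pl.mem_q (h : Pl E d a p q) : q ∈ Dd E d := ⟨h.hq, fun k => h.pq (k ▸ h.dp).symm, h.dq⟩

omit hS in
theorem Pl.mem_p (h : Pl E d a p q) : p ∈ Dd E d := ⟨h.hp, fun k => h.pq (k ▸ h.dq), h.dp⟩

theorem Pl.one (h : Pl E d a p q) {e : G} (he : e ∈ Xs E d a) :
    Commute e p ∨ Commute e q ∨ Commute e (p * q * p) :=
  hS d h.hd p h.mem_p q h.mem_q e (h.mem hS he) h.pq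

include T

theorem Pl.clique (h : Pl E d a p q) {e e' : G} (he : e ∈ Xs E d a) (he' : e' ∈ Xs E d a)
    (h1 : Commute e p) (h2 : Commute e' p) : Commute e e' := by
  by_contra hn
  have k := (T.xs d a).cl e he e' he'
  rcases hS d h.hd e (h.mem hS he) e' (h.mem hS he') q h.mem_q hn with k1 | k1 | k1
  · exact h.noperp hS he.1 he.2.2.symm h1 k1.symm
  · exact h.noperp hS he'.1 he'.2.2.symm h2 k1.symm
  · exact h.noperp hS k.1 k.2.2.symm ((h1.mul_left h2).mul_left h1) k1.symm

theorem Pl.four (h : Pl E d a p q) {x y z w : G} (hx : x ∈ Xs E d a) (hy : y ∈ Xs E d a)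
    (hz : z ∈ Xs E d a) (hw : w ∈ Xs E d a) (h1 : ¬ Commute x y) (h2 : ¬ Commute x z)
    (h3 : ¬ Commute x w) (h4 : ¬ Commute y z) (h5 : ¬ Commute y w) (h6 : ¬ Commute z w) : False := by
  have c1 := fun {e e'} => h.clique T hS (e := e) (e' := e')
  have c2 := fun {e e'} => (h.swap T).clique T hS (e := e) (e' := e')
  have c3 := fun {e e'} => (h.third T).clique T hS (e := e) (e' := e')
  rcases h.one hS hx with a1 | a1 | a1 <;> rcases h.one hS hy with a2 | a2 | a2 <;>
    rcases h.one hS hz with a3 | a3 | a3 <;> rcases h.one hS hw with a4 | a4 | a4 <;>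
    first
    | exact h1 (c1 hx hy a1 a2) | exact h1 (c2 hx hy a1 a2) | exact h1 (c3 hx hy a1 a2)
    | exact h2 (c1 hx hz a1 a3) | exact h2 (c2 hx hz a1 a3) | exact h2 (c3 hx hz a1 a3)
    | exact h3 (c1 hx hw a1 a4) | exact h3 (c2 hx hw a1 a4) | exact h3 (c3 hx hw a1 a4)
    | exact h4 (c1 hy hz a2 a3) | exact h4 (c2 hy hz a2 a3) | exact h4 (c3 hy hz a2 a3)
    | exact h5 (c1 hy hw a2 a4) | exact h5 (c2 hy hw a2 a4) | exact h5 (c3 hy hw a2 a4)
    | exact h6 (c1 hz hw a3 a4) | exact h6 (c2 hz hw a3 a4) | exact h6 (c3 hz hw a3 a4)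

theorem Pl.claw {x y e : G} (h : Pl E d a x y) (he' : e ∈ Xs E d a) (ex : Commute e x) :
    ∃ g, Gr (Dd E d) 4 (tb nD4) g ∧ g 1 ≠ g 2 ∧ g 1 ≠ g 3 ∧ g 2 ≠ g 3 := by
  obtain ⟨he, de, ae⟩ := he'
  have hx := h.hp
  have hy := h.hq
  have ey : ¬ Commute e y := fun k => h.noperp hS he ae.symm ex k
  have hz := T.cl x hx y hy
  have ez : ¬ Commute e (x * y * x) := fun k => ey (T.line_b hx ex k)
  set w := e * (x * y * x) * e with hw
  have hwE : w ∈ E := T.cl e he _ hz
  have yw : Commute y w := T.s4 he hx hy ex ey h.pq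
  have aw : ¬ Commute a w := fun k => h.ar ((T.cj_right he ae.symm).1 k)
  have xw : ¬ Commute x w := fun k => T.third_nc_left hx h.pq ((T.cj_right he ex).1 k)
  have dw : Commute d w :=
    (de.mul_right ((h.dp.mul_right h.dq).mul_right h.dp)).mul_right de
  have n1 : y ≠ w := fun k => by
    have k1 : e * y * e = x * y * x := by nth_rewrite 1 [k]; exact T.cj_cj he _
    rw [T.braid he hy ey, T.braid hx hy h.pq] at k1
    exact h.ap ((mul_left_cancel (mul_right_cancel k1) : e = x) ▸ ae)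
  have n2 : d ≠ w := fun k => xw (k ▸ h.dp.symm)
  obtain ⟨l, hl, dl, yl, wl, -, l1, l2, l3, k, -⟩ := T.leaf4 h.ha h.hd hy hwE h.mem_q.2.1.symm n2 n1
    h.dq dw yw (fun k => h.da hS k.symm) h.aq aw
  have xl : ¬ Commute x l := fun xl => by
    have zl : Commute (x * y * x) l := (xl.mul_left yl).mul_left xl
    have el : Commute e l := by
      refine (T.line_a he hz ez zl.symm wl.symm).symm
    have e1 : d * y * w * l = y * w * (d * l) := by
      rw [mul_assoc d, (h.dq.mul_right dw).eq, mul_assoc]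
    rw [e1] at k
    have k2 := k.mul_right ((T.cj_right he ae.symm).2 k)
    have c1 : Commute (d * l) e := de.mul_left el.symm
    have c2 : Commute (d * l) (y * w) := (h.dq.mul_right dw).mul_left (yl.mul_left wl).symm
    have c3 : d * l * (d * l) = 1 := by
      rw [mul_assoc, ← mul_assoc l, ← dl.eq, mul_assoc, T.sq hl, mul_one, T.sq h.hd]
    have b1 : ∀ t, y * (x * (y * t)) = x * (y * (x * t)) := fun t => by
      simp only [← mul_assoc, T.braid hx hy h.pq]
    have b2 : ∀ t, e * (y * (e * t)) = y * (e * (y * t)) := fun t => by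
      simp only [← mul_assoc, T.braid he hy ey]
    have b3 : ∀ t, x * (e * t) = e * (x * t) := fun t => by simp only [← mul_assoc, ex.eq]
    have e2 : y * w * e * (y * w) * e = e * x := by
      simp only [hw, mul_assoc, T.cancel he, T.sq he, mul_one]
      rw [b1, T.cancel hx, b3, T.cancel hx, b2, T.cancel hy, T.cancel hy]
    have e3 : y * w * (d * l) * (e * (y * w * (d * l)) * e) = e * x := by
      rw [← e2]
      generalize y * w = u at c2
      generalize d * l = c at c1 c2 c3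
      calc u * c * (e * (u * c) * e) = u * (c * (e * u)) * (c * e) := by simp only [mul_assoc]
        _ = u * e * u * (c * c) * e := by rw [(c1.mul_right c2).eq]; simp only [mul_assoc]
        _ = _ := by rw [c3, mul_one]
    rw [e3] at k2
    exact h.ap (by simpa [T.cancel he] using ae.mul_right k2)
  refine ⟨fun i => [x, y, w, l].getD i 1, ⟨fun i hi => ?_, fun i hi j hj => ?_⟩, n1, l2.symm, l3.symm⟩
  · interval_cases i
    exacts [h.mem_p, h.mem_q, ⟨hwE, n2.symm, dw⟩, ⟨hl, l1, dl⟩]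
  · have t1 := nc_true.2 h.pq
    have t2 := nc_true.2 xw
    have t3 := nc_true.2 xl
    have t4 := nc_false.2 yw
    have t5 := nc_false.2 yl
    have t6 := nc_false.2 wl
    have t0 : ∀ v : G, nc v v = false := fun v => nc_false.2 (Commute.refl v)
    interval_cases i <;> interval_cases j <;>
      first
      | exact (t0 _).trans (by decide)
      | exact t1.trans (by decide) | exact t2.trans (by decide) | exact t3.trans (by decide)
      | exact t4.trans (by decide) | exact t5.trans (by decide) | exact t6.trans (by decide)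
      | exact ((nc_comm _ _).trans t1).trans (by decide)
      | exact ((nc_comm _ _).trans t2).trans (by decide)
      | exact ((nc_comm _ _).trans t3).trans (by decide)
      | exact ((nc_comm _ _).trans t4).trans (by decide)
      | exact ((nc_comm _ _).trans t5).trans (by decide)
      | exact ((nc_comm _ _).trans t6).trans (by decide)

end SO

open SO in
theorem specSO : SpecSO.{u} := by
  intro G _ _ E F L hS hn d hd
  have T := F.toTS
  obtain ⟨d0, a0, p0, q0, h0⟩ : ∃ d a p q, Pl E d a p q := by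
    simp only [Sym, not_forall, not_or] at hn
    obtain ⟨x, hx, y, hy, a, ha, h1, h2, h3, h4⟩ := hn
    obtain ⟨e, he, h5, h6⟩ := F.mu x hx y hy h1
    exact ⟨e, a, x, y, he, ha, hx, hy, h1, h2, h3, h4, h5.symm, h6.symm⟩
  have tr1 : ∀ d ∈ E, ∃ a p q, Pl E d a p q := fun d hd => by
    obtain ⟨g, hg, rfl⟩ := F.cls d0 h0.hd d hd
    exact ⟨_, _, _, h0.conj T hg⟩
  have tr2 : ∀ d ∈ E, ∀ a ∈ E, ¬ Commute d a → ∃ p q, Pl E d a p q := fun d hd a ha h => by
    obtain ⟨b, p, q, h1⟩ := tr1 d hd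
    obtain ⟨k, hk, rfl⟩ := F.HR d hd b h1.ha a ha (h1.da hS) h
    have := h1.conj T (closure_mono (fun _ h => h.1) hk)
    rw [conj_eq_of_commute (commute_of_mem_perp hk)] at this
    exact ⟨_, _, this⟩
  have P : NoP (Dd E d) := fun r hr => by
    have t : ∀ i j, i < 6 → j < 6 → tb nP4 i j = true → ¬ Commute (r i) (r j) :=
      fun i j hi hj h => nc_true.1 ((hr.2 i hi j hj).trans h)
    have m : ∀ i, i < 6 → tb nP4 0 i = false → tb nP4 1 i = false → r i ∈ Xs E (r 0) (r 1) :=
      fun i hi h1 h2 => ⟨(hr.1 i hi).1, nc_false.1 ((hr.2 0 (by omega) i hi).trans h1),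
        nc_false.1 ((hr.2 1 (by omega) i hi).trans h2)⟩
    obtain ⟨p, q, h⟩ := tr2 _ (hr.1 0 (by omega)).1 _ (hr.1 1 (by omega)).1
      (t 0 1 (by omega) (by omega) (by decide))
    exact h.four T hS (m 2 (by omega) (by decide) (by decide)) (m 3 (by omega) (by decide) (by decide))
      (m 4 (by omega) (by decide) (by decide)) (m 5 (by omega) (by decide) (by decide))
      (t 2 3 (by omega) (by omega) (by decide)) (t 2 4 (by omega) (by omega) (by decide))
      (t 2 5 (by omega) (by omega) (by decide)) (t 3 4 (by omega) (by omega) (by decide))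
      (t 3 5 (by omega) (by omega) (by decide)) (t 4 5 (by omega) (by omega) (by decide))
  obtain ⟨a, p, q, h⟩ := tr1 d hd
  obtain ⟨e, he⟩ := F.mu d hd a h.ha (h.da hS)
  obtain ⟨g, hg, h1, h2, h3⟩ : ∃ g, Gr (Dd E d) 4 (tb nD4) g ∧ g 1 ≠ g 2 ∧ g 1 ≠ g 3 ∧ g 2 ≠ g 3 := by
    rcases h.one hS he with k | k | k
    · exact h.claw T hS he k
    · exact (h.swap T).claw T hS he k
    · exact (h.third T).claw T hS he k
  obtain ⟨r, hr⟩ := exists_E6 (L d hd) (hS d hd) P hg h1 h2 h3
  exact ort_of_E6 (L d hd) (hS d hd) P hr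

end CfsgFI
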