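import Cfsg.Agent.FI.B0

/-! Symplectic spaces with a claw and no large star in the perp of a line: the `E₆` geometry. -/

set_option autoImplicit false

namespace CfsgFI.SO

open Subgroup CfsgH4

variable {G : Type*} [Group G]

open Classical in
/-- non-commuting, as a Boolean -/
noncomputable def nc (a b : G) : Bool := decide (¬ Commute a b)

theorem nc_true {a b : G} : nc a b = true ↔ ¬ Commute a b := by simp [nc]
theorem nc_false {a b : G} : nc a b = false ↔ Commute a b := by simp [nc]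
theorem nc_comm (a b : G) : nc a b = nc b a := by
  simp only [nc]; exact decide_eq_decide.2 (not_congr ⟨Commute.symm, Commute.symm⟩)

/-- pairing of a bit vector with a pattern -/
def lin (v : ℕ) (π : ℕ → Bool) (n : ℕ) : Bool :=
  Nat.rec false (fun i acc => xor acc (v.testBit i && π i)) n

theorem lin_succ (v : ℕ) (π : ℕ → Bool) (n : ℕ) :
    lin v π (n + 1) = xor (lin v π n) (v.testBit n && π n) := rfl

theorem lin_congr {v : ℕ} {π π' : ℕ → Bool} {n : ℕ} (h : ∀ i < n, π i = π' i) :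
    lin v π n = lin v π' n := by
  induction n with
  | zero => rfl
  | succ n ih => rw [lin_succ, lin_succ, ih fun i hi => h i (by omega), h n (by omega)]

theorem lin_xor (v w : ℕ) (π : ℕ → Bool) (n : ℕ) :
    lin (v ^^^ w) π n = xor (lin v π n) (lin w π n) := by
  induction n with
  | zero => rfl
  | succ n ih =>
    rw [lin_succ, lin_succ, lin_succ, ih, Nat.testBit_xor]
    generalize lin v π n = a, lin w π n = b, v.testBit n = c, w.testBit n = d, π n = e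
    revert a b c d e; decide

theorem lin_pow (i : ℕ) (π : ℕ → Bool) (n : ℕ) : lin (2 ^ i) π n = (decide (i < n) && π i) := by
  induction n with
  | zero => simp [lin]
  | succ n ih =>
    rw [lin_succ, ih, Nat.testBit_two_pow]
    rcases lt_trichotomy i n with h | rfl | h
    · simp [h, h.ne, Nat.lt_succ_of_lt h]
    · simp
    · simp [h.ne', not_lt_of_gt h, show ¬ i < n + 1 by omega]

theorem lin_false (v n : ℕ) : lin v (fun _ => false) n = false := by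
  induction n with
  | zero => rfl
  | succ n ih => rw [lin_succ, ih]; simp

/-- points with a given diagram -/
def Gr (Y : Set G) (n : ℕ) (M : ℕ → ℕ → Bool) (g : ℕ → G) : Prop :=
  (∀ i < n, g i ∈ Y) ∧ ∀ i < n, ∀ j < n, nc (g i) (g j) = M i j

/-- the point `p` behaves like the sum `v` of generators -/
def Rep (Y : Set G) (n : ℕ) (g : ℕ → G) (v : ℕ) (p : G) : Prop :=
  p ∈ Y ∧ ∀ y ∈ Y, nc y p = lin v (fun i => nc y (g i)) n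

/-- the form -/
def bil (n : ℕ) (M : ℕ → ℕ → Bool) (v w : ℕ) : Bool := lin v (fun i => lin w (M i) n) n

/-- the transvection in `v` applied to `w` -/
def rf (n : ℕ) (M : ℕ → ℕ → Bool) (w v : ℕ) : ℕ := cond (bil n M w v) (v ^^^ w) w

/-- the vector of a word -/
def wv (n : ℕ) (M : ℕ → ℕ → Bool) (l : List ℕ) : ℕ :=
  l.tail.foldl (fun acc b => rf n M acc (2 ^ b)) (2 ^ l.headD 0)

/-- six words have the diagram `T` -/
def chk (n : ℕ) (M : ℕ → ℕ → Bool) (ws : List (List ℕ)) (T : ℕ → ℕ → Bool) : Bool :=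
  (List.range 6).all fun i => (ws.getD i []).all (· < n) && (List.range 6).all fun j =>
    bil n M (wv n M (ws.getD j [])) (wv n M (ws.getD i [])) == T i j

/-- extended diagram -/
def ext (M : ℕ → ℕ → Bool) (n c i j : ℕ) : Bool :=
  if i = n then (if j = n then false else c.testBit j) else if j = n then c.testBit i else M i j

/-- extended list of generators -/
def upd (g : ℕ → G) (n : ℕ) (y : G) (i : ℕ) : G := if i = n then y else g i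

/-- packed diagram -/
def tb (N i j : ℕ) : Bool := N.testBit (8 * i + j)

theorem exists_bits (π : ℕ → Bool) (n : ℕ) : ∃ c < 2 ^ n, ∀ i < n, π i = c.testBit i :=
  ⟨Nat.ofBits fun i : Fin n => π i, Nat.ofBits_lt_two_pow _, fun i hi => by
    rw [Nat.testBit_ofBits_lt _ _ hi]⟩

variable {Y : Set G} {n : ℕ} {M : ℕ → ℕ → Bool} {g : ℕ → G}

theorem Gr.extend (h : Gr Y n M g) {y : G} (hy : y ∈ Y) {c : ℕ}
    (hc : ∀ i < n, nc y (g i) = c.testBit i) : Gr Y (n + 1) (ext M n c) (upd g n y) := by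
  refine ⟨fun i hi => ?_, fun i hi j hj => ?_⟩
  · unfold upd; split_ifs with h1
    · exact hy
    · exact h.1 i (by omega)
  · unfold upd ext; split_ifs with h1 h2 h2
    · exact nc_false.2 (Commute.refl y)
    · exact hc j (by omega)
    · rw [nc_comm]; exact hc i (by omega)
    · exact h.2 i (by omega) j (by omega)

theorem nc_rep (h : Gr Y n M g) {v w : ℕ} {p q : G} (hp : Rep Y n g v p) (hq : Rep Y n g w q) :
    nc p q = bil n M w v := by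
  rw [hq.2 p hp.1]
  refine lin_congr fun j hj => ?_
  rw [nc_comm, hp.2 _ (h.1 j hj)]
  exact lin_congr fun i hi => h.2 j hj i hi

theorem nc_line (T : TS Y) (S : Sym Y) {a b x : G} (ha : a ∈ Y) (hb : b ∈ Y) (hx : x ∈ Y)
    (h : ¬ Commute a b) : nc x (a * b * a) = xor (nc x a) (nc x b) := by
  by_cases h1 : Commute x a <;> by_cases h2 : Commute x b
  · rw [nc_false.2 h1, nc_false.2 h2, nc_false.2 ((h1.mul_right h2).mul_right h1)]; rfl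
  · rw [nc_false.2 h1, nc_true.2 h2, nc_true.2 fun h3 => h2 (T.line_b ha h1 h3)]; rfl
  · rw [nc_true.2 h1, nc_false.2 h2, nc_true.2 fun h3 => h1 (T.line_a ha hb h h2 h3)]; rfl
  · rw [nc_true.2 h1, nc_true.2 h2,
      nc_false.2 (((S a ha b hb x hx h).resolve_left h1).resolve_left h2)]; rfl

theorem rep_conj (T : TS Y) (S : Sym Y) (h : Gr Y n M g) {v w : ℕ} {p q : G}
    (hp : Rep Y n g v p) (hq : Rep Y n g w q) : Rep Y n g (rf n M w v) (p * q * p) := by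
  rw [rf, ← nc_rep h hp hq]
  by_cases h1 : Commute p q
  · rw [nc_false.2 h1, T.cj_eq hp.1 h1]; exact hq
  · rw [nc_true.2 h1]
    exact ⟨T.cl p hp.1 q hq.1, fun y hy => by
      rw [nc_line T S hp.1 hq.1 hy h1, hp.2 y hy, hq.2 y hy]; exact (lin_xor _ _ _ _).symm⟩

theorem rep_gen (h : Gr Y n M g) {i : ℕ} (hi : i < n) : Rep Y n g (2 ^ i) (g i) :=
  ⟨h.1 i hi, fun y _ => by rw [lin_pow]; simp [hi]⟩

theorem rep_wv (T : TS Y) (S : Sym Y) (h : Gr Y n M g) (hn : 0 < n) (l : List ℕ)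
    (hl : l.all (· < n) = true) : ∃ p, Rep Y n g (wv n M l) p := by
  have key : ∀ (l : List ℕ) (w : ℕ) (q : G), (∀ b ∈ l, b < n) → Rep Y n g w q →
      ∃ p, Rep Y n g (l.foldl (fun acc b => rf n M acc (2 ^ b)) w) p := by
    intro l
    induction l with
    | nil => exact fun w q _ hq => ⟨q, hq⟩
    | cons b l ih =>
      exact fun w q hb hq => ih _ _ (fun c hc => hb c (List.mem_cons_of_mem _ hc))
        (rep_conj T S h (rep_gen h (hb b List.mem_cons_self)) hq)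
  simp only [List.all_eq_true, decide_eq_true_eq] at hl
  refine key _ _ _ (fun b hb => hl b (List.mem_of_mem_tail hb)) (rep_gen h ?_)
  cases l with
  | nil => exact hn
  | cons a l => exact hl a List.mem_cons_self

theorem realize (T : TS Y) (S : Sym Y) (h : Gr Y n M g) (hn : 0 < n) {ws : List (List ℕ)}
    {N : ℕ → ℕ → Bool} (hc : chk n M ws N = true) :
    ∃ r, Gr Y 6 N r ∧ ∀ i < 6, Rep Y n g (wv n M (ws.getD i [])) (r i) := by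
  simp only [chk, List.all_eq_true (l := List.range 6), List.mem_range, Bool.and_eq_true,
    beq_iff_eq] at hc
  have : ∀ i, ∃ p, i < 6 → Rep Y n g (wv n M (ws.getD i [])) p := fun i => by
    by_cases hi : i < 6
    · obtain ⟨p, hp⟩ := rep_wv T S h hn _ (hc i hi).1
      exact ⟨p, fun _ => hp⟩
    · exact ⟨1, fun h => absurd h hi⟩
  choose r hr using this
  exact ⟨r, ⟨fun i hi => (hr i hi).1, fun i hi j hj => by
    rw [nc_rep h (hr i hi) (hr j hj), (hc i hi).2 j hj]⟩, hr⟩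

/-- certificate table -/
def nD4 : ℕ := 16843022
/-- certificate table -/
def nE6 : ℕ := 4432744547586
/-- certificate table -/
def nP4 : ℕ := 30976180224258
/-- certificate table -/
def c2L : List (ℕ × List (List ℕ)) :=
  [(130,[[0],[1],[5],[0,1,2,5],[4],[0,1,3,5]]),
  (131,[[0],[1],[1,5],[0,2,5],[4],[0,3,5]]),
  (134,[[0],[1],[5],[0,1,3,5],[0,2,4,5,2],[0,2,3,5]]),
  (135,[[0],[1],[1,5],[0,3,5],[0,1,2,4,5,2],[0,1,2,3,5]]),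
  (146,[[0],[1],[5],[4],[0,1,3,5,4],[0,1,2,5]]),
  (147,[[0],[1],[1,5],[4],[0,3,5,4],[0,2,5]]),
  (150,[[0],[1],[5],[4],[0,1,3,5,4],[0,2,3,5]]),
  (151,[[0],[1],[1,5],[4],[0,3,5,4],[0,2,4,5]]),
  (162,[[0],[1],[5],[0,1,2,5],[2,4],[0,1,3,5]]),
  (163,[[0],[1],[1,5],[0,2,5],[2,4],[0,3,5]]),
  (166,[[0],[1],[5],[2,4],[0,1,3,4,5,2],[0,1,4,5]]),
  (167,[[0],[1],[1,5],[2,4],[0,3,4,5,2],[0,4,5]]),
  (178,[[0],[1],[5],[2,4],[0,1,2,3,5,4],[0,1,2,5]]),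
  (179,[[0],[1],[1,5],[2,4],[0,2,3,5,4],[0,2,5]]),
  (182,[[0],[1],[5],[0,1,3,5],[0,2,5,4],[0,2,3,5]]),
  (183,[[0],[1],[1,5],[0,3,5],[0,1,2,5,4],[0,1,2,3,5]]),
  (388,[[0],[1],[0,1,2],[4],[0,1,2,3,0,5,2,4],[5]]),
  (389,[[0],[1],[0,1,2],[4],[2,4,5],[2,4,3]]),
  (390,[[0],[1],[5],[2,4,3],[0,2,4,5,2],[0,1,3,5]]),
  (391,[[0],[1],[1,5],[0,3,5],[4],[2,4,3]]),
  (404,[[0],[1],[0,1,2],[4],[4,5],[2,4,3]]),
  (405,[[0],[1],[0,1,2],[4],[0,1,2,3,0,5,4],[2,5]]),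
  (406,[[0],[1],[5],[4],[0,2,3,5,4],[0,1,3,5]]),
  (407,[[0],[1],[1,5],[4],[0,1,2,3,5,4],[0,3,5]]),
  (420,[[0],[1],[0,1,2],[5],[2,4,5],[3,4]]),
  (421,[[0],[1],[0,1,2],[2,4],[0,1,3,5,0,4],[2,5]]),
  (422,[[0],[1],[5],[2,4],[0,2,3,4,5,2],[0,1,3,5]]),
  (423,[[0],[1],[1,5],[2,4],[0,1,2,3,4,5,2],[0,3,5]]),
  (436,[[0],[1],[0,1,2],[5],[3,4,5],[2,4]]),
  (437,[[0],[1],[0,1,2],[2,4],[4,5],[3,4]]),
  (438,[[0],[1],[5],[3,4],[0,2,5,4],[0,1,3,5]]),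
  (439,[[0],[1],[1,5],[3,4],[0,1,2,5,4],[0,3,5]])]
/-- certificate table -/
def cAL : List (ℕ × List (List ℕ)) :=
  [(1,[[0],[1],[3],[4],[0,1,2,3,7],[0,1,2,3,5,7]]),
  (3,[[0],[1],[3],[4],[1,2,3,7],[1,2,3,5,7]]),
  (5,[[0],[1],[3],[4],[1,2,3,6,7],[1,2,3,4,7,2]]),
  (7,[[0],[1],[3],[4],[0,1,2,3,6,7],[0,1,2,3,4,7,2]]),
  (9,[[0],[1],[3],[4],[0,1,6,7,3],[1,2,3,4,6,7]]),
  (11,[[0],[1],[3],[4],[1,6,7,3],[0,1,2,3,4,6,7]]),
  (13,[[0],[1],[3],[4],[0,1,6,7,3],[0,1,2,3,4,7]]),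
  (15,[[0],[1],[3],[4],[1,6,7,3],[1,2,3,4,7]]),
  (17,[[0],[1],[3],[4],[0,1,2,7],[0,1,2,5,7]]),
  (19,[[0],[1],[3],[4],[1,2,7],[1,2,5,7]]),
  (21,[[0],[1],[3],[4],[1,2,6,7],[0,1,6,7,4]]),
  (23,[[0],[1],[3],[4],[1,6,7,4],[0,1,2,6,7]]),
  (25,[[0],[1],[3],[4],[0,1,6,7],[0,1,2,7,4]]),
  (27,[[0],[1],[3],[4],[1,6,7],[1,2,7,4]]),
  (29,[[0],[1],[3],[4],[0,1,6,7],[1,2,5,7,2]]),
  (31,[[0],[1],[3],[4],[1,6,7],[0,1,2,5,7,2]]),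
  (33,[[0],[1],[3],[4],[0,1,2,3,7],[1,2,3,5,6,7]]),
  (35,[[0],[1],[3],[4],[1,2,3,7],[0,1,2,3,5,6,7]]),
  (37,[[0],[1],[3],[4],[1,2,3,6,7],[0,1,2,3,5,7]]),
  (39,[[0],[1],[3],[4],[1,2,3,5,7],[0,1,2,3,6,7]]),
  (41,[[0],[1],[3],[4],[0,1,6,7,3],[0,1,6,7,3,5]]),
  (43,[[0],[1],[3],[4],[1,6,7,3],[1,6,7,3,5]]),
  (45,[[0],[1],[3],[4],[0,1,6,7,3],[0,1,2,3,4,7]]),
  (47,[[0],[1],[3],[4],[1,6,7,3],[1,2,3,4,7]]),
  (49,[[0],[1],[3],[4],[0,1,2,7],[0,1,6,7,4]]),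
  (51,[[0],[1],[3],[4],[1,2,7],[1,6,7,4]]),
  (53,[[0],[1],[3],[4],[1,2,6,7],[0,1,2,5,7]]),
  (55,[[0],[1],[3],[4],[1,2,5,7],[1,6,7,4]]),
  (57,[[0],[1],[3],[4],[0,1,6,7],[0,1,2,7,4]]),
  (59,[[0],[1],[3],[4],[1,6,7],[1,2,7,4]]),
  (61,[[0],[1],[3],[4],[0,1,6,7],[0,1,6,7,5]]),
  (63,[[0],[1],[3],[4],[1,6,7],[1,6,7,5]]),
  (64,[[0],[1],[3],[4],[0,1,2,3,4,6,1,2],[0,1,2,3,6,1,7,6]]),
  (66,[[0],[1],[3],[4],[0,1,2,3,6,1,7],[0,1,2,3,4,6,1,2]]),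
  (68,[[0],[1],[3],[4],[2,3,7,6],[2,3,5,7,6]]),
  (70,[[0],[1],[3],[4],[2,3,7],[2,3,5,7]]),
  (72,[[0],[1],[3],[4],[3,7],[2,3,4,7,6]]),
  (74,[[0],[1],[3],[4],[3,7,6],[2,3,4,7]]),
  (76,[[0],[1],[3],[4],[3,7],[0,1,2,3,4,6,1,2]]),
  (78,[[0],[1],[3],[4],[3,7,6],[0,1,2,3,4,6,1,2]]),
  (80,[[0],[1],[3],[4],[4,7],[0,1,2,6,1,7,6]]),
  (82,[[0],[1],[3],[4],[4,7,6],[0,1,2,6,1,7]]),
  (84,[[0],[1],[3],[4],[4,7],[2,7,6]]),
  (86,[[0],[1],[3],[4],[2,7],[2,5,7]]),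
  (88,[[0],[1],[3],[4],[7],[0,1,2,3,4,6,1,2]]),
  (90,[[0],[1],[3],[4],[6,7],[0,1,2,5,7,1,2]]),
  (92,[[0],[1],[3],[4],[7],[2,7,4,6]]),
  (94,[[0],[1],[3],[4],[6,7],[2,7,4]]),
  (96,[[0],[1],[3],[4],[2,3,5,7,6],[0,1,2,3,4,6,1,2]]),
  (98,[[0],[1],[3],[4],[2,3,5,7],[0,1,2,3,6,1,7]]),
  (100,[[0],[1],[3],[4],[2,3,7,6],[0,1,2,3,4,6,1,2]]),
  (102,[[0],[1],[3],[4],[2,3,7],[0,1,2,3,4,6,1,2]]),
  (104,[[0],[1],[3],[4],[3,7],[3,7,5]]),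
  (106,[[0],[1],[3],[4],[3,7,6],[2,3,4,7]]),
  (108,[[0],[1],[3],[4],[3,7],[3,7,5]]),
  (110,[[0],[1],[3],[4],[3,7,6],[3,7,5,6]]),
  (112,[[0],[1],[3],[4],[4,7],[4,7,5]]),
  (114,[[0],[1],[3],[4],[2,5,7],[4,7,6]]),
  (116,[[0],[1],[3],[4],[4,7],[2,7,6]]),
  (118,[[0],[1],[3],[4],[2,7],[4,7,6]]),
  (120,[[0],[1],[3],[4],[7],[5,7]]),
  (122,[[0],[1],[3],[4],[6,7],[5,7,6]]),
  (124,[[0],[1],[3],[4],[7],[5,7]]),
  (126,[[0],[1],[3],[4],[6,7],[2,7,4]])]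
/-- certificate table -/
def cB : List (List ℕ) := [[0],[1],[3],[4],[0,1,2,3,6],[0,1,2,3,5,6]]
/-- certificate table -/
def cFL : List (ℕ × List (List ℕ)) :=
  [(1,[[0],[1],[2],[3],[4],[5]]),
  (2,[[0],[1],[2],[3],[4],[5]]),
  (3,[[0],[0,1],[2],[3],[4],[5]]),
  (4,[[5],[2],[1],[0],[1,2,3,4,5,2,3],[0,1,2,3,5,2,1]]),
  (5,[[1],[0],[0,1,2],[3],[4],[5]]),
  (6,[[1],[0],[0,1,2],[3],[4],[5]]),
  (7,[[0,1],[0],[1,2],[3],[4],[5]]),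
  (8,[[4],[3],[2],[1],[0],[5]]),
  (9,[[1,2,3,4,5,2,3],[0],[1],[2],[5],[0,1,2,3,5,2,1]]),
  (10,[[1],[0],[0,1,2,3],[5],[0,1,2,3,4,5,2,1,3,2,5],[4]]),
  (11,[[0,1,2,3,4,5,2,3],[0],[0,1],[2],[5],[0,1,2,3,5,2,1]]),
  (12,[[2],[1],[0],[0,1,2,3],[4],[1,2,3,4,5,2,3]]),
  (13,[[0],[1],[2,3],[5],[0,1,2,3,4,5,2,1,3,2,5],[4]]),
  (14,[[0,1,2,3,4,5,2,1,3],[1],[0],[0,1,2],[5],[1,2,3,5,2]]),
  (15,[[0],[0,1],[2,3],[5],[0,1,2,3,4,5,2,1,3,2,5],[4]]),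
  (16,[[4],[3],[2],[1],[0],[5]]),
  (17,[[0],[1],[2],[5],[0,1,2,3,4,5,2,1,3,2,5],[3]]),
  (18,[[0,1,2,3,5,2,1],[1],[0],[0,1,2,3,4],[5],[1,2,3,4,5,2]]),
  (19,[[0],[0,1],[2],[5],[0,1,2,3,4,5,2,1,3,2,5],[3]]),
  (20,[[3],[2],[1],[0],[0,1,2,3,4],[2,3,4,5]]),
  (21,[[1,2,3,5,2],[0],[1],[2,3,4],[5],[0,1,2,3,4,5,2,1]]),
  (22,[[1],[0],[0,1,2],[5],[0,1,2,3,4,5,2,1,3,2,5],[3]]),
  (23,[[0,1,2,3,5,2],[0],[0,1],[2,3,4],[5],[0,1,2,3,4,5,2,1]]),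
  (24,[[3],[2],[1],[0],[0,1,2,3,4],[2,3,4,5]]),
  (25,[[0],[1],[2],[5],[0,1,2,3,4,5,2,1,3,2,5],[3,4]]),
  (26,[[0,1,2,3,4,5,2,1],[1],[0],[0,1,2,3],[5],[1,2,3,5,2]]),
  (27,[[0],[0,1],[2],[5],[0,1,2,3,4,5,2,1,3,2,5],[3,4]]),
  (28,[[3,4],[2],[1],[0],[0,1,2,3],[2,3,5]]),
  (29,[[1,2,3,4,5,2],[0],[1],[2,3],[5],[0,1,2,3,5,2,1]]),
  (30,[[1],[0],[0,1,2],[5],[0,1,2,3,4,5,2,1,3,2,5],[3,4]]),
  (31,[[0,1,2,3,4,5,2],[0],[0,1],[2,3],[5],[0,1,2,3,5,2,1]]),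
  (32,[[0,1,2,3,4,5,2,1,3,2,5],[5],[2],[1],[0],[3]]),
  (33,[[0],[1],[2],[3],[4],[0,1,2,3,4,5,2,1,3,2]]),
  (34,[[1],[0],[0,1,2,5],[3],[4],[0,1,2,3,4,5,2,1,3,2,5]]),
  (35,[[0],[0,1],[2],[3],[4],[0,1,2,3,4,5,2,1,3,2]]),
  (36,[[0,1,2,3,4,5,2,1,3,2],[2],[1],[0],[0,1,2,5],[2,3,5]]),
  (37,[[0],[1],[2,5],[3],[4],[0,1,2,3,4,5,2,1,3,2,5]]),
  (38,[[1],[0],[0,1,2],[3],[4],[0,1,2,3,4,5,2,1,3,2]]),
  (39,[[0],[0,1],[2,5],[3],[4],[0,1,2,3,4,5,2,1,3,2,5]]),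
  (40,[[3],[2],[1],[2,3,4,5],[0,1,2,3,4,5,2,1,3,2,5],[0]]),
  (41,[[0,1,2,5],[0],[1],[2],[0,1,2,3,4,5,2,1,3,2],[2,3,5]]),
  (42,[[2],[1],[0],[0,1,2,3],[4],[0,1,2,5]]),
  (43,[[1,2,5],[0],[0,1],[2],[0,1,2,3,4,5,2,1,3,2],[2,3,5]]),
  (44,[[2],[1],[0],[0,1,2,3],[4],[0,1,2,5]]),
  (45,[[0,1,2],[0],[1],[2,3],[4],[2,5]]),
  (46,[[2,5],[1],[0],[0,1,2],[0,1,2,3,4,5,2,1,3,2],[0,1,2,3,5]]),
  (47,[[1,2],[0],[0,1],[2,3],[4],[2,5]]),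
  (48,[[4],[3],[2],[1],[0],[0,1,2,3,4,5,2,1,3,2]]),
  (49,[[0,1,2,3,4],[0],[1],[2],[3],[2,3,4,5]]),
  (50,[[2,3,4,5],[1],[0],[0,1,2,5],[3],[0,1,2,3,4]]),
  (51,[[1,2,3,4],[0],[0,1],[2],[3],[2,3,4,5]]),
  (52,[[2],[1],[0],[0,1,2,5],[0,1,2,3,4,5,2,1,3,2,5],[0,1,2,3,4]]),
  (53,[[0,1,2,3,4,5],[0],[1],[2,5],[3],[2,3,4]]),
  (54,[[2,3,4],[1],[0],[0,1,2],[3],[1,2,3,5,2]]),
  (55,[[1,2,3,4,5],[0],[0,1],[2,5],[3],[2,3,4]]),
  (56,[[3],[2],[1],[0],[0,1,2,3,4],[0,1,2,3,5,2,1]]),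
  (57,[[0,1,2,3],[0],[1],[2],[3,4],[2,3,5]]),
  (58,[[2,3,5],[1],[0],[0,1,2,3],[0,1,2,3,4,5,2,1,3,2],[0,1,2,5]]),
  (59,[[1,2,3],[0],[0,1],[2],[3,4],[2,3,5]]),
  (60,[[2],[1],[0],[0,1,2,5],[0,1,2,3,4,5,2,1,3,2,5],[0,1,2,3]]),
  (61,[[0,1,2,3,5],[0],[1],[2,3],[0,1,2,3,4,5,2,1,3,2],[2,5]]),
  (62,[[2,3],[1],[0],[0,1,2],[3,4],[0,1,2,3,5]]),
  (63,[[1,2,3,5],[0],[0,1],[2,3],[0,1,2,3,4,5,2,1,3,2],[2,5]])]
/-- certificate table -/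
def rtW : List (List ℕ) := [[0],[1],[0,1],[2],[1,2],[0,1,2],[3],[2,3],[1,2,3],[0,1,2,3],[4],[0,1,2,3,4,5,2,1,3,2,5],[3,4],[2,3,4],[1,2,3,4],[0,1,2,3,4],[5],[2,5],[1,2,5],[0,1,2,5],[0,1,2,3,5,2,1],[1,2,3,5,2],[0,1,2,3,5,2],[2,3,5],[1,2,3,5],[0,1,2,3,5],[0,1,2,3,4,5,2,1,3],[1,2,3,4,5,2,3],[0,1,2,3,4,5,2,3],[0,1,2,3,4,5,2,1,3,2],[0,1,2,3,4,5,2,1],[1,2,3,4,5,2],[0,1,2,3,4,5,2],[2,3,4,5],[1,2,3,4,5],[0,1,2,3,4,5]]
/-- certificate table -/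
def rts : List ℕ := [1, 2, 3, 4, 6, 7, 8, 12, 14, 15, 16, 21, 24, 28, 30, 31, 32, 36, 38, 39, 41, 42, 43, 44, 46, 47, 49, 50, 51, 53, 57, 58, 59, 60, 62, 63]
/-- certificate table -/
def rhoT : List ℕ := [0, 27, 117, 144, 9, 0, 126, 153, 93, 0, 0, 0, 102, 0, 192, 219, 3, 0, 0, 0, 0, 2, 0, 0, 96, 0, 0, 0, 105, 0, 195, 222, 91, 0, 0, 0, 100, 0, 190, 217, 0, 85, 49, 76, 166, 0, 40, 67, 0, 172, 109, 136, 0, 181, 0, 0, 0, 88, 52, 79, 169, 0, 43, 70]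

/-- coordinates of a root modulo three -/
def rho (w : ℕ) : Fin 5 → ZMod 3 := fun k => ((rhoT.getD w 0 / 3 ^ (k : ℕ) : ℕ) : ZMod 3)

theorem c2_ok : ∀ a < 16, ∀ b < 32, (a.testBit 1 = false ∧ a.testBit 2 = true ∧
    b.testBit 3 = false ∧ b.testBit (cond (a.testBit 3) 2 1) = true) →
    chk 6 (ext (ext (tb nD4) 4 a) 5 b) ((c2L.lookup (a * 32 + b)).getD []) (tb nE6) = true ∨
    chk 6 (ext (ext (tb nD4) 4 a) 5 b) ((c2L.lookup (a * 32 + b)).getD []) (tb nP4) = true := by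
  decide +kernel

theorem cA_ok : ∀ b < 128, b.testBit 6 ≠ b.testBit 0 →
    chk 8 (ext (ext (tb nE6) 6 2) 7 b) ((cAL.lookup b).getD []) (tb nP4) = true := by
  decide +kernel

theorem cB_ok : chk 7 (ext (tb nE6) 6 1) cB (tb nP4) = true := by decide +kernel

theorem cF_ok : ∀ b < 64, b ≠ 0 → chk 6 (tb nE6) ((cFL.lookup b).getD []) (tb nE6) = true ∧
    wv 6 (tb nE6) (((cFL.lookup b).getD []).getD 0 []) ∈ rts ∧
    ((∀ i < 6, lin (wv 6 (tb nE6) (((cFL.lookup b).getD []).getD i [])) b.testBit 6 =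
      (2 : ℕ).testBit i) ∨
    ∀ i < 6, lin (wv 6 (tb nE6) (((cFL.lookup b).getD []).getD i [])) b.testBit 6 =
      (1 : ℕ).testBit i) := by
  decide +kernel

theorem rts_ok : ∀ w ∈ rts, ∃ l ∈ rtW, l.all (· < 6) = true ∧ wv 6 (tb nE6) l = w := by
  decide +kernel

theorem rts_cl : ∀ v ∈ rts, ∀ w ∈ rts, rf 6 (tb nE6) w v ∈ rts := by decide +kernel

theorem rts_uniq : ∀ v ∈ rts, ∀ w ∈ rts, (∀ i < 6, lin v (tb nE6 i) 6 = lin w (tb nE6 i) 6) →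
    v = w := by decide +kernel

theorem rho_norm : ∀ v ∈ rts, bO ![2, 2, 2, 2, 1] (rho v) (rho v) = 2 := by decide +kernel

theorem rho_comm : ∀ v ∈ rts, ∀ w ∈ rts, v ≠ w →
    (bil 6 (tb nE6) w v = false ↔ bO ![2, 2, 2, 2, 1] (rho v) (rho w) = 0) := by decide +kernel

theorem rho_surj : ∀ a b c d e : ZMod 3, bO ![2, 2, 2, 2, 1] ![a, b, c, d, e] ![a, b, c, d, e] = 2 →
    ∃ w ∈ rts, ![a, b, c, d, e] = rho w ∨ ![a, b, c, d, e] = - rho w := by decide +kernel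

theorem rho_inj : ∀ v ∈ rts, ∀ w ∈ rts, (rho v = rho w ∨ rho v = - rho w) → v = w := by
  decide +kernel

/-- no line has four pairwise non-commuting points in its perp -/
def NoP (Y : Set G) : Prop := ∀ r, ¬ Gr Y 6 (tb nP4) r

theorem exists_E6 (F : Fi Y) (S : Sym Y) (P : NoP Y) (h : Gr Y 4 (tb nD4) g) (h1 : g 1 ≠ g 2)
    (h2 : g 1 ≠ g 3) (h3 : g 2 ≠ g 3) : ∃ r, Gr Y 6 (tb nE6) r := by
  obtain ⟨t, ht, a1, a2⟩ := F.V _ (h.1 1 (by omega)) _ (h.1 2 (by omega)) h1.symm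
  obtain ⟨a, ha, hc⟩ := exists_bits (fun i => nc t (g i)) 4
  have h' := h.extend ht hc
  have : ∃ s ∈ Y, Commute (g 3) s ∧ ¬ Commute (upd g 4 t (cond (a.testBit 3) 2 1)) s := by
    cases a.testBit 3
    · exact F.V _ (h.1 3 (by omega)) _ (h.1 1 (by omega)) h2
    · exact F.V _ (h.1 3 (by omega)) _ (h.1 2 (by omega)) h3
  obtain ⟨s, hs, b1, b2⟩ := this
  obtain ⟨b, hb, hd⟩ := exists_bits (fun i => nc s (upd g 4 t i)) 5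
  have h'' := h'.extend hs hd
  rcases c2_ok a ha b hb ⟨(hc 1 (by omega)).symm.trans (nc_false.2 a1.symm),
    (hc 2 (by omega)).symm.trans (nc_true.2 fun h => a2 h.symm),
    (hd 3 (by omega)).symm.trans (nc_false.2 b1.symm),
    (hd _ (by cases a.testBit 3 <;> simp)).symm.trans (nc_true.2 fun h => b2 h.symm)⟩ with e | e
  · obtain ⟨r, hr, -⟩ := realize F.toTS S h'' (by omega) e
    exact ⟨r, hr⟩
  · obtain ⟨r, hr, -⟩ := realize F.toTS S h'' (by omega) e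
    exact (P r hr).elim

theorem lemA (T : TS Y) (S : Sym Y) (P : NoP Y) (h : Gr Y 6 (tb nE6) g) {y t : G} (hy : y ∈ Y)
    (ht : t ∈ Y) (hc : ∀ i < 6, nc y (g i) = (2 : ℕ).testBit i) : nc t y = nc t (g 0) := by
  by_contra hne
  obtain ⟨b, hb, hd⟩ := exists_bits (fun i => nc t (upd g 6 y i)) 7
  obtain ⟨r, hr, -⟩ := realize T S ((h.extend hy hc).extend ht hd) (by omega)
    (cA_ok b hb (by rw [← hd 6 (by omega), ← hd 0 (by omega)]; exact hne))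
  exact P r hr

theorem dich (T : TS Y) (S : Sym Y) (P : NoP Y) (h : Gr Y 6 (tb nE6) g) {y : G} (hy : y ∈ Y) :
    (∃ w ∈ rts, Rep Y 6 g w y) ∨ ∀ i < 6, nc y (g i) = false := by
  obtain ⟨b, hb, hd⟩ := exists_bits (fun i => nc y (g i)) 6
  by_cases h0 : b = 0
  · exact Or.inr fun i hi => by rw [hd i hi, h0]; simp
  obtain ⟨e1, e2, e3⟩ := cF_ok b hb h0
  obtain ⟨r, hr, hv⟩ := realize T S h (by omega) e1
  have key : ∀ i < 6, nc y (r i) =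
      lin (wv 6 (tb nE6) (((cFL.lookup b).getD []).getD i [])) b.testBit 6 := fun i hi => by
    rw [(hv i hi).2 y hy]; exact lin_congr hd
  rcases e3 with e3 | e3
  · exact Or.inl ⟨_, e2, hy, fun t ht => by
      rw [lemA T S P hr hy ht fun i hi => (key i hi).trans (e3 i hi), (hv 0 (by omega)).2 t ht]⟩
  · obtain ⟨s, hs, -⟩ := realize T S (hr.extend hy fun i hi => (key i hi).trans (e3 i hi))
      (by omega) cB_ok
    exact (P s hs).elim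

theorem all_rep (F : Fi Y) (S : Sym Y) (P : NoP Y) (h : Gr Y 6 (tb nE6) g) {y : G} (hy : y ∈ Y) :
    ∃ w ∈ rts, Rep Y 6 g w y := by
  have T := F.toTS
  have step : ∀ x ∈ Y, ∀ p, (∃ w ∈ rts, Rep Y 6 g w p) → ∃ w ∈ rts, Rep Y 6 g w (x * p * x) := by
    rintro x hx p ⟨w, hw, hp⟩
    rcases dich T S P h hx with ⟨v, hv, hx'⟩ | h0
    · exact ⟨_, rts_cl v hv w hw, rep_conj T S h hx' hp⟩
    · rw [T.cj_eq hx (nc_false.1 (by rw [hp.2 x hx, lin_congr h0, lin_false]))]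
      exact ⟨w, hw, hp⟩
  obtain ⟨k, hk, rfl⟩ := F.cls _ (h.1 0 (by omega)) y hy
  clear hy
  induction hk using closure_induction_left with
  | one => exact ⟨2 ^ 0, by decide, by simpa using rep_gen h (i := 0) (by omega)⟩
  | mul_left t ht k hk ih | inv_mul_cancel t ht k hk ih =>
    try rw [T.inv ht]
    have : t * k * g 0 * (t * k)⁻¹ = t * (k * g 0 * k⁻¹) * t := by
      rw [mul_inv_rev, T.inv ht]; simp only [mul_assoc]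
    rw [this]
    exact step t ht _ ih

theorem ort_of_E6 (F : Fi Y) (S : Sym Y) (P : NoP Y) (h : Gr Y 6 (tb nE6) g) :
    Ort ![2, 2, 2, 2, 1] Y := by
  have T := F.toTS
  have : ∀ y, ∃ w, y ∈ Y → w ∈ rts ∧ Rep Y 6 g w y := fun y => by
    by_cases hy : y ∈ Y
    · obtain ⟨w, hw⟩ := all_rep F S P h hy
      exact ⟨w, fun _ => hw⟩
    · exact ⟨0, fun h => absurd h hy⟩
  choose ω hω using this
  have inj : ∀ a ∈ Y, ∀ b ∈ Y, ω a = ω b → a = b := fun a ha b hb e => by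
    have k : ∀ x ∈ Y, nc x a = nc x b := fun x hx => by
      rw [(hω a ha).2.2 x hx, (hω b hb).2.2 x hx, e]
    by_contra hne
    obtain ⟨x, hx, h1⟩ := F.tau a ha b hb hne
      (nc_false.1 ((k a ha).symm.trans (nc_false.2 (Commute.refl a))))
    exact h1 (by rw [← nc_false, ← nc_false, nc_comm a, nc_comm b, k x hx])
  refine ⟨fun y => rho (ω y), by decide, fun a ha => rho_norm _ (hω a ha).1,
    fun a ha b hb hne => ?_, fun u hu => ?_,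
    fun a ha b hb e => inj a ha b hb (rho_inj _ (hω a ha).1 _ (hω b hb).1 e)⟩
  · rw [← nc_false, nc_rep h (hω a ha).2 (hω b hb).2]
    exact rho_comm _ (hω a ha).1 _ (hω b hb).1 fun e => hne (inj a ha b hb e)
  · have e : u = ![u 0, u 1, u 2, u 3, u 4] := by
      funext i; fin_cases i <;> rfl
    rw [e] at hu
    obtain ⟨w, hw, h1⟩ := rho_surj _ _ _ _ _ hu
    obtain ⟨l, -, hl, rfl⟩ := rts_ok w hw
    obtain ⟨p, hp⟩ := rep_wv T S h (by omega) l hl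
    refine ⟨p, hp.1, ?_⟩
    rw [rts_uniq _ (hω p hp.1).1 _ hw fun i hi => ?_, e]
    · exact h1
    · have k : ∀ v, lin v (tb nE6 i) 6 = lin v (fun j => nc (g i) (g j)) 6 := fun v =>
        lin_congr fun j hj => (h.2 i hi j hj).symm
      rw [k, k, ← (hω p hp.1).2.2 _ (h.1 i hi), ← hp.2 _ (h.1 i hi)]

end CfsgFI.SO
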