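import Cfsg.Agent.FI.Sym1

/-! Symplectic type without a claw: the symmetric groups. -/

set_option autoImplicit false

namespace CfsgFI

open Subgroup CfsgH4

universe u

namespace SY

variable {G : Type u} [Group G] {D : Set G}

/-- pairwise non-commuting points -/
def St (D : Set G) (A : Finset G) : Prop :=
  (∀ a ∈ A, a ∈ D) ∧ ∀ a ∈ A, ∀ b ∈ A, a ≠ b → ¬ Commute a b

theorem exists_path (F : Fi D) (L : LFi D) (S : Sym D) : ∃ a ∈ D, ∃ b ∈ D, ∃ c ∈ D, ∃ e ∈ D,
    fz a b = 1 ∧ fz a c = 0 ∧ fz a e = 0 ∧ fz c b = 1 ∧ fz b e = 0 ∧ fz c e = 1 := by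
  have T := F.toTS
  obtain ⟨a, ha, b, hb, hab⟩ := F.exn
  obtain ⟨e, he, ae, be⟩ := F.mu a ha b hb hab
  suffices h : ∃ c ∈ Dd D a, fz c b = 1 ∧ fz c e = 1 by
    obtain ⟨c, hc, h1, h2⟩ := h
    exact ⟨a, ha, b, hb, c, hc.1, e, he, fz_one.2 hab, fz_zero.2 hc.2.2, fz_zero.2 ae, h1,
      fz_zero.2 be, h2⟩
  by_contra hn
  have k : ∀ c ∈ Dd D a, ¬ (fz b c = 1 ∧ fz e c = 1) := fun c hc h =>
    hn ⟨c, hc, by rw [fz_comm, h.1], by rw [fz_comm, h.2]⟩
  obtain ⟨x, hx, x0, x1, x2⟩ := F.W a ha b hb hab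
  have hx' : x ∈ Dd D a := ⟨hx, x0, x1⟩
  obtain ⟨y, hy, y1⟩ := (L a ha).toIrr.exn' (a := e) ⟨he, fun h => hab (h ▸ be.symm), ae⟩
  obtain ⟨z, hz, z1, z2⟩ := (L a ha).toIrr.diam hx' hy
  have T' := T.dd a
  have k1 := k x hx'
  have k2 := k y hy
  have k3 := k z hz
  have k4 := k _ (T'.cl x hx' y hy)
  have k5 := k _ (T'.cl z hz y hy)
  have k6 := k _ (T'.cl z hz x hx')
  have k7 := k _ (T'.cl y hy _ (T'.cl z hz x hx'))
  have m := T.cl z hz.1 x hx
  simp only [fz_cj T S hy.1 m hb, fz_cj T S hy.1 m he, fz_cj T S hz.1 hx hb, fz_cj T S hz.1 hx he,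
    fz_cj T S hz.1 hx hy.1, fz_cj T S hz.1 hy.1 hb, fz_cj T S hz.1 hy.1 he, fz_cj T S hx hy.1 hb,
    fz_cj T S hx hy.1 he, fz_one.2 x2, fz_comm e y, fz_one.2 y1, fz_one.2 z1, fz_comm y z,
    fz_one.2 z2, fz_comm y x] at k1 k2 k3 k4 k5 k6 k7
  revert k1 k2 k3 k4 k5 k6 k7
  generalize fz e x = s, fz b y = t, fz b z = p, fz e z = q, fz x y = r
  revert s t p q r; decide

theorem exists_st (F : Fi D) (L : LFi D) (S : Sym D) : ∃ A, St D A ∧ 4 ≤ A.card := by
  classical
  have T := F.toTS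
  obtain ⟨a, ha, b, hb, c, hc, e, he, h1, h2, h3, h4, h5, h6⟩ := exists_path F L S
  have m1 := T.cl c hc b hb
  have m2 := T.cl e he _ m1
  have n : ∀ {x y : G}, fz x y = 1 → ¬ Commute x y ∧ ¬ Commute y x ∧ x ≠ y := fun h =>
    ⟨fz_one.1 h, fun k => fz_one.1 h k.symm, fun k => fz_one.1 h (k ▸ Commute.refl _)⟩
  have e1 : fz e (c * b * c) = 1 := by
    rw [fz_cj T S hc hb he, fz_comm e b, fz_comm e c, h5, h4, h6]; rfl
  have k1 := n h1
  have k2 := n (show fz a (c * b * c) = 1 by rw [fz_cj T S hc hb ha, h1, h2, h4]; rfl)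
  have k3 := n (show fz a (e * (c * b * c) * e) = 1 by
    rw [fz_cj T S he m1 ha, fz_cj T S hc hb ha, h1, h2, h3, h4, e1]; rfl)
  have k4 := n (show fz b (c * b * c) = 1 by
    rw [fz_cj T S hc hb hb, fz_self, fz_comm b c, h4]; rfl)
  have k5 := n (show fz b (e * (c * b * c) * e) = 1 by
    rw [fz_cj T S he m1 hb, fz_cj T S hc hb hb, fz_self, fz_comm b c, h4, h5, e1]; rfl)
  have k6 := n (show fz (c * b * c) (e * (c * b * c) * e) = 1 by
    rw [fz_cj T S he m1 m1, fz_self, fz_comm (c * b * c) e, e1]; rfl)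
  generalize e * (c * b * c) * e = w at *
  generalize c * b * c = v at *
  refine ⟨{a, b, v, w}, ⟨by simp [*], ?_⟩, by
    rw [Finset.card_insert_of_notMem (by simp [*]), Finset.card_insert_of_notMem (by simp [*]),
      Finset.card_insert_of_notMem (by simp [*]), Finset.card_singleton]⟩
  simp only [Finset.mem_insert, Finset.mem_singleton, forall_eq_or_imp, forall_eq]
  tauto

/-- Kronecker delta -/
def dl {I : Type*} [DecidableEq I] (i j : I) : ZMod 2 := if i = j then 1 else 0

theorem exists_frame (T : TS D) (S : Sym D) {A : Finset G} (hA : St D A) (h4 : 4 ≤ A.card) :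
    ∃ (I : Type u) (_ : Fintype I) (_ : DecidableEq I) (p : I → I → G) (χ : G → I → ZMod 2),
      Fintype.card I = A.card + 1 ∧ (∀ i j, i ≠ j → p i j ∈ D) ∧
      (∀ y ∈ D, ∀ i j, i ≠ j → fz y (p i j) = χ y i + χ y j) ∧
      ∀ i j k l, i ≠ j → k ≠ l → fz (p k l) (p i j) = dl i k + dl i l + dl j k + dl j l := by
  classical
  let p : Option A → Option A → G := fun i j => match i, j with
    | none, none => 1
    | none, some b => b
    | some a, none => a
    | some a, some b => a * b * a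
  let χ : G → Option A → ZMod 2 := fun y i => match i with
    | none => 0
    | some a => fz y a
  have f1 : ∀ a b : A, fz (a : G) b = 1 + dl a b := fun a b => by
    unfold dl; split_ifs with h
    · rw [h, fz_self]; rfl
    · rw [fz_one.2 (hA.2 a a.2 b b.2 fun e => h (Subtype.ext e))]; rfl
  have h1 : ∀ i j, i ≠ j → p i j ∈ D := by
    rintro (_ | a) (_ | b) h
    exacts [(h rfl).elim, hA.1 b b.2, hA.1 a a.2, T.cl _ (hA.1 a a.2) _ (hA.1 b b.2)]
  have h2 : ∀ y ∈ D, ∀ i j, i ≠ j → fz y (p i j) = χ y i + χ y j := by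
    rintro y hy (_ | a) (_ | b) h
    · exact (h rfl).elim
    · exact (zero_add _).symm
    · exact (add_zero _).symm
    · have : ¬ a = b := fun e => h (by rw [e])
      simp only [p, χ, fz_cj T S (hA.1 a a.2) (hA.1 b b.2) hy, f1, dl, if_neg this]; ring
  have h3 : ∀ k l, k ≠ l → ∀ i, χ (p k l) i = dl i k + dl i l + dl none k + dl none l := by
    rintro k l h (_ | a)
    · simp only [χ]; generalize dl none k = s, dl none l = t; revert s t; decide
    · have : ∀ k, χ a k = dl (some a) k + dl none k + 1 := by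
        rintro (_ | b)
        · simp [χ, dl]; decide
        · simp [χ, f1, dl, add_comm]
      simp only [χ]
      rw [fz_comm, h2 _ (hA.1 a a.2) k l h, this, this]
      generalize dl none k = s, dl none l = t, dl (some a) k = x, dl (some a) l = y
      revert s t x y; decide
  refine ⟨Option A, inferInstance, inferInstance, p, χ, by simp, h1, h2, fun i j k l h h' => ?_⟩
  rw [h2 _ (h1 k l h') i j h, h3 k l h', h3 k l h']
  generalize dl none k = s, dl none l = t, dl i k = x, dl i l = y, dl j k = z, dl j l = w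
  revert s t x y z w; decide

theorem exists_out {I : Type*} [Fintype I] [DecidableEq I] (h : 5 ≤ Fintype.card I) (i j k l : I) :
    ∃ r, r ≠ i ∧ r ≠ j ∧ r ≠ k ∧ r ≠ l := by
  obtain ⟨r, -, hr⟩ := Finset.exists_mem_notMem_of_card_lt_card (s := {i, j, k, l})
    (t := Finset.univ) (lt_of_le_of_lt Finset.card_le_four (by rw [Finset.card_univ]; omega))
  exact ⟨r, by simpa using hr⟩

end SY

open SY in
theorem specSym : SpecSym.{u} := by
  intro G _ _ _ D hg F L S
  classical
  have T := F.toTS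
  have := Fintype.ofFinite G
  obtain ⟨A0, h0, h04⟩ := exists_st F L S
  obtain ⟨A, hA, hmax⟩ := Finset.exists_max_image (Finset.univ.filter (St D)) Finset.card
    ⟨A0, by simpa using h0⟩
  simp only [Finset.mem_filter, Finset.mem_univ, true_and] at hA hmax
  have h4 := h04.trans (hmax A0 h0)
  obtain ⟨I, _, _, p, χ, hc, h1, h2, h3⟩ := exists_frame T S hA h4
  have h5 : 5 ≤ Fintype.card I := by omega
  have ext : ∀ a ∈ D, ∀ b ∈ D, (∀ y ∈ D, fz y a = fz y b) → a = b := fun a ha b hb h => by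
    by_contra hne
    obtain ⟨x, hx, k⟩ := F.tau a ha b hb hne (fz_zero.1 ((h a ha).symm.trans (fz_self a)))
    exact k (by rw [← fz_zero, ← fz_zero, fz_comm a, fz_comm b, h x hx])
  have inj : ∀ i j k l, i ≠ j → k ≠ l → p i j = p k l → (i = k ∨ i = l) ∧ (j = k ∨ j = l) := by
    intro i j k l h h' e
    obtain ⟨r, r1, r2, r3, r4⟩ := exists_out h5 i j k l
    have k1 := (h3 i j i r h r1.symm).symm.trans (e ▸ h3 k l i r h' r1.symm)
    have k2 := (h3 i j j r h r2.symm).symm.trans (e ▸ h3 k l j r h' r2.symm)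
    have d0 : ∀ {s t : I}, s ≠ t → dl s t = 0 := fun h => if_neg h
    have d1 : ∀ s : I, dl s s = 1 := fun s => if_pos rfl
    rw [d1, d0 r1.symm, d0 h.symm, d0 r2.symm, d0 r3.symm, d0 r4.symm] at k1
    rw [d1, d0 r1.symm, d0 h, d0 r2.symm, d0 r3.symm, d0 r4.symm] at k2
    constructor <;> by_contra hn <;> rw [not_or] at hn
    · rw [d0 (Ne.symm hn.1), d0 (Ne.symm hn.2)] at k1; exact absurd k1 (by decide)
    · rw [d0 (Ne.symm hn.1), d0 (Ne.symm hn.2)] at k2; exact absurd k2 (by decide)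
  have sw : ∀ i j k l, i ≠ j → k ≠ l →
      p i j * p k l * p i j = p (Equiv.swap i j k) (Equiv.swap i j l) := by
    intro i j k l h h'
    have h'' := (Equiv.swap i j).injective.ne h'
    refine ext _ (T.cl _ (h1 i j h) _ (h1 k l h')) _ (h1 _ _ h'') fun y hy => ?_
    have key : ∀ k, χ y (Equiv.swap i j k) = χ y k + (dl k i + dl k j) * (χ y i + χ y j) := by
      intro k
      by_cases a1 : k = i
      · subst a1; simp only [Equiv.swap_apply_left, dl, if_neg h, if_true]
        generalize χ y k = s, χ y j = t; revert s t; decide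
      by_cases a2 : k = j
      · subst a2; simp only [Equiv.swap_apply_right, dl, if_neg a1, if_true]
        generalize χ y k = s, χ y i = t; revert s t; decide
      · simp [Equiv.swap_apply_of_ne_of_ne a1 a2, dl, a1, a2]
    rw [fz_cj T S (h1 i j h) (h1 k l h') hy, h2 y hy _ _ h'', h2 y hy _ _ h, h2 y hy _ _ h',
      h3 k l i j h' h, key, key]
    ring
  have dich : ∀ x ∈ D, (∃ i j, i ≠ j ∧ p i j = x) ∨ ∀ i j, i ≠ j → Commute x (p i j) := by
    intro x hx
    by_contra hn
    simp only [not_or, not_exists, not_and, not_forall] at hn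
    obtain ⟨n1, i, k, ik, n2⟩ := hn
    rw [← fz_one, h2 x hx i k ik] at n2
    have sing : ∀ i, ∃ j, j ≠ i ∧ χ x j = χ x i := by
      intro i
      by_contra hs
      simp only [not_exists, not_and] at hs
      have nx : ∀ j, j ≠ i → ¬ Commute x (p i j) := fun j hj => by
        rw [← fz_one, h2 x hx i j hj.symm]
        have := hs j hj
        revert this; generalize χ x i = s, χ x j = t; revert s t; decide
      have := hmax (insert x ((Finset.univ.erase i).image (p i))) ⟨?_, ?_⟩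
      · rw [Finset.card_insert_of_notMem, Finset.card_image_of_injOn,
          Finset.card_erase_of_mem (Finset.mem_univ i), Finset.card_univ] at this
        · omega
        · intro j hj l hl e
          have hj := (Finset.mem_erase.1 hj).1
          exact ((inj i j i l hj.symm (Finset.mem_erase.1 hl).1.symm e).2.resolve_left hj)
        · simp only [Finset.mem_image, Finset.mem_erase, not_exists, not_and]
          exact fun j hj => n1 i j hj.1.symm
      · simp only [Finset.mem_insert, Finset.mem_image, Finset.mem_erase]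
        rintro _ (rfl | ⟨j, hj, rfl⟩)
        exacts [hx, h1 i j hj.1.symm]
      · simp only [Finset.mem_insert, Finset.mem_image, Finset.mem_erase]
        rintro _ (rfl | ⟨j, hj, rfl⟩) _ (rfl | ⟨l, hl, rfl⟩) hne
        · exact (hne rfl).elim
        · exact nx l hl.1
        · exact fun e => nx j hj.1 e.symm
        · have : l ≠ j := fun e => hne (by rw [e])
          rw [← fz_one, h3 i l i j hl.1.symm hj.1.symm]
          simp [dl, this, hl.1, hj.1.symm]
    obtain ⟨j, ji, cj⟩ := sing i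
    obtain ⟨l, lk, cl⟩ := sing k
    have ne : ∀ s t, χ x s = χ x i → χ x t = χ x k → s ≠ t := fun s t e1 e2 e => by
      rw [← e1, ← e2, e] at n2
      revert n2; generalize χ x t = s; revert s; decide
    have il := ne i l rfl cl
    have jk := ne j k cj rfl
    have jl := ne j l cj cl
    have two : ∀ s : ZMod 2, s + s = 0 := by decide
    refine no_claw hg F L S (a := p i k) hx (q := p i j) (r := p k l)
      ⟨h1 i j ji.symm, n1 i j ji.symm, fz_zero.1 (by rw [h2 x hx i j ji.symm, cj, two])⟩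
      ⟨⟨h1 k l lk.symm, n1 k l lk.symm, fz_zero.1 (by rw [h2 x hx k l lk.symm, cl, two])⟩,
        fun e => ?_, fz_zero.1 ?_⟩ ⟨h1 i k ik, fz_one.1 ?_, fz_one.1 ?_, fz_one.1 ?_⟩
    · exact (inj k l i j lk.symm ji.symm e).1.elim ik.symm jk.symm
    · rw [h3 k l i j lk.symm ji.symm]; simp [dl, ik.symm, jk.symm, il.symm, jl.symm]
    · rw [fz_comm, h2 x hx i k ik, n2]
    · rw [h3 i j i k ji.symm ik]; simp [dl, ik, jk, ji]
    · rw [h3 k l i k lk.symm ik]; simp [dl, ik.symm, il.symm, lk]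
  obtain ⟨i0⟩ : Nonempty I := Fintype.card_pos_iff.1 (by omega)
  obtain ⟨j0, ji, -⟩ := exists_out h5 i0 i0 i0 i0
  have surj : ∀ y ∈ D, ∃ i j, i ≠ j ∧ p i j = y := by
    intro y hy
    obtain ⟨k, hk, rfl⟩ := F.cls _ (h1 j0 i0 ji) y hy
    clear hy
    induction hk using closure_induction_left with
    | one => exact ⟨j0, i0, ji, by simp⟩
    | mul_left t ht k hk ih | inv_mul_cancel t ht k hk ih =>
      try rw [T.inv ht]
      have : t * k * p j0 i0 * (t * k)⁻¹ = t * (k * p j0 i0 * k⁻¹) * t := by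
        rw [mul_inv_rev, T.inv ht]; simp only [mul_assoc]
      obtain ⟨i, j, h, e⟩ := ih
      rw [this, ← e]
      rcases dich t ht with ⟨r, s, h', rfl⟩ | h'
      · exact ⟨_, _, (Equiv.swap r s).injective.ne h, (sw r s i j h' h).symm⟩
      · exact ⟨i, j, h, (T.cj_eq ht (h' i j h)).symm⟩
  obtain ⟨π, k1, k2⟩ := even_ind hg F.toIrr (P := fun g => ∃ π : Equiv.Perm I,
      Equiv.Perm.sign π = 1 ∧ ∀ k l, k ≠ l → g * p k l * g⁻¹ = p (π k) (π l))
      ⟨1, by simp, fun k l _ => by simp⟩ (by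
    rintro x hx y hy g ⟨π, k1, k2⟩
    obtain ⟨i, j, h, rfl⟩ := surj x hx
    obtain ⟨r, s, h', rfl⟩ := surj y hy
    refine ⟨Equiv.swap i j * (Equiv.swap r s * π), by simp [h, h', k1], fun k l kl => ?_⟩
    have m := π.injective.ne kl
    simp only [Equiv.Perm.mul_apply]
    rw [← sw i j _ _ h ((Equiv.swap r s).injective.ne m), ← sw r s _ _ h' m, ← k2 k l kl,
      mul_inv_rev, mul_inv_rev, T.inv hx, T.inv hy]
    simp only [mul_assoc]) (p j0 i0)
  have e : π = Equiv.swap j0 i0 := Equiv.ext fun k => by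
    have key : ∀ l, l ≠ k → π k = Equiv.swap j0 i0 k ∨ π k = Equiv.swap j0 i0 l := fun l hl =>
      (inj _ _ _ _ (π.injective.ne hl.symm) ((Equiv.swap j0 i0).injective.ne hl.symm) (by
        rw [← k2 k l hl.symm, T.inv (h1 _ _ ji), sw _ _ _ _ ji hl.symm])).1
    obtain ⟨l, hl, -⟩ := exists_out h5 k k k k
    obtain ⟨m, hm, hm', -⟩ := exists_out h5 k l l l
    rcases key l hl with e | e
    · exact e
    · exact (key m hm).resolve_right fun e' => hm' ((Equiv.swap j0 i0).injective (e'.symm.trans e))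
  rw [e, Equiv.Perm.sign_swap ji] at k1
  exact absurd k1 (by decide)

end CfsgFI
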