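import Cfsg.Agent.FI.P0b
import Cfsg.Agent.H8.Spinor

/-! Symplectic type with a claw: the Dickson invariant is a sign. -/

set_option autoImplicit false

namespace CfsgFI.SY

open Subgroup CfsgH4 QuadraticMap

universe u

theorem exists_Q {ι : Type*} [Fintype ι] [DecidableEq ι] (f : ι → ι → ZMod 2)
    (hs : ∀ a b, f a b = f b a) (h0 : ∀ a, f a a = 0) :
    ∃ Q : QuadraticForm (ZMod 2) (ι → ZMod 2), (∀ a, Q (Pi.single a 1) = 1) ∧
      ∀ a b, polar Q (Pi.single a 1) (Pi.single b 1) = f a b := by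
  obtain ⟨n, hn⟩ := exists_injective_nat ι
  refine ⟨LinearMap.BilinMap.toQuadraticMap (Matrix.toBilin' (Matrix.of fun a b =>
    if n a < n b then f a b else if a = b then 1 else 0)), fun a => ?_, fun a b => ?_⟩
  · simp [Matrix.toBilin'_single]
  · rw [LinearMap.BilinMap.polar_toQuadraticMap]
    simp only [Matrix.toBilin'_single, Matrix.of_apply]
    rcases lt_trichotomy (n a) (n b) with h | h | h
    · have : b ≠ a := fun e => by rw [e] at h; omega
      simp [h, not_lt_of_gt h, this]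
    · obtain rfl := hn h
      simp [h0]; decide
    · have : a ≠ b := fun e => by rw [e] at h; omega
      simp [h, not_lt_of_gt h, this, hs a b]

theorem exists_V {G : Type u} [Finite G] (D : Set G) (f : G → G → ZMod 2)
    (hs : ∀ a b, f a b = f b a) (h0 : ∀ a, f a a = 0) :
    ∃ (V : Type u) (_ : AddCommGroup V) (_ : Module (ZMod 2) V) (_ : FiniteDimensional (ZMod 2) V)
      (Q : QuadraticForm (ZMod 2) V) (φ : G → V), (∀ a ∈ D, Q (φ a) = 1) ∧
      (∀ a ∈ D, ∀ b ∈ D, polar Q (φ a) (φ b) = f a b) ∧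
      (∀ v, ∃ L : List G, (∀ a ∈ L, a ∈ D) ∧ v = (L.map φ).sum) ∧
      ∀ v, Q v = 0 → (∀ w, polar Q v w = 0) → v = 0 := by
  classical
  have := Fintype.ofFinite D
  obtain ⟨Q, h1, h2⟩ := exists_Q (fun a b : D => f a b) (fun a b => hs a b) fun a => h0 a
  refine ⟨(D → ZMod 2) ⧸ Q.radical, inferInstance, inferInstance, inferInstance, Q.lift _ le_rfl,
    fun g => if h : g ∈ D then Submodule.Quotient.mk (Pi.single ⟨g, h⟩ 1) else 0,
    fun a ha => ?_, fun a ha b hb => ?_, fun v => ?_, fun v k1 k2 => ?_⟩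
  · simp only [dif_pos ha]; exact h1 _
  · simp only [dif_pos ha, dif_pos hb]; exact h2 _ _
  · obtain ⟨x, rfl⟩ := Submodule.Quotient.mk_surjective _ v
    induction x using Pi.single_induction with
    | zero => exact ⟨[], by simp, by simp⟩
    | add x y hx hy =>
      obtain ⟨L, l1, l2⟩ := hx
      obtain ⟨L', l3, l4⟩ := hy
      exact ⟨L ++ L', fun a ha => (List.mem_append.1 ha).elim (l1 a) (l3 a), by
        rw [List.map_append, List.sum_append, ← l2, ← l4]; rfl⟩
    | single i c =>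
      rcases (by decide : ∀ c : ZMod 2, c = 0 ∨ c = 1) c with rfl | rfl
      · exact ⟨[], by simp, by simp⟩
      · exact ⟨[i.1], by simp, by simp⟩
  · obtain ⟨x, rfl⟩ := Submodule.Quotient.mk_surjective _ v
    exact (Submodule.Quotient.mk_eq_zero _).2
      ⟨k1, LinearMap.ext fun y => k2 (Submodule.Quotient.mk y)⟩

variable {G : Type u} [Group G] {D : Set G}

open Classical in
/-- the symplectic form on points -/
noncomputable def fz (a b : G) : ZMod 2 := if Commute a b then 0 else 1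

theorem fz_zero {a b : G} : fz a b = 0 ↔ Commute a b := by
  unfold fz; split_ifs with h <;> simp [h]

theorem fz_one {a b : G} : fz a b = 1 ↔ ¬ Commute a b := by
  unfold fz; split_ifs with h <;> simp [h]

theorem fz_comm (a b : G) : fz a b = fz b a := by
  by_cases h : Commute a b
  · rw [fz_zero.2 h, fz_zero.2 h.symm]
  · rw [fz_one.2 h, fz_one.2 fun k => h k.symm]

theorem fz_self (a : G) : fz a a = 0 := fz_zero.2 (Commute.refl a)

theorem fz_cj (T : TS D) (S : Sym D) {a b x : G} (ha : a ∈ D) (hb : b ∈ D) (hx : x ∈ D) :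
    fz x (a * b * a) = fz x b + fz a b * fz x a := by
  by_cases h : Commute a b
  · rw [T.cj_eq ha h, fz_zero.2 h]; ring
  rw [fz_one.2 h]
  by_cases h1 : Commute x a <;> by_cases h2 : Commute x b
  · rw [fz_zero.2 h1, fz_zero.2 h2, fz_zero.2 ((h1.mul_right h2).mul_right h1)]; rfl
  · rw [fz_zero.2 h1, fz_one.2 h2, fz_one.2 fun h3 => h2 (T.line_b ha h1 h3)]; rfl
  · rw [fz_one.2 h1, fz_zero.2 h2, fz_one.2 fun h3 => h1 (T.line_a ha hb h h2 h3)]; rfl
  · rw [fz_one.2 h1, fz_one.2 h2,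
      fz_zero.2 (((S a ha b hb x hx h).resolve_left h1).resolve_left h2)]; rfl

/-- in a simple group every point is an even word -/
theorem even_ind [IsSimpleGroup G] (hg : closure D = ⊤) (I : Irr D) {P : G → Prop} (h1 : P 1)
    (h2 : ∀ x ∈ D, ∀ y ∈ D, ∀ g, P g → P (x * (y * g))) (g : G) : P g := by
  have T := I.toTS
  have hN : (closure {z | ∃ x ∈ D, ∃ y ∈ D, z = x * y}).Normal := ⟨fun n hn g => by
    induction hn using closure_induction with
    | mem z hz =>
      obtain ⟨x, hx, y, hy, rfl⟩ := hz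
      exact subset_closure ⟨_, T.conj_mem (hg ▸ mem_top g) hx, _, T.conj_mem (hg ▸ mem_top g) hy,
        by group⟩
    | one => simp
    | mul x y _ _ hx hy => simpa [mul_assoc] using mul_mem hx hy
    | inv x _ hx => simpa [mul_assoc] using inv_mem hx⟩
  rcases hN.eq_bot_or_eq_top with h | h
  · obtain ⟨a, ha, b, hb, hab⟩ := I.exn
    have : a * b ∈ closure {z | ∃ x ∈ D, ∃ y ∈ D, z = x * y} := subset_closure ⟨a, ha, b, hb, rfl⟩
    rw [h, mem_bot, mul_eq_one_iff_eq_inv, T.inv hb] at this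
    exact (hab (this ▸ Commute.refl a)).elim
  · have hm : g ∈ closure {z | ∃ x ∈ D, ∃ y ∈ D, z = x * y} := h ▸ mem_top g
    induction hm using closure_induction_left with
    | one => exact h1
    | mul_left z hz g _ ih =>
      obtain ⟨x, hx, y, hy, rfl⟩ := hz
      rw [mul_assoc]; exact h2 x hx y hy g ih
    | inv_mul_cancel z hz g _ ih =>
      obtain ⟨x, hx, y, hy, rfl⟩ := hz
      rw [mul_inv_rev, T.inv hx, T.inv hy, mul_assoc]; exact h2 y hy x hx g ih

/-- three distinct commuting points with a common non-neighbour -/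
def Cw (D : Set G) (a p q r : G) : Prop :=
  a ∈ D ∧ ¬ Commute a p ∧ ¬ Commute a q ∧ ¬ Commute a r

theorem claw_all (F : Fi D) (L : LFi D) {a p q r : G} (hp : p ∈ D) (hq : q ∈ Dd D p)
    (hr : r ∈ Dd (Dd D p) q) (h : Cw D a p q r) {p' q' r' : G} (hp' : p' ∈ D) (hq' : q' ∈ Dd D p')
    (hr' : r' ∈ Dd (Dd D p') q') : ∃ a', Cw D a' p' q' r' := by
  have T := F.toTS
  have cj : ∀ {g a p q r : G}, g ∈ closure D → Cw D a p q r →
      Cw D (g * a * g⁻¹) (g * p * g⁻¹) (g * q * g⁻¹) (g * r * g⁻¹) := fun hg h =>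
    ⟨T.conj_mem hg h.1, fun k => h.2.1 (commute_conj_iff.1 k),
      fun k => h.2.2.1 (commute_conj_iff.1 k), fun k => h.2.2.2 (commute_conj_iff.1 k)⟩
  obtain ⟨g, hg, rfl, rfl⟩ := F.pair_c hp hp' hq hq'
  obtain ⟨k, hk, rfl⟩ := (L _ hp').Dcl _ hq' (g * r * g⁻¹)
    ⟨⟨T.conj_mem hg hr.1.1, fun e => hr.1.2.1 (mul_left_cancel (mul_right_cancel e)),
      commute_conj_iff.2 hr.1.2.2⟩, fun e => hr.2.1 (mul_left_cancel (mul_right_cancel e)),
      commute_conj_iff.2 hr.2.2⟩ r' hr'
  have hk1 := closure_dd_le _ _ hk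
  have := cj (closure_dd_le _ _ hk1) (cj hg h)
  rw [conj_eq_of_commute (commute_of_mem_Dd hk), conj_eq_of_commute (commute_of_mem_Dd hk1)] at this
  exact ⟨_, this⟩

theorem no_claw [Finite G] [IsSimpleGroup G] (hg : closure D = ⊤) (F : Fi D) (L : LFi D) (S : Sym D)
    {a p q r : G} (hp : p ∈ D) (hq : q ∈ Dd D p) (hr : r ∈ Dd (Dd D p) q) (h : Cw D a p q r) :
    False := by
  have T := F.toTS
  obtain ⟨V, _, _, _, Q, φ, h1, h2, h3, h4⟩ := exists_V D fz fz_comm fz_self
  have two : ∀ v : V, v + v = 0 := fun v => by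
    rw [← two_smul (ZMod 2) v, show (2 : ZMod 2) = 0 from rfl, zero_smul]
  have span : ∀ v, (∀ b ∈ D, polar Q v (φ b) = 0) → ∀ w, polar Q v w = 0 := by
    intro v hv w
    obtain ⟨L, l1, rfl⟩ := h3 w
    induction L with
    | nil => simp
    | cons b L ih =>
      rw [List.map_cons, List.sum_cons, polar_add_right, hv b (l1 b List.mem_cons_self),
        ih fun c hc => l1 c (List.mem_cons_of_mem _ hc), add_zero]
  have line : ∀ a ∈ D, ∀ b ∈ D, φ (a * b * a) = φ b + fz a b • φ a := by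
    intro a ha b hb
    by_cases hab : Commute a b
    · rw [T.cj_eq ha hab, fz_zero.2 hab, zero_smul, add_zero]
    have hc := T.cl a ha b hb
    rw [fz_one.2 hab, one_smul, ← sub_eq_zero, sub_eq_add_neg, neg_eq_of_add_eq_zero_left (two _)]
    refine h4 _ ?_ (span _ fun y hy => ?_)
    · simp only [CfsgH8.Q_add, polar_add_right, h1 _ ha, h1 _ hb, h1 _ hc, h2 _ hc _ ha,
        h2 _ hc _ hb, h2 _ hb _ ha, fz_comm (a * b * a), fz_cj T S ha hb ha, fz_cj T S ha hb hb,
        fz_self, fz_comm b a, fz_one.2 hab]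
      decide
    · simp only [polar_add_left, h2 _ hc _ hy, h2 _ hb _ hy, h2 _ ha _ hy, fz_comm _ y,
        fz_cj T S ha hb hy, fz_one.2 hab]
      generalize fz y a = s, fz y b = t; revert s t; decide
  have tri : ∀ p ∈ D, ∀ q ∈ D, ∀ r ∈ D, φ p = φ q ∨ ¬ Commute p q ∨ φ p = φ r ∨ ¬ Commute p r ∨
      φ q = φ r ∨ ¬ Commute q r ∨ ∃ l ∈ D, φ l = φ p + φ q + φ r := by
    intro p' hp' q' hq' r' hr'
    by_contra hn
    simp only [not_or, not_not] at hn
    obtain ⟨n1, c1, n2, c2, n3, c3, n4⟩ := hn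
    obtain ⟨a, ha, k1, k2, k3⟩ := claw_all F L hp hq hr h hp' ⟨hq', fun e => n1 (by rw [e]), c1⟩
      ⟨⟨hr', fun e => n2 (by rw [e]), c2⟩, fun e => n3 (by rw [e]), c3⟩
    have m1 := T.cl _ hr' _ ha
    have m2 := T.cl _ hq' _ m1
    have m3 := T.cl _ hp' _ m2
    refine n4 ⟨_, T.cl _ ha _ m3, ?_⟩
    simp only [line _ ha _ m3, line _ hp' _ m2, line _ hq' _ m1, line _ hr' _ ha,
      fz_cj T S hp' m2 ha, fz_cj T S hq' m1 ha, fz_cj T S hq' m1 hp', fz_cj T S hr' ha ha,
      fz_cj T S hr' ha hp', fz_cj T S hr' ha hq', fz_self, fz_comm _ a, fz_one.2 k1, fz_one.2 k2,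
      fz_one.2 k3, fz_zero.2 c1, fz_zero.2 c2, fz_zero.2 c3, mul_zero, mul_one, add_zero, zero_add,
      one_smul, show (1 : ZMod 2) + 1 + 1 = 1 from rfl]
    calc _ = φ p' + φ q' + φ r' + (φ a + φ a) := by abel
      _ = _ := by rw [two, add_zero]
  have pair : ∀ a ∈ D, ∀ b ∈ D, (φ a = φ b ∨ ¬ Commute a b) → ∀ t : List G, (∀ x ∈ t, x ∈ D) →
      ∃ t' : List G, (∀ x ∈ t', x ∈ D) ∧ t'.length ≤ t.length + 1 ∧
        φ a + (φ b + (t.map φ).sum) = (t'.map φ).sum := by
    rintro a ha b hb (e | e) t ht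
    · exact ⟨t, ht, by omega, by rw [e, ← add_assoc, two, zero_add]⟩
    · refine ⟨a * b * a :: t, List.forall_mem_cons.2 ⟨T.cl a ha b hb, ht⟩, le_rfl, ?_⟩
      rw [List.map_cons, List.sum_cons, line a ha b hb, fz_one.2 e, one_smul]; abel
  have key : ∀ n, ∀ t : List G, t.length ≤ n → (∀ x ∈ t, x ∈ D) →
      (∀ w, polar Q (t.map φ).sum w = 0) → Q (t.map φ).sum = 0 := by
    intro n
    induction n with
    | zero => intro t ht _ _; rw [List.length_eq_zero_iff.1 (Nat.le_zero.1 ht)]; simp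
    | succ n ih =>
      intro t ht hD hp
      have red : ∀ t' : List G, (∀ x ∈ t', x ∈ D) → t'.length ≤ n →
          (t.map φ).sum = (t'.map φ).sum → Q (t.map φ).sum = 0 := fun t' k1 k2 k3 => by
        rw [k3] at hp ⊢; exact ih t' k2 k1 hp
      match t, ht, hD, hp, red with
      | [], _, _, _, _ => simp
      | [a], _, hD, hp, _ =>
        have ha := hD a (by simp)
        obtain ⟨x, hx, k⟩ := F.toIrr.exn' ha
        have := hp (φ x)
        simp only [List.map_cons, List.map_nil, List.sum_cons, List.sum_nil, add_zero,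
          h2 a ha x hx, fz_zero] at this
        exact (k this.symm).elim
      | [a, b], ht, hD, hp, red =>
        have ha := hD a (by simp)
        have hb := hD b (by simp)
        by_cases c : Commute a b
        · simp only [List.map_cons, List.map_nil, List.sum_cons, List.sum_nil, add_zero,
            CfsgH8.Q_add, h1 a ha, h1 b hb, h2 a ha b hb, fz_zero.2 c]
          decide
        · obtain ⟨t', k1, k2, k3⟩ := pair a ha b hb (Or.inr c) [] (by simp)
          exact red t' k1 (by simp at ht k2; omega) (by simpa using k3)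
      | a :: b :: c :: t, ht, hD, hp, red =>
        simp only [List.forall_mem_cons] at hD
        obtain ⟨ha, hb, hc, hD⟩ := hD
        simp only [List.length_cons] at ht
        have fin : ∀ x ∈ D, ∀ y ∈ D, ∀ z ∈ D, (φ x = φ y ∨ ¬ Commute x y) →
            φ a + φ b + φ c = φ x + φ y + φ z → Q ((a :: b :: c :: t).map φ).sum = 0 := by
          intro x hx y hy z hz k e
          obtain ⟨t', k1, k2, k3⟩ := pair x hx y hy k (z :: t) (List.forall_mem_cons.2 ⟨hz, hD⟩)
          refine red t' k1 (by simp at k2; omega) ?_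
          rw [← k3]
          simp only [List.map_cons, List.sum_cons, ← add_assoc, e]
        rcases tri a ha b hb c hc with k | k | k | k | k | k | ⟨l, hl, k⟩
        · exact fin a ha b hb c hc (Or.inl k) rfl
        · exact fin a ha b hb c hc (Or.inr k) rfl
        · exact fin a ha c hc b hb (Or.inl k) (by abel)
        · exact fin a ha c hc b hb (Or.inr k) (by abel)
        · exact fin b hb c hc a ha (Or.inl k) (by abel)
        · exact fin b hb c hc a ha (Or.inr k) (by abel)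
        · exact red (l :: t) (List.forall_mem_cons.2 ⟨hl, hD⟩) (by simp; omega) (by
            simp only [List.map_cons, List.sum_cons, ← add_assoc, k])
  have hQ : CfsgH8.ND Q := CfsgH8.ND.of_forall fun v hv => by
    obtain ⟨t, l1, rfl⟩ := h3 v
    exact h4 _ (key _ t le_rfl l1 hv) hv
  have rf : ∀ a ∈ D, ∀ b ∈ D, (CfsgH8.refl Q (φ a)).1 (φ b) = φ (a * b * a⁻¹) := by
    intro a ha b hb
    rw [T.inv ha, CfsgH8.refl_apply, line a ha b hb, h1 a ha, h2 a ha b hb, inv_one, one_mul,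
      sub_eq_add_neg, neg_eq_of_add_eq_zero_left (two _)]
  have q0 : ∀ a ∈ D, Q (φ a) ≠ 0 := fun a ha => by rw [h1 a ha]; decide
  obtain ⟨k, k1, k2⟩ := even_ind hg F.toIrr (P := fun g => ∃ k : CfsgH8.OG Q, CfsgH8.dickF k = 1 ∧
      ∀ b ∈ D, k.1 (φ b) = φ (g * b * g⁻¹)) ⟨1, CfsgH8.dickF_one, fun b _ => by simp⟩ (by
    rintro x hx y hy g ⟨k, k1, k2⟩
    refine ⟨CfsgH8.refl Q (φ x) * (CfsgH8.refl Q (φ y) * k), ?_, fun b hb => ?_⟩
    · rw [CfsgH8.dickF_refl_mul hQ _ (q0 x hx), CfsgH8.dickF_refl_mul hQ _ (q0 y hy), k1, neg_neg]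
    · have m1 := T.conj_mem (hg ▸ mem_top g) hb
      have m2 := T.conj_mem (hg ▸ mem_top y) m1
      change (CfsgH8.refl Q (φ x)).1 ((CfsgH8.refl Q (φ y)).1 (k.1 (φ b))) = _
      rw [k2 b hb, rf y hy _ m1, rf x hx _ m2]
      congr 1; group) p
  have e : k = CfsgH8.refl Q (φ p) := CfsgH8.OG.ext' fun v => by
    obtain ⟨t, l1, rfl⟩ := h3 v
    induction t with
    | nil => simp
    | cons b t ih =>
      rw [List.map_cons, List.sum_cons, map_add, map_add, ih fun c hc => l1 c
        (List.mem_cons_of_mem _ hc), k2 b (l1 b List.mem_cons_self), rf p hp b (l1 b List.mem_cons_self)]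
  rw [e, CfsgH8.dickF_refl hQ (q0 p hp)] at k1
  exact absurd k1 (by decide)

end CfsgFI.SY
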