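import Cfsg.Agent.FI.Main

/-! The transport lemma. -/

set_option autoImplicit false

namespace CfsgFI

open Subgroup CfsgH4

universe u

variable {G : Type*} [Group G]

/-- a family of subgroups attached to the points -/
structure Fam (E : Set G) (Γ : Subgroup G) (W : G → Subgroup G) : Prop where
  fi : Fi E
  lfi : LFi E
  tri : Tri E
  lam : Lam E
  act : ∀ g ∈ Γ, ∀ a ∈ E, g * a * g⁻¹ ∈ E
  le : ∀ x ∈ E, W x ≤ Γ
  conj : ∀ g ∈ Γ, ∀ x ∈ E, ∀ w ∈ W x, g * w * g⁻¹ ∈ W (g * x * g⁻¹)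
  loc : ∀ x ∈ E, ∀ c ∈ Dd E x, ∀ w ∈ W x, Commute w c → w ∈ W c
  cen : ∀ x ∈ E, ∀ w ∈ W x, Commute w x
  pair : ∀ x ∈ E, ∀ p ∈ perp E x, ∀ q ∈ perp E x, p * q ∈ W x

def RT (E : Set G) (W : G → Subgroup G) (c c' g : G) : Prop :=
  ∃ x ∈ E, c ∈ Dd E x ∧ c' ∈ Dd E x ∧ ∃ w ∈ W x, w * c * w⁻¹ = c' ∧ w⁻¹ * g ∈ W c

theorem TS.move_nc {E : Set G} (T : TS E) {c c' : G} (hc : c ∈ E) (hc' : c' ∈ E)
    (h : ¬ Commute c c') : c * c' * c * (c * c')⁻¹ = c' := by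
  rw [mul_inv_rev, T.inv hc, T.inv hc', T.braid hc hc' h]
  simp only [mul_assoc, T.cancel hc', T.sq hc, mul_one]

namespace Fam

variable {E : Set G} {Γ : Subgroup G} {W : G → Subgroup G} (A : Fam E Γ W)
include A

theorem two {x x' a c c' : G} (hx : x ∈ E) (hx' : x' ∈ E) (ha : a ∈ E) (h1 : c ∈ Dd E x)
    (h2 : c' ∈ Dd E x) (h3 : c ∈ Dd E x') (h4 : c' ∈ Dd E x') (a1 : Commute x a) (a2 : Commute x' a)
    (n1 : ¬ Commute a c) (n2 : ¬ Commute a c') :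
    ∃ w, w ∈ W x ∧ w ∈ W x' ∧ w * c * w⁻¹ = c' := by
  have T := A.fi.ts
  refine ⟨(a * c') * (c * a), mul_mem (A.pair x hx _ ⟨ha, a1⟩ _ ⟨h2.1, h2.2.2⟩)
    (A.pair x hx _ ⟨h1.1, h1.2.2⟩ _ ⟨ha, a1⟩), mul_mem (A.pair x' hx' _ ⟨ha, a2⟩ _ ⟨h4.1, h4.2.2⟩)
    (A.pair x' hx' _ ⟨h3.1, h3.2.2⟩ _ ⟨ha, a2⟩), ?_⟩
  have e1 := T.move_nc h1.1 ha fun h => n1 h.symm
  have e2 := T.move_nc ha h2.1 n2
  calc a * c' * (c * a) * c * (a * c' * (c * a))⁻¹
      = a * c' * (c * a * c * (c * a)⁻¹) * (a * c')⁻¹ := by group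
    _ = c' := by rw [e1, e2]

theorem ex {x c c' : G} (hx : x ∈ E) (h1 : c ∈ Dd E x) (h2 : c' ∈ Dd E x) :
    ∃ w ∈ W x, w * c * w⁻¹ = c' := by
  obtain ⟨a, ha, n1, n2⟩ := (A.lfi x hx).toIrr.diam h1 h2
  obtain ⟨w, h, -, h'⟩ := A.two hx hx ha.1 h1 h2 h1 h2 ha.2.2 ha.2.2 n1 n2
  exact ⟨w, h, h'⟩

theorem same {x c w w' : G} (hx : x ∈ E) (h1 : c ∈ Dd E x) (hw : w ∈ W x) (hw' : w' ∈ W x)
    (h : w * c * w⁻¹ = w' * c * w'⁻¹) : w⁻¹ * w' ∈ W c :=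
  A.loc x hx c h1 _ (mul_mem (inv_mem hw) hw') (commute_of_conj_eq (by
    rw [mul_inv_rev, inv_inv, mul_assoc w⁻¹, mul_assoc w⁻¹, ← mul_assoc (w' * c), ← h]; group))

theorem link {x x' c c' w w' w0 : G} (hx : x ∈ E) (hx' : x' ∈ E) (h1 : c ∈ Dd E x)
    (h3 : c ∈ Dd E x') (hw : w ∈ W x) (hw' : w' ∈ W x') (e : w * c * w⁻¹ = c')
    (e' : w' * c * w'⁻¹ = c') (k : w0 ∈ W x) (k' : w0 ∈ W x') (e0 : w0 * c * w0⁻¹ = c') :
    w⁻¹ * w' ∈ W c := by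
  simpa using mul_mem (A.same hx h1 hw k (e.trans e0.symm)) (A.same hx' h3 k' hw' (e0.trans e'.symm))

theorem adj {x x' c c' : G} (hx : x ∈ E) (hx' : x' ∈ Dd E x) (h1 : c ∈ Dd E x) (h2 : c' ∈ Dd E x)
    (h3 : c ∈ Dd E x') (h4 : c' ∈ Dd E x') : ∃ w, w ∈ W x ∧ w ∈ W x' ∧ w * c * w⁻¹ = c' := by
  have L := A.lfi x hx
  have k1 : c ∈ Dd (Dd E x) x' := ⟨h1, h3.2⟩
  have k2 : c' ∈ Dd (Dd E x) x' := ⟨h2, h4.2⟩
  obtain ⟨y, hy, y1, y2⟩ := L.V x' hx' c h1 h3.2.1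
  obtain ⟨a, ha, n1, n2⟩ := (L.ts.dd x').diam2 k1
    ⟨y, ⟨hy, fun h => y2 (h ▸ h3.2.2.symm), y1⟩, fun h => y2 h.symm⟩ (L.Dcl x' hx' c k1 c' k2)
  exact A.two hx hx'.1 ha.1.1 h1 h2 h3 h4 ha.1.2.2 ha.2.2 n1 n2

theorem uniq0 {x x' c c' w w' : G} (hx : x ∈ E) (hx' : x' ∈ E) (h1 : c ∈ Dd E x) (h2 : c' ∈ Dd E x)
    (h3 : c ∈ Dd E x') (h4 : c' ∈ Dd E x') (hw : w ∈ W x) (hw' : w' ∈ W x') (e : w * c * w⁻¹ = c')
    (e' : w' * c * w'⁻¹ = c') : w⁻¹ * w' ∈ W c := by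
  by_cases c0 : c' = c
  · subst c0
    exact A.link hx hx' h1 h3 hw hw' e e' (one_mem _) (one_mem _) (by simp)
  by_cases c1 : Commute c c'
  · have sw : ∀ {y : G}, y ∈ E → c ∈ Dd E y → c' ∈ Dd E y → y ∈ Dd (Dd E c) c' :=
      fun hy k1 k2 => ⟨⟨hy, k1.2.1.symm, k1.2.2.symm⟩, k2.2.1.symm, k2.2.2.symm⟩
    obtain ⟨y, hy, y1, y2, y3, y4⟩ := A.lam c h1.1 c' ⟨h2.1, c0, c1⟩ x (sw hx h1 h2) x' (sw hx' h3 h4)
    have k1 : c ∈ Dd E y := ⟨h1.1, hy.1.2.1.symm, hy.1.2.2.symm⟩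
    have k2 : c' ∈ Dd E y := ⟨h2.1, hy.2.1.symm, hy.2.2.symm⟩
    obtain ⟨u, u1, u2, u3⟩ := A.adj hx ⟨hy.1.1, y1, y3.symm⟩ h1 h2 k1 k2
    obtain ⟨v, v1, v2, v3⟩ := A.adj hx' ⟨hy.1.1, y2, y4.symm⟩ h3 h4 k1 k2
    simpa using mul_mem (A.same hx h1 hw u1 (e.trans u3.symm))
      (A.link hy.1.1 hx' k1 h3 u2 hw' u3 e' v2 v1 v3)
  · exact A.link hx hx' h1 h3 hw hw' e e' (A.pair x hx _ ⟨h1.1, h1.2.2⟩ _ ⟨h2.1, h2.2.2⟩)
      (A.pair x' hx' _ ⟨h3.1, h3.2.2⟩ _ ⟨h4.1, h4.2.2⟩) (A.fi.ts.move_nc h1.1 h2.1 c1)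

theorem uniq {c c' g g' : G} (h : RT E W c c' g) (h' : RT E W c c' g') : g⁻¹ * g' ∈ W c := by
  obtain ⟨x, hx, h1, h2, w, hw, e, k⟩ := h
  obtain ⟨x', hx', h3, h4, w', hw', e', k'⟩ := h'
  have := mul_mem (mul_mem (inv_mem k) (A.uniq0 hx hx' h1 h2 h3 h4 hw hw' e e')) k'
  simpa [mul_assoc] using this

omit A in
theorem right {c c' g k : G} (h : RT E W c c' g) (hk : k ∈ W c) : RT E W c c' (g * k) := by
  obtain ⟨x, hx, h1, h2, w, hw, e, k'⟩ := h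
  exact ⟨x, hx, h1, h2, w, hw, e, by rw [← mul_assoc]; exact mul_mem k' hk⟩

theorem left {c c' g s : G} (hc : c ∈ E) (h : RT E W c c' g) (hs : s ∈ W c) :
    RT E W c (s * c' * s⁻¹) (s * g) := by
  obtain ⟨x, hx, h1, h2, w, hw, e, k⟩ := h
  have hΓ := A.le c hc hs
  have e1 : s * c * s⁻¹ = c := conj_eq_of_commute (A.cen c hc s hs)
  have dd : ∀ y ∈ Dd E x, s * y * s⁻¹ ∈ Dd E (s * x * s⁻¹) := fun y hy =>
    ⟨A.act s hΓ y hy.1, fun h => hy.2.1 (by simpa using h), commute_conj_iff.2 hy.2.2⟩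
  refine ⟨_, A.act s hΓ x hx, e1 ▸ dd c h1, dd c' h2, _, A.conj s hΓ x hx w hw, ?_, ?_⟩
  · nth_rewrite 1 [← e1]; rw [← e]; group
  · simpa [mul_assoc] using mul_mem hs k

theorem common {d e c : G} (hd : d ∈ E) (he : e ∈ Dd E d) (hc : c ∈ E) :
    ∃ x ∈ E, d ∈ Dd E x ∧ e ∈ Dd E x ∧ c ∈ Dd E x := by
  have fin : ∀ x ∈ E, x ≠ d → x ≠ e → x ≠ c → Commute x d → Commute x e → Commute x c →
      ∃ x ∈ E, d ∈ Dd E x ∧ e ∈ Dd E x ∧ c ∈ Dd E x := fun x hx h1 h2 h3 h4 h5 h6 =>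
    ⟨x, hx, ⟨hd, h1.symm, h4⟩, ⟨he.1, h2.symm, h5⟩, ⟨hc, h3.symm, h6⟩⟩
  obtain ⟨y, hy⟩ := (A.lfi d hd).exc he
  by_cases c0 : c = d
  · subst c0
    exact fin y hy.1.1 hy.1.2.1 hy.2.1 hy.1.2.1 hy.1.2.2.symm hy.2.2.symm hy.1.2.2.symm
  by_cases c1 : c = e
  · subst c1
    exact fin y hy.1.1 hy.1.2.1 hy.2.1 hy.2.1 hy.1.2.2.symm hy.2.2.symm hy.2.2.symm
  by_cases c2 : Commute d c <;> by_cases c3 : Commute e c
  · obtain ⟨x, hx, x1, -, x2, -⟩ := A.lam d hd e he c ⟨⟨hc, c0, c2⟩, c1, c3⟩ c ⟨⟨hc, c0, c2⟩, c1, c3⟩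
    exact fin x hx.1.1 hx.1.2.1 hx.2.1 x1 hx.1.2.2.symm hx.2.2.symm x2
  · obtain ⟨x, hx, x1, x2⟩ := (A.lfi d hd).mu e he c ⟨hc, c0, c2⟩ c3
    exact fin x hx.1 hx.2.1 (fun h => c3 (h ▸ x2.symm)) (fun h => c3 (h ▸ x1)) hx.2.2.symm x1.symm
      x2.symm
  · obtain ⟨x, hx, x1, x2⟩ := (A.lfi e he.1).mu d ⟨hd, he.2.1.symm, he.2.2.symm⟩ c ⟨hc, c1, c3⟩ c2
    exact fin x hx.1 (fun h => c2 (h ▸ x2.symm)) hx.2.1 (fun h => c2 (h ▸ x1)) x1.symm hx.2.2.symm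
      x2.symm
  · obtain ⟨x, hx, x1, x2, x3⟩ := A.tri d hd e he.1 c hc he.2.1.symm he.2.2 c2 c3
    exact fin x hx (fun h => c2 (h ▸ x3)) (fun h => c3 (h ▸ x3)) (fun h => c2 (h ▸ x1.symm)) x1 x2 x3

theorem comp {d e c g h : G} (hd : d ∈ E) (he : e ∈ Dd E d) (hc : c ∈ E) (h1 : RT E W d e g)
    (h2 : RT E W e c h) : RT E W d c (h * g) := by
  obtain ⟨x, hx, x1, x2, x3⟩ := A.common hd he hc
  obtain ⟨w1, k1, e1⟩ := A.ex hx x1 x2
  obtain ⟨w2, k2, e2⟩ := A.ex hx x2 x3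
  have u1 := A.uniq (g := w1) ⟨x, hx, x1, x2, w1, k1, e1, by simp⟩ h1
  have u2 := A.uniq (g := w2) ⟨x, hx, x2, x3, w2, k2, e2, by simp⟩ h2
  have u3 := A.conj w1⁻¹ (inv_mem (A.le x hx k1)) e he.1 _ u2
  rw [show w1⁻¹ * e * w1⁻¹⁻¹ = d by rw [← e1]; group] at u3
  refine ⟨x, hx, x1, x3, w2 * w1, mul_mem k2 k1, by rw [← e2, ← e1]; group, ?_⟩
  simpa [mul_assoc] using mul_mem u3 u1

theorem core {d e g : G} (hd : d ∈ E) (he : e ∈ Dd E d) (hg : g ∈ W d ⊔ W e) (h : Commute g d) :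
    g ∈ W d := by
  have key : ∃ c ∈ E, RT E W d c g := by
    clear h
    rw [sup_eq_closure] at hg
    have step : ∀ s ∈ (W d : Set G) ∪ W e, ∀ g, (∃ c ∈ E, RT E W d c g) →
        ∃ c ∈ E, RT E W d c (s * g) := by
      rintro s (hs | hs) g ⟨c, hc, h1⟩
      · exact ⟨_, A.act s (A.le d hd hs) c hc, A.left hd h1 hs⟩
      · obtain ⟨x, hx, x1, x2, x3⟩ := A.common hd he hc
        obtain ⟨w1, k1, e1⟩ := A.ex hx x1 x2
        obtain ⟨w2, k2, e2⟩ := A.ex hx x2 x3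
        have r1 : RT E W d e w1 := ⟨x, hx, x1, x2, w1, k1, e1, by simp⟩
        have r2 : RT E W e c w2 := ⟨x, hx, x2, x3, w2, k2, e2, by simp⟩
        have hc' := A.act s (A.le e he.1 hs) c hc
        have := right (A.comp hd he hc' r1 (A.left he.1 r2 hs)) (A.uniq (A.comp hd he hc r1 r2) h1)
        exact ⟨_, hc', by simpa [mul_assoc] using this⟩
    induction hg using closure_induction_left with
    | one => exact ⟨d, hd, e, he.1, ⟨hd, he.2.1.symm, he.2.2.symm⟩, ⟨hd, he.2.1.symm, he.2.2.symm⟩, 1,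
        one_mem _, by simp, by simp⟩
    | mul_left s hs g _ ih => exact step s hs g ih
    | inv_mul_cancel s hs g _ ih => exact step s⁻¹ (hs.imp inv_mem inv_mem) g ih
  obtain ⟨c, -, x, hx, h1, -, w, hw, -, k⟩ := key
  have h2 : Commute w d := by
    simpa [mul_assoc] using h.mul_left (A.cen d hd _ k).inv_left
  simpa using mul_mem (A.loc x hx d h1 w hw h2) k

end Fam

/-- the words of even length -/
def Ev (S : Set G) : Subgroup G := closure {g | ∃ p ∈ S, ∃ q ∈ S, g = p * q}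

theorem ev_pair {S : Set G} {p q : G} (hp : p ∈ S) (hq : q ∈ S) : p * q ∈ Ev S :=
  subset_closure ⟨p, hp, q, hq, rfl⟩

theorem ev_le {S : Set G} {N : Subgroup G} (h : ∀ x ∈ S, ∀ y ∈ S, x * y ∈ N) : Ev S ≤ N :=
  (closure_le _).2 (by rintro _ ⟨p, hp, q, hq, rfl⟩; exact h p hp q hq)

theorem ev_mono {S S' : Set G} (h : S ⊆ S') : Ev S ≤ Ev S' :=
  ev_le fun _ hx _ hy => ev_pair (h hx) (h hy)

theorem closure_conj {S S' : Set G} (g : G) (h : ∀ x ∈ S, g * x * g⁻¹ ∈ S') {w : G}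
    (hw : w ∈ closure S) : g * w * g⁻¹ ∈ closure S' := by
  have : closure S ≤ (closure S').comap (MulAut.conj g).toMonoidHom :=
    (closure_le _).2 fun x hx => subset_closure (h x hx)
  exact this hw

theorem ev_conj {S S' : Set G} (g : G) (h : ∀ x ∈ S, g * x * g⁻¹ ∈ S') {w : G} (hw : w ∈ Ev S) :
    g * w * g⁻¹ ∈ Ev S' := closure_conj g (by
  rintro _ ⟨p, hp, q, hq, rfl⟩
  exact ⟨_, h p hp, _, h q hq, by group⟩) hw

theorem ev_par {S : Set G} {c g : G} (hc : c ∈ S) (h2 : c * c = 1) (hg : g ∈ closure S) :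
    g ∈ Ev S ∨ g * c ∈ Ev S := by
  have hi : c⁻¹ = c := inv_eq_of_mul_eq_one_right h2
  have n : ∀ w ∈ Ev S, c * w * c ∈ Ev S := fun w hw => by
    have : Ev S ≤ (Ev S).comap (MulAut.conj c).toMonoidHom := ev_le fun p hp q hq => by
      have := mul_mem (ev_pair hc hp) (ev_pair hq hc)
      simpa [hi, mul_assoc] using this
    simpa [hi] using this hw
  have step : ∀ t g : G, t * c ∈ Ev S → (g ∈ Ev S ∨ g * c ∈ Ev S) →
      t * g ∈ Ev S ∨ t * g * c ∈ Ev S := fun t g ht h => by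
    rcases h with h | h
    · right
      have := mul_mem ht (n g h)
      rwa [show t * c * (c * g * c) = t * (c * c) * g * c by group, h2, mul_one] at this
    · left
      have := mul_mem ht (n _ h)
      rwa [show t * c * (c * (g * c) * c) = t * (c * c) * g * (c * c) by group, h2, mul_one,
        mul_one] at this
  induction hg using closure_induction_left with
  | one => exact Or.inl (one_mem _)
  | mul_left t ht g _ ih => exact step t g (ev_pair ht hc) ih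
  | inv_mul_cancel t ht g _ ih =>
    exact step t⁻¹ g (by simpa [hi] using inv_mem (ev_pair hc ht)) ih

theorem perp_union {E Z : Set G} {d : G} (hd : d ∈ E) : Dd E d ∪ insert d Z = perp E d ∪ Z := by
  ext y
  constructor
  · rintro (h | rfl | h)
    · exact Or.inl ⟨h.1, h.2.2⟩
    · exact Or.inl ⟨hd, Commute.refl _⟩
    · exact Or.inr h
  · rintro (h | h)
    · by_cases c : y = d
      · exact Or.inr (Or.inl c)
      · exact Or.inl ⟨h.1, c, h.2⟩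
    · exact Or.inr (Or.inr h)

theorem specT : SpecT.{u} := by
  intro G _ E Z F L tri lam hc pa
  have T := F.ts
  have act : ∀ g ∈ closure (E ∪ Z), (∀ a ∈ E, g * a * g⁻¹ ∈ E) ∧ ∀ z ∈ Z, g * z * g⁻¹ = z := by
    intro g hg
    have h1 : ∀ z ∈ Z, Commute g z := fun z hz => by
      have : closure (E ∪ Z) ≤ centralizer {z} := (closure_le _).2 fun y hy =>
        mem_centralizer_singleton_iff.2 (hc z hz y hy).symm
      exact mem_centralizer_singleton_iff.1 (this hg)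
    refine ⟨fun a ha => ?_, fun z hz => conj_eq_of_commute (h1 z hz)⟩
    obtain ⟨y, hy, z, hz, rfl⟩ := split_mem hc hg
    have h2 : Commute z a := by
      have : closure Z ≤ centralizer {a} := (closure_le _).2 fun z hz =>
        mem_centralizer_singleton_iff.2 (hc z hz a (Or.inl ha))
      exact mem_centralizer_singleton_iff.1 (this hz)
    rw [show y * z * a * (y * z)⁻¹ = y * (z * a * z⁻¹) * y⁻¹ by group, conj_eq_of_commute h2]
    exact T.conj_mem hy ha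
  have sub : ∀ x, perp E x ∪ Z ⊆ E ∪ Z := fun x => Set.union_subset_union_left _ fun _ h => h.1
  have cj : ∀ g ∈ closure (E ∪ Z), ∀ x, ∀ y ∈ perp E x ∪ Z,
      g * y * g⁻¹ ∈ perp E (g * x * g⁻¹) ∪ Z := by
    rintro g hg x y (hy | hy)
    · exact Or.inl ⟨(act g hg).1 y hy.1, commute_conj_iff.2 hy.2⟩
    · rw [(act g hg).2 y hy]; exact Or.inr hy
  have cen : ∀ x ∈ E, ∀ w ∈ closure (perp E x ∪ Z), Commute w x := fun x hx w hw => by
    have : closure (perp E x ∪ Z) ≤ centralizer {x} := (closure_le _).2 (by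
      rintro y (hy | hy)
      · exact mem_centralizer_singleton_iff.2 hy.2.symm
      · exact mem_centralizer_singleton_iff.2 (hc y hy x (Or.inl hx)))
    exact mem_centralizer_singleton_iff.1 (this hw)
  have s1 : ∀ x ∈ E, ∀ c ∈ Dd E x, perp (Dd E x) c ∪ insert x Z ⊆ perp E c ∪ Z := by
    rintro x hx c hc' y (hy | rfl | hy)
    · exact Or.inl ⟨hy.1.1, hy.2⟩
    · exact Or.inl ⟨hx, hc'.2.2.symm⟩
    · exact Or.inr hy
  have s2 : ∀ x ∈ E, ∀ c, perp (Dd E x) c ∪ insert x Z ⊆ perp E x ∪ Z := fun x hx c => by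
    rw [← perp_union hx]; exact Set.union_subset_union_left _ fun _ h => h.1
  have evle : ∀ S : Set G, Ev S ≤ closure S := fun S =>
    ev_le fun _ hx _ hy => mul_mem (subset_closure hx) (subset_closure hy)
  have far : ∀ d ∈ E, ∀ e ∈ Dd E d, ∀ a ∈ E, ¬ Commute d a → ∃ a0 ∈ perp E e,
      ∃ h ∈ closure (perp E d ∪ Z), h * a0 * h⁻¹ = a := fun d hd e he a ha h => by
    obtain ⟨a0, h0, h1, h2⟩ := F.V e he.1 d hd he.2.1.symm
    obtain ⟨k, hk, h3⟩ := F.HR d hd a0 h0 a ha h2 h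
    exact ⟨a0, ⟨h0, h1⟩, k, closure_mono Set.subset_union_left hk, h3⟩
  constructor
  · have A : Fam E (closure (E ∪ Z)) fun x => closure (perp E x ∪ Z) :=
      ⟨F, L, tri, lam, fun g hg => (act g hg).1, fun x _ => closure_mono (sub x),
        fun g hg x _ w hw => closure_conj g (cj g hg x) hw,
        fun x hx c hc' w hw h => closure_mono (s1 x hx c hc')
          (pa x hx c hc' w (by rwa [perp_union hx]) h), cen,
        fun x _ p hp q hq => mul_mem (subset_closure (Or.inl hp)) (subset_closure (Or.inl hq))⟩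
    intro d hd g hg h
    obtain ⟨e, he⟩ := F.exc hd
    refine A.core hd he ((closure_le _).2 ?_ hg) h
    rintro a (ha | ha)
    · by_cases c : Commute d a
      · exact mem_sup_left (subset_closure (Or.inl ⟨ha, c⟩))
      · obtain ⟨a0, h0, k, hk, rfl⟩ := far d hd e he a ha c
        exact mul_mem (mul_mem (mem_sup_left hk) (mem_sup_right (subset_closure (Or.inl h0))))
          (inv_mem (mem_sup_left hk))
    · exact mem_sup_left (subset_closure (Or.inr ha))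
  · intro sg
    have no : ∀ x ∈ E, ∀ c ∈ perp E x, c ∉ Ev (perp E x ∪ Z) := fun x hx c hc' h => by
      obtain ⟨N, h1, h2⟩ := sg x hx
      rw [perp_union hx] at h1 h2
      exact h2 c (Or.inl hc') (ev_le h1 h)
    have A : Fam E (closure (E ∪ Z)) fun x => Ev (perp E x ∪ Z) :=
      ⟨F, L, tri, lam, fun g hg => (act g hg).1, fun x _ => (evle _).trans (closure_mono (sub x)),
        fun g hg x _ w hw => ev_conj g (cj g hg x) hw,
        fun x hx c hc' w hw h => by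
          rcases ev_par (S := perp (Dd E x) c ∪ insert x Z) (Or.inl ⟨hc', Commute.refl c⟩) (T.sq hc'.1)
            (pa x hx c hc' w (by rw [perp_union hx]; exact evle _ hw) h) with h1 | h1
          · exact ev_mono (s1 x hx c hc') h1
          · refine (no x hx c ⟨hc'.1, hc'.2.2⟩ ?_).elim
            simpa using mul_mem (inv_mem hw) (ev_mono (s2 x hx c) h1),
        fun x hx w hw => cen x hx w (evle _ hw),
        fun x _ p hp q hq => ev_pair (Or.inl hp) (Or.inl hq)⟩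
    obtain ⟨d, hd, -⟩ := F.exn
    obtain ⟨e, he⟩ := F.exc hd
    have dd : d ∈ perp E d ∪ Z := Or.inl ⟨hd, Commute.refl d⟩
    have h1 : ∀ p ∈ E ∪ Z, d * p ∈ Ev (perp E d ∪ Z) ⊔ Ev (perp E e ∪ Z) := by
      rintro a (ha | ha)
      · by_cases c : Commute d a
        · exact mem_sup_left (ev_pair dd (Or.inl ⟨ha, c⟩))
        obtain ⟨a0, h0, k, hk, rfl⟩ := far d hd e he a ha c
        have m : d * a0 ∈ Ev (perp E d ∪ Z) ⊔ Ev (perp E e ∪ Z) :=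
          mem_sup_right (ev_pair (Or.inl ⟨hd, he.2.2.symm⟩) (Or.inl h0))
        have kd := (cen d hd k hk).eq
        rcases ev_par dd (T.sq hd) hk with h2 | h2
        · have := mul_mem (mul_mem (mem_sup_left h2) m) (inv_mem (mem_sup_left h2))
          rwa [← mul_assoc k, kd, mul_assoc d, mul_assoc d] at this
        · have := mul_mem (mul_mem (mem_sup_left h2) (inv_mem m)) (inv_mem (mem_sup_left h2))
          rwa [mul_inv_rev, mul_inv_rev, T.inv hd, T.inv h0.1,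
            show k * d * (a0 * d) * (d * k⁻¹) = k * d * a0 * (d * d) * k⁻¹ by group, T.sq hd,
            mul_one, kd, mul_assoc d, mul_assoc d] at this
      · exact mem_sup_left (ev_pair dd (Or.inr ha))
    have h2 : ∀ p ∈ E ∪ Z, p * d ∈ Ev (perp E d ∪ Z) ⊔ Ev (perp E e ∪ Z) := by
      rintro a (ha | ha)
      · simpa [T.inv hd, T.inv ha] using inv_mem (h1 a (Or.inl ha))
      · exact mem_sup_left (ev_pair (Or.inr ha) dd)
    refine ⟨Ev (perp E d ∪ Z) ⊔ Ev (perp E e ∪ Z), fun p hp q hq => ?_, fun p hp h => no d hd d ⟨hd, Commute.refl d⟩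
      (A.core hd he ?_ (Commute.refl d))⟩
    · have := mul_mem (h2 p hp) (h1 q hq)
      rwa [mul_assoc, T.cancel hd] at this
    · simpa using mul_mem (h1 p hp) (inv_mem h)

end CfsgFI
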