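import Cfsg.Agent.FI.Defs

/-! No set of points of `PG(3,4)` meets every line in zero or two points. -/

set_option autoImplicit false

namespace CfsgFI.H6U

open CfsgH5 Finset

abbrev V4 := Fin 4 → F4

def crd (l : List V4) : ℕ := (univ.filter fun v : V4 => ∀ f ∈ l, f ⬝ᵥ v = 0).card

open Classical in
noncomputable def cnt (S : V4 → Prop) (l : List V4) : ℕ :=
  ∑ v : V4, if (∀ f ∈ l, f ⬝ᵥ v = 0) ∧ S v then 1 else 0

def eqv : F4 × F4 × F4 × F4 ≃ V4 where
  toFun p := ![p.1, p.2.1, p.2.2.1, p.2.2.2]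
  invFun v := (v 0, v 1, v 2, v 3)
  left_inv _ := rfl
  right_inv v := by funext i; fin_cases i <;> rfl

theorem crd_eq (l : List V4) : crd l = ∑ x : F4, ∑ y : F4, ∑ z : F4, ∑ w : F4,
    if ∀ f ∈ l, f 0 * x + f 1 * y + f 2 * z + f 3 * w = 0 then 1 else 0 := by
  rw [crd, Finset.card_filter, ← Equiv.sum_comp eqv]
  simp only [Fintype.sum_prod_type, dotProduct, Fin.sum_univ_four]
  rfl

theorem crd0 : crd [] = 256 := by rw [crd_eq]; decide +kernel

theorem crd1 (a b c d : F4) (h : ![a, b, c, d] ≠ 0) : crd [![a, b, c, d]] = 64 := by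
  rw [crd_eq]
  simp only [List.forall_mem_singleton]
  have h' : ¬ (a = 0 ∧ b = 0 ∧ c = 0 ∧ d = 0) := fun ⟨h1, h2, h3, h4⟩ => h (by
    rw [h1, h2, h3, h4]; decide)
  exact (by decide +kernel : ∀ a b c d : F4, ¬ (a = 0 ∧ b = 0 ∧ c = 0 ∧ d = 0) →
    (∑ x : F4, ∑ y : F4, ∑ z : F4, ∑ w : F4,
      if a * x + b * y + c * z + d * w = 0 then 1 else 0) = 64) a b c d h'

theorem crd2 (a b c : F4) (h : ![a, b, c, 0] ≠ 0) : crd [![a, b, c, 0], ![0, 0, 0, 1]] = 16 := by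
  rw [crd_eq]
  simp only [List.forall_mem_cons, List.not_mem_nil, IsEmpty.forall_iff, implies_true, and_true]
  have h' : ¬ (a = 0 ∧ b = 0 ∧ c = 0) := fun ⟨h1, h2, h3⟩ => h (by rw [h1, h2, h3]; decide)
  exact (by decide +kernel : ∀ a b c : F4, ¬ (a = 0 ∧ b = 0 ∧ c = 0) →
    (∑ x : F4, ∑ y : F4, ∑ z : F4, ∑ w : F4, if a * x + b * y + c * z + 0 * w = 0 ∧
      0 * x + 0 * y + 0 * z + 1 * w = 0 then 1 else 0) = 16) a b c h'

theorem f4_add_self (v : V4) : v + v = 0 := by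
  funext i
  exact (by decide : ∀ x : F4, x + x = 0) (v i)

theorem cnt_part (S : V4 → Prop) (l : List V4) (f g : V4) :
    cnt S (g :: l) + ∑ c : F4, cnt S ((f + c • g) :: l) = cnt S l + 4 * cnt S (f :: g :: l) := by
  classical
  simp only [cnt]
  rw [Finset.sum_comm, Finset.mul_sum, ← Finset.sum_add_distrib, ← Finset.sum_add_distrib]
  refine Finset.sum_congr rfl fun v _ => ?_
  simp only [List.forall_mem_cons, add_dotProduct, smul_dotProduct, smul_eq_mul]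
  by_cases h : (∀ f ∈ l, f ⬝ᵥ v = 0) ∧ S v
  · simp only [h.2, and_true, eq_true h.1]
    generalize f ⬝ᵥ v = x, g ⬝ᵥ v = y
    have : ∀ x y : F4, ((if y = 0 then 1 else 0) + ∑ c : F4, if x + c * y = 0 then 1 else 0) =
        1 + 4 * if x = 0 ∧ y = 0 then 1 else 0 := by decide
    convert this x y
    simp
  · simp only [and_assoc, h, and_false, if_false]
    simp

theorem cnt_cases {S : V4 → Prop} (h0 : ¬ S 0) (hs : ∀ u (c : F4), c ≠ 0 → S u → S (c • u))
    (h1 : ∀ u v, S u → (∀ c : F4, v ≠ c • u) → ∃! k : F4, S (v + k • u)) (l : List V4) :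
    (∀ v, (∀ f ∈ l, f ⬝ᵥ v = 0) → ¬ S v) ∧ cnt S l = 0 ∨ 4 * cnt S l = crd l + 8 := by
  classical
  by_cases hn : ∀ v, (∀ f ∈ l, f ⬝ᵥ v = 0) → ¬ S v
  · exact Or.inl ⟨hn, Finset.sum_eq_zero fun v _ => if_neg fun h => hn v h.1 h.2⟩
  push Not at hn
  obtain ⟨u, hu, su⟩ := hn
  have u0 : u ≠ 0 := fun h => h0 (h ▸ su)
  right
  have e1 : ∀ k : F4, cnt S l =
      ∑ v : V4, if (∀ f ∈ l, f ⬝ᵥ v = 0) ∧ S (v + k • u) then 1 else 0 := fun k => by
    rw [cnt, ← Equiv.sum_comp (Equiv.addRight (k • u))]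
    refine Finset.sum_congr rfl fun v _ => ?_
    have : (∀ f ∈ l, f ⬝ᵥ (v + k • u) = 0) ↔ ∀ f ∈ l, f ⬝ᵥ v = 0 :=
      forall₂_congr fun f hf => by rw [dotProduct_add, dotProduct_smul, hu f hf]; simp
    simp only [Equiv.coe_addRight, this]
  have e2 : 4 * cnt S l =
      ∑ k : F4, ∑ v : V4, if (∀ f ∈ l, f ⬝ᵥ v = 0) ∧ S (v + k • u) then 1 else 0 := by
    rw [← Finset.sum_congr rfl fun k _ => e1 k, Finset.sum_const, Finset.card_univ, F4.card_eq,
      smul_eq_mul]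
  have e3 : ∀ v : V4, (∑ k : F4, if (∀ f ∈ l, f ⬝ᵥ v = 0) ∧ S (v + k • u) then 1 else 0) =
      (if ∀ f ∈ l, f ⬝ᵥ v = 0 then 1 else 0) +
        2 * if v ∈ univ.image (fun c : F4 => c • u) then 1 else 0 := fun v => by
    by_cases h2 : v ∈ univ.image (fun c : F4 => c • u)
    · obtain ⟨c, -, rfl⟩ := Finset.mem_image.1 (id h2)
      have h3 : ∀ f ∈ l, f ⬝ᵥ (c • u) = 0 := fun f hf => by rw [dotProduct_smul, hu f hf]; simp
      have h4 : ∀ k : F4, S (c • u + k • u) ↔ c + k ≠ 0 := fun k => by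
        rw [← add_smul]
        exact ⟨fun h h5 => h0 (by rwa [h5, zero_smul] at h), fun h => hs u _ h su⟩
      simp only [eq_true h3, h4, true_and, if_true, if_pos h2]
      have : ∀ c : F4, (∑ k : F4, if c + k ≠ 0 then 1 else 0) = 1 + 2 * 1 := by decide
      convert this c
    · rw [if_neg h2]
      by_cases h3 : ∀ f ∈ l, f ⬝ᵥ v = 0
      · obtain ⟨k, k1, k2⟩ := h1 u v su fun c hc => h2 (Finset.mem_image.2 ⟨c, mem_univ _, hc.symm⟩)
        rw [if_pos h3, Finset.sum_eq_single k, if_pos ⟨h3, k1⟩]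
        · exact fun j _ hj => if_neg fun h => hj (k2 j h.2)
        · simp
      · simp [h3]
  rw [e2, Finset.sum_comm, Finset.sum_congr rfl fun v _ => e3 v, Finset.sum_add_distrib,
    ← Finset.mul_sum, ← Finset.card_filter, ← Finset.card_filter, Finset.filter_mem_eq_inter,
    Finset.univ_inter, Finset.card_image_of_injective _ (smul_left_injective F4 u0),
    Finset.card_univ, F4.card_eq, crd]
  congr

theorem no_oval {S : V4 → Prop} (h0 : ¬ S 0) (hs : ∀ u (c : F4), c ≠ 0 → S u → S (c • u))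
    (h1 : ∀ u v, S u → (∀ c : F4, v ≠ c • u) → ∃! k : F4, S (v + k • u))
    (he : S ![1, 0, 0, 0]) : False := by
  have C := cnt_cases h0 hs h1
  have c0 : cnt S [] = 66 := by
    rcases C [] with h | h
    · exact absurd he (h.1 _ (by simp))
    · rw [crd0] at h; omega
  have c1 : ∀ a b c d : F4, ![a, b, c, d] ≠ 0 → 18 ∣ cnt S [![a, b, c, d]] := fun a b c d h => by
    have := crd1 a b c d h
    rcases C [![a, b, c, d]] with h | h <;> omega
  have c2 : ∀ a b c : F4, ![a, b, c, 0] ≠ 0 → cnt S [![a, b, c, 0], ![0, 0, 0, 1]] = 6 :=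
    fun a b c h => by
      have k1 := crd2 a b c h
      have k2 := cnt_part S [] ![a, b, c, 0] ![0, 0, 0, 1]
      have k3 : 18 ∣ ∑ k : F4, cnt S [![a, b, c, 0] + k • ![0, 0, 0, 1]] :=
        Finset.dvd_sum fun k _ => by
          have : (![a, b, c, 0] + k • ![0, 0, 0, 1] : V4) = ![a, b, c, k] := by
            funext i; fin_cases i <;> simp
          rw [this]
          refine c1 a b c k fun h2 => h ?_
          have := congrFun h2 0; have := congrFun h2 1; have := congrFun h2 2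
          funext i; fin_cases i <;> simp_all
      have k4 := c1 0 0 0 1 (by decide)
      rcases C [![a, b, c, 0], ![0, 0, 0, 1]] with h | h <;> omega
  have c3 : ∀ b : F4, S ![b, 1, 0, 0] := fun b => by
    have k2 := cnt_part S [![0, 0, 0, 1]] ![1, b, 0, 0] ![0, 0, 1, 0]
    have k3 : ∑ k : F4, cnt S [![1, b, 0, 0] + k • ![0, 0, 1, 0], ![0, 0, 0, 1]] = 24 := by
      refine (Finset.sum_congr (g := fun _ => 6) rfl fun k _ => ?_).trans (by decide)
      have : (![1, b, 0, 0] + k • ![0, 0, 1, 0] : V4) = ![1, b, k, 0] := by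
        funext i; fin_cases i <;> simp
      rw [this]
      exact c2 1 b k fun h => one_ne_zero (congrFun h 0)
    have k4 := c2 0 0 1 (by decide)
    have k5 := crd1 0 0 0 1 (by decide)
    have k6 : cnt S [![1, b, 0, 0], ![0, 0, 1, 0], ![0, 0, 0, 1]] ≠ 0 := by
      rcases C [![0, 0, 0, 1]] with h | h <;> omega
    obtain ⟨v, -, hv⟩ := Finset.exists_ne_zero_of_sum_ne_zero k6
    have hv' : (∀ f ∈ [![1, b, 0, 0], ![0, 0, 1, 0], ![0, 0, 0, 1]], f ⬝ᵥ v = 0) ∧ S v := by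
      by_contra h; exact hv (if_neg h)
    have k7 : ∀ (b : F4) (v : V4), (∀ f ∈ [![1, b, 0, 0], ![0, 0, 1, 0], ![0, 0, 0, 1]], f ⬝ᵥ v = 0) →
        v = 0 ∨ ∃ c : F4, c ≠ 0 ∧ c • v = ![b, 1, 0, 0] := fun b v h => by
      obtain ⟨⟨x, y, z, w⟩, rfl⟩ := eqv.surjective v
      simp only [List.forall_mem_cons, dotProduct, Fin.sum_univ_four] at h
      have h1 : 1 * x + b * y + 0 * z + 0 * w = 0 := h.1
      have h2 : 0 * x + 0 * y + 1 * z + 0 * w = 0 := h.2.1
      have h3 : 0 * x + 0 * y + 0 * z + 1 * w = 0 := h.2.2.1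
      simp only [zero_mul, one_mul, zero_add, add_zero] at h1 h2 h3
      subst h2 h3
      show ![x, y, 0, 0] = 0 ∨ ∃ c : F4, c ≠ 0 ∧ c • ![x, y, 0, 0] = ![b, 1, 0, 0]
      clear h
      revert b x y; decide +kernel
    rcases k7 b v hv'.1 with h | ⟨c, h2, h3⟩
    · exact absurd (h ▸ hv'.2) h0
    · exact h3 ▸ hs v c h2 hv'.2
  obtain ⟨k, -, k2⟩ := h1 _ ![0, 1, 0, 0] he (by decide)
  have e : ∀ b : F4, (![0, 1, 0, 0] + b • ![1, 0, 0, 0] : V4) = ![b, 1, 0, 0] := by decide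
  exact absurd ((k2 0 (e 0 ▸ c3 0 :)).trans (k2 1 (e 1 ▸ c3 1 :)).symm) (by decide)

end CfsgFI.H6U
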