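import Cfsg.Agent.FI.URep
import Cfsg.Agent.FI.UOval

/-! Locally unitary sets occur only in dimensions four and six. -/

set_option autoImplicit false

namespace CfsgFI.H6U

open Subgroup CfsgH4 CfsgH5

universe u

variable {G : Type*} [Group G]

theorem no_sts (t : Fin 5 → Fin 5 → Fin 5) (h1 : ∀ p q, p ≠ q → t p q ≠ p ∧ t p q ≠ q)
    (h2 : ∀ p q, t p q = t q p) (h3 : ∀ p q, p ≠ q → t p (t p q) = q) : False := by
  have a1 := h1 0 1 (by decide)
  have a2 := h3 0 1 (by decide)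
  have a3 := h3 1 0 (by decide)
  rw [h2 1 0] at a3
  obtain ⟨r, r0, r1, r2⟩ : ∃ r : Fin 5, r ≠ 0 ∧ r ≠ 1 ∧ r ≠ t 0 1 := by
    generalize t 0 1 = l; revert l; decide
  have b1 := h1 0 r r0.symm
  have b2 := h3 0 r r0.symm
  have b3 := h3 r 0 r0
  have c1 := h1 1 r r1.symm
  have c2 := h3 1 r r1.symm
  have c3 := h3 r 1 r1
  rw [h2 r 0] at b3
  rw [h2 r 1] at c3
  have d1 : t 0 r ≠ 1 := fun h => r2 (by rw [h] at b2; exact b2.symm)
  have d2 : t 0 r ≠ t 0 1 := fun h => r1 (by rw [h, a2] at b2; exact b2.symm)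
  have d3 : t 1 r ≠ 0 := fun h => r2 (by rw [h, h2 1 0] at c2; exact c2.symm)
  have d4 : t 1 r ≠ t 0 1 := fun h => r0 (by rw [h, a3] at c2; exact c2.symm)
  have d5 : t 1 r ≠ t 0 r := fun h => by rw [h, b3] at c3; exact absurd c3 (by decide)
  revert a1 b1 c1 d1 d2 d3 d4 d5 r0 r1 r2
  generalize t 0 1 = l, t 0 r = s, t 1 r = x
  omega

/-- five pairwise commuting points forming a maximal clique of `D_d` -/
theorem no_clique {E : Set G} (T : TS E) {d a : G} (hd : d ∈ E) (ha : a ∈ E) (hda : ¬ Commute d a)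
    (P : Fin 5 → G) (hP : ∀ i, P i ∈ Dd E d) (hi : Function.Injective P)
    (hc : ∀ i j, Commute (P i) (P j)) (hn : ∀ i, ¬ Commute a (P i))
    (hm : ∀ i j, i ≠ j → ∀ l ∈ Dd E d, Commute (P i) l → Commute (P j) l → ∃ k, l = P k) : False := by
  classical
  have ex : ∀ i j, i ≠ j → ∃ k, k ≠ i ∧ k ≠ j ∧ Commute a (d * P i * P j * P k) := fun i j h => by
    obtain ⟨l, hl, l1, l2, l3, -, l5, l6, l7, l8, -⟩ := T.leaf4 ha hd (hP i).1 (hP j).1
      (hP i).2.1.symm (hP j).2.1.symm (hi.ne h) (hP i).2.2 (hP j).2.2 (hc i j)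
      (fun h => hda h.symm) (hn i) (hn j)
    obtain ⟨k, rfl⟩ := hm i j h l ⟨hl, l5, l1⟩ l2 l3
    exact ⟨k, fun h => l6 (by rw [h]), fun h => l7 (by rw [h]), l8⟩
  have un : ∀ i j k l, Commute a (d * P i * P j * P k) → Commute a (d * P i * P j * P l) → k = l :=
    fun i j k l h1 h2 => by
      by_contra h
      have h3 := h1.inv_right.mul_right h2
      rw [mul_inv_rev, mul_assoc, inv_mul_cancel_left, T.inv (hP k).1] at h3
      exact hn k ((T.cent2 (hP k).1 (hP l).1 ha (hi.ne h) (hc k l)).1 h3).1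
  have s1 : ∀ i j k, d * P i * P j * P k = d * P j * P i * P k := fun i j k => by
    rw [mul_assoc d, (hc i j).eq, ← mul_assoc]
  have s2 : ∀ i j k, d * P i * P j * P k = d * P i * P k * P j := fun i j k => by
    rw [mul_assoc _ (P j), (hc j k).eq, ← mul_assoc]
  choose! t ht using ex
  refine no_sts (fun p q => if p = q then p else t p q) (fun p q h => ?_) (fun p q => ?_)
    fun p q h => ?_
  · simp only [if_neg h]; exact ⟨(ht p q h).1, (ht p q h).2.1⟩
  · by_cases h : p = q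
    · simp [h]
    · simp only [if_neg h, if_neg (Ne.symm h)]
      exact un p q _ _ (ht p q h).2.2 (s1 q p _ ▸ (ht q p (Ne.symm h)).2.2)
  · simp only [if_neg h, if_neg (ht p q h).1.symm]
    exact un p (t p q) _ _ (ht p _ (ht p q h).1.symm).2.2 (s2 p q _ ▸ (ht p q h).2.2)

/-- the five points of the line spanned by `o`, `w` -/
def lv {n : ℕ} (o w : Fin n → F4) : Fin 5 → Fin n → F4 :=
  ![o, w, w + o, w + F4.w • o, w + (F4.w * F4.w) • o]

/-- a maximal singular line -/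
def MaxL (o w : Fin 5 → F4) : Prop :=
  hU o o = 0 ∧ hU w w = 0 ∧ hU w o = 0 ∧ (∀ i, lv o w i ≠ 0) ∧
  (∀ i j, ∀ c : F4, lv o w i = c • lv o w j → i = j) ∧ (∀ i j, hU (lv o w i) (lv o w j) = 0) ∧
  (∀ i j, i ≠ j → ∃ α β : F4, o = α • lv o w i + β • lv o w j) ∧
  (∀ i j, i ≠ j → ∃ α β : F4, w = α • lv o w i + β • lv o w j) ∧
  ∀ a b c d e : F4, hU ![a, b, c, d, e] o = 0 → hU ![a, b, c, d, e] w = 0 →
    hU ![a, b, c, d, e] ![a, b, c, d, e] = 0 → ∃ k, ∃ s : F4, ![a, b, c, d, e] = s • lv o w k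

set_option synthInstance.maxSize 4000 in
set_option synthInstance.maxHeartbeats 200000 in
instance (o w : Fin 5 → F4) : Decidable (MaxL o w) := by unfold MaxL hU Cfsg.hermForm; infer_instance

theorem meets {E : Set G} (T : TS E) {d a : G} (hd : d ∈ E) (ha : a ∈ E) (hda : ¬ Commute d a)
    {φ : G → Fin 5 → F4} (M : UniM 5 (Dd E d) φ) {o w : Fin 5 → F4} (h : MaxL o w) {p : G}
    (hp : Rep (Dd E d) φ p o) (hpa : ¬ Commute a p) :
    ∃ f, ∃ k : F4, Rep (Dd E d) φ f (w + k • o) ∧ Commute a f := by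
  obtain ⟨-, -, -, h4, h5, h6, h7, h8, h9⟩ := h
  choose P hP using fun i => exists_rep M (h4 i) (h6 i i)
  by_contra hn
  push Not at hn
  refine no_clique T hd ha hda P (fun i => (hP i).1) (fun i j hij => ?_)
    (fun i j => ((hP i).comm M (hP j)).2 (h6 i j)) (fun i => ?_) fun i j hij l hl l1 l2 => ?_
  · obtain ⟨c, hc⟩ := (hP i).prop (hij ▸ hP j)
    exact h5 i j c hc
  · fin_cases i
    · exact (hp.eq M (hP 0)) ▸ hpa
    · exact hn _ 0 (by rw [zero_smul, add_zero]; exact hP 1)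
    · exact hn _ 1 (by rw [one_smul]; exact hP 2)
    · exact hn _ _ (hP 3)
    · exact hn _ _ (hP 4)
  · have r := rep_self (φ := φ) hl
    have k1 := (r.comm M (hP i)).1 l1.symm
    have k2 := (r.comm M (hP j)).1 l2.symm
    obtain ⟨α, β, e1⟩ := h7 i j hij
    obtain ⟨γ, δ, e2⟩ := h8 i j hij
    have e : φ l = ![φ l 0, φ l 1, φ l 2, φ l 3, φ l 4] := by funext i; fin_cases i <;> rfl
    obtain ⟨k, s, hs⟩ := h9 (φ l 0) (φ l 1) (φ l 2) (φ l 3) (φ l 4)
      (by rw [← e, e1, har, hsr, hsr, k1, k2]; simp) (by rw [← e, e2, har, hsr, hsr, k1, k2]; simp)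
      (by rw [← e]; exact r.iso M)
    rw [← e] at hs
    exact ⟨k, Rep.eq M ⟨hl, s, fun h0 => M.ne l hl (by rw [hs, h0, zero_smul]), hs⟩ (hP k)⟩

theorem five_pt {E : Set G} (T : TS E) (hL : ∀ e ∈ E, Uni 5 (Dd E e)) {d a : G} (hd : d ∈ E)
    (ha : a ∈ E) (hda : ¬ Commute d a) {φ : G → Fin 5 → F4} (M : UniM 5 (Dd E d) φ)
    {o w1 w2 w3 : Fin 5 → F4} (m1 : MaxL o w1) (m2 : MaxL o w2) (m3 : MaxL o w3)
    (g12 : hU w1 w2 = 1) (g21 : hU w2 w1 = 1) (g23 : hU w2 w3 = 1) (g32 : hU w3 w2 = 1)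
    (g13 : hU w1 w3 = F4.w) (g31 : hU w3 w1 = F4.w * F4.w) {p : G} (hp : Rep (Dd E d) φ p o) :
    Commute a p := by
  by_contra hpa
  obtain ⟨f1, k1, r1, c1⟩ := meets T hd ha hda M m1 hp hpa
  obtain ⟨f2, k2, r2, c2⟩ := meets T hd ha hda M m2 hp hpa
  obtain ⟨f3, k3, r3, c3⟩ := meets T hd ha hda M m3 hp hpa
  have oo := m1.1
  have gg : ∀ (u v : Fin 5 → F4) (k j : F4), hU u o = 0 → hU v o = 0 →
      hU (u + k • o) (v + j • o) = hU u v := fun u v k j h1 h2 => by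
    rw [hal, har, hsr, hsl, har, hsr, h1, oo, hpp h2]; simp
  have go : ∀ (v : Fin 5 → F4) (j : F4), hU v o = 0 → hU o (v + j • o) = 0 := fun v j h2 => by
    rw [har, hsr, oo, hpp h2]; simp
  have e12 := (gg w1 w2 k1 k2 m1.2.2.1 m2.2.2.1).trans g12
  have e21 := (gg w2 w1 k2 k1 m2.2.2.1 m1.2.2.1).trans g21
  have e23 := (gg w2 w3 k2 k3 m2.2.2.1 m3.2.2.1).trans g23
  have e32 := (gg w3 w2 k3 k2 m3.2.2.1 m2.2.2.1).trans g32
  have e13 := (gg w1 w3 k1 k3 m1.2.2.1 m3.2.2.1).trans g13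
  have e31 := (gg w3 w1 k3 k1 m3.2.2.1 m1.2.2.1).trans g31
  have e1 := go w1 k1 m1.2.2.1
  have e2 := go w2 k2 m2.2.2.1
  have e3 := go w3 k3 m3.2.2.1
  have e11 := r1.iso M
  have e22 := r2.iso M
  have e33 := r3.iso M
  have hind : ∀ c : F4, o ≠ c • (w1 + k1 • o) := fun c h => hpa (by
    have c0 : c ≠ 0 := fun h0 => hp.ne M (by rw [h, h0, zero_smul])
    have r := r1.smul c0
    rw [← h] at r
    exact (hp.eq M r) ▸ c1)
  generalize w1 + k1 • o = x1 at *
  generalize w2 + k2 • o = x2 at *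
  generalize w3 + k3 • o = x3 at *
  have hq : ∀ k : F4, ∃ q, Rep (Dd E d) φ q (o + k • x1) := fun k => exists_rep M
    (fun h => hind k (by rw [← add_left_inj (k • x1), h, vas]))
    (by rw [hal, har, hsr, hsl, har, hsr, oo, e1, hpp e1, e11]; simp)
  choose q hq using hq
  obtain ⟨k, hk, hu⟩ := one_more hL hd ha hda M r1 c1 e1 hind hq
  have k0 : k ≠ 0 := fun h => hpa (by
    have := hq 0
    rw [zero_smul, add_zero] at this
    rw [hp.eq M this]; exact h ▸ hk)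
  have T' := T.dd d
  have s := r2.conj M T' (r3.conj M T' (r1.conj M T' (r2.conj M T' (r3.conj M T' (hq k)))))
  have cj : ∀ {f g : G}, Commute a f → Commute a g → Commute a (f * g * f) := fun h1 h2 =>
    (h1.mul_right h2).mul_right h1
  have sc := cj c2 (cj c3 (cj c1 (cj c2 (cj c3 hk))))
  simp only [hal, hsl, e12, e21, e23, e32, e13, e31, e1, e2, e3, e11, e22, e33] at s
  have s' : Rep (Dd E d) φ (f2 * (f3 * (f1 * (f2 * (f3 * q k * f3) * f2) * f1) * f3) * f2)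
      (o + (k * (F4.w * F4.w)) • x1) := by
    convert s using 1
    match_scalars <;> (clear * - k; revert k; decide)
  rw [s'.eq M (hq _)] at sc
  have := hu _ sc
  revert k0 this; clear * - k; revert k; decide

theorem no_five {E : Set G} (T : TS E) (hL : ∀ e ∈ E, Uni 5 (Dd E e)) {d a : G} (hd : d ∈ E)
    (ha : a ∈ E) (hda : ¬ Commute d a) : False := by
  obtain ⟨φ, M⟩ := hL d hd
  have hq : ∀ k : F4, ∃ q, Rep (Dd E d) φ q (![0, 0, 1, 1, 0] + k • ![1, 1, 0, 0, 0]) := fun k =>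
    exists_rep M (by revert k; decide) (by revert k; decide +kernel)
  choose q hq using hq
  obtain ⟨e, he⟩ := exists_rep M (v := ![1, 1, 0, 0, 0]) (by decide) (by decide +kernel)
  have c := five_pt T hL hd ha hda M (o := ![1, 1, 0, 0, 0]) (w1 := ![0, 0, 1, 1, 0])
    (w2 := ![0, 0, 0, 1, 1]) (w3 := ![0, 0, F4.w * F4.w, 0, 1]) (by decide +kernel)
    (by decide +kernel) (by decide +kernel) (by decide +kernel) (by decide +kernel)
    (by decide +kernel) (by decide +kernel) (by decide +kernel) (by decide +kernel) he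
  have c0 := five_pt T hL hd ha hda M (o := ![0, 0, 1, 1, 0] + (0 : F4) • ![1, 1, 0, 0, 0])
    (w1 := ![1, 1, 0, 0, 0])
    (w2 := ![0, 1, 0, 0, 1]) (w3 := ![F4.w * F4.w, 0, 0, 0, 1]) (by decide +kernel)
    (by decide +kernel) (by decide +kernel) (by decide +kernel) (by decide +kernel)
    (by decide +kernel) (by decide +kernel) (by decide +kernel) (by decide +kernel) (hq 0)
  have c1 := five_pt T hL hd ha hda M (o := ![0, 0, 1, 1, 0] + (1 : F4) • ![1, 1, 0, 0, 0])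
    (w1 := ![0, 1, 1, 0, 0]) (w2 := ![1, F4.w * F4.w, F4.w, 0, 1])
    (w3 := ![F4.w * F4.w, 1, F4.w, 0, 1]) (by decide +kernel)
    (by decide +kernel) (by decide +kernel) (by decide +kernel) (by decide +kernel)
    (by decide +kernel) (by decide +kernel) (by decide +kernel) (by decide +kernel) (hq 1)
  obtain ⟨k, -, hu⟩ := one_more hL hd ha hda M he c (by decide +kernel) (by decide +kernel) hq
  exact absurd ((hu 0 c0).trans (hu 1 c1).symm) (by decide)

/-- the standard totally isotropic solid -/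
def emb (k : ℕ) (u : V4) : Fin (8 + k) → F4 :=
  Fin.append ![u 0, u 0, u 1, u 1, u 2, u 2, u 3, u 3] 0

theorem emb_add (k : ℕ) (u v : V4) (c : F4) : emb k (u + c • v) = emb k u + c • emb k v := by
  funext i
  refine Fin.addCases (fun i => ?_) (fun i => ?_) i
  · simp only [emb, Fin.append_left, Pi.add_apply, Pi.smul_apply]
    fin_cases i <;> rfl
  · simp [emb]

theorem emb_smul (k : ℕ) (v : V4) (c : F4) : emb k (c • v) = c • emb k v := by
  funext i
  refine Fin.addCases (fun i => ?_) (fun i => ?_) i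
  · simp only [emb, Fin.append_left, Pi.smul_apply]
    fin_cases i <;> rfl
  · simp [emb]

theorem emb_inj (k : ℕ) {u v : V4} (h : emb k u = emb k v) : u = v := by
  have h1 := fun i => congrFun h (Fin.castAdd k i)
  simp only [emb, Fin.append_left] at h1
  funext i
  fin_cases i
  exacts [h1 0, h1 2, h1 4, h1 6]

theorem emb_h (k : ℕ) (u v : V4) : hU (emb k u) (emb k v) = 0 := by
  rw [hU, Cfsg.hermForm, Fin.sum_univ_add]
  simp only [emb, Fin.append_left, Fin.append_right, Pi.zero_apply, zero_mul, add_zero,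
    Finset.sum_const_zero, Fin.sum_univ_eight]
  show u 0 * v 0 ^ 2 + u 0 * v 0 ^ 2 + u 1 * v 1 ^ 2 + u 1 * v 1 ^ 2 + u 2 * v 2 ^ 2 +
    u 2 * v 2 ^ 2 + u 3 * v 3 ^ 2 + u 3 * v 3 ^ 2 = 0
  generalize u 0 * v 0 ^ 2 = a, u 1 * v 1 ^ 2 = b, u 2 * v 2 ^ 2 = c, u 3 * v 3 ^ 2 = d
  revert a b c d; decide +kernel

theorem no_big {E : Set G} (F : Fi E) {k : ℕ} (hL : ∀ e ∈ E, Uni (8 + k) (Dd E e)) : False := by
  obtain ⟨d, hd, -⟩ := F.exn
  obtain ⟨φ, M⟩ := hL d hd
  have z : emb k 0 = 0 := by simpa using emb_smul k 0 0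
  have ne : ∀ u, u ≠ 0 → emb k u ≠ 0 := fun u h h1 => h (emb_inj k (h1.trans z.symm))
  obtain ⟨e, he⟩ := exists_rep M (ne ![1, 0, 0, 0] (by decide)) (emb_h k _ _)
  obtain ⟨a, ha, a1, a2⟩ := F.V e he.1.1 d hd he.1.2.1.symm
  refine no_oval (S := fun u => ∃ p, Rep (Dd E d) φ p (emb k u) ∧ Commute a p) ?_ ?_ ?_
    ⟨e, he, a1.symm⟩
  · rintro ⟨p, hp, -⟩
    exact hp.ne M z
  · rintro u c hc ⟨p, hp, h⟩
    exact ⟨p, emb_smul k u c ▸ hp.smul hc, h⟩
  · rintro u v ⟨p, hp, h⟩ hind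
    have hq : ∀ j : F4, ∃ q, Rep (Dd E d) φ q (emb k v + j • emb k u) := fun j => by
      rw [← emb_add]
      exact exists_rep M (ne _ fun h => hind j (by rw [← add_left_inj (j • u), h, f4_add_self]))
        (emb_h k _ _)
    choose q hq using hq
    obtain ⟨j, hj, hu⟩ := one_more hL hd ha a2 M hp h (emb_h k _ _)
      (fun c hc => hind c (emb_inj k (hc.trans (emb_smul k u c).symm))) hq
    refine ⟨j, ⟨q j, emb_add k v u j ▸ hq j, hj⟩, ?_⟩
    rintro i ⟨r, hr, hc⟩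
    rw [emb_add] at hr
    exact hu i (hr.eq M (hq i) ▸ hc :)

end CfsgFI.H6U

namespace CfsgFI

open Subgroup CfsgH4 CfsgH5 H6U

universe u

theorem specU (h0 : SpecU0.{u}) : SpecU.{u} := by
  intro G _ _ E n hn F L hL
  obtain ⟨d, hd, a, ha, hda⟩ := F.exn
  rcases Nat.lt_or_ge n 8 with h8 | h8
  swap
  · obtain ⟨k, rfl⟩ := Nat.exists_eq_add_of_le h8
    exact (no_big F hL).elim
  interval_cases n
  · exact Or.inl rfl
  · exact (no_five F.toTS hL hd ha hda).elim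
  · exact Or.inr rfl
  · exfalso
    have hL' : ∀ e ∈ Xs E d a, Uni 5 (Dd (Xs E d a) e) := fun e he => by
      rw [dd_xs hda he]
      exact (h0 G _ (F.toTS.dd e)).1 5 (hL e he.1) (L e he.1) d
        ⟨hd, fun h => hda (h ▸ he.2.2.symm), he.2.1.symm⟩ a
        ⟨ha, fun h => hda (h ▸ he.2.1), he.2.2.symm⟩ hda
    obtain ⟨e, he⟩ := F.mu d hd a ha hda
    obtain ⟨φ, M⟩ := hL' e he
    obtain ⟨p, hp⟩ := exists_rep M (v := ![1, 1, 0, 0, 0]) (by decide) (by decide +kernel)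
    obtain ⟨q, hq⟩ := exists_rep M (v := ![0, 1, 1, 0, 0]) (by decide) (by decide +kernel)
    exact no_five (F.toTS.xs d a) hL' hp.1.1 hq.1.1 fun h =>
      absurd ((hp.comm M hq).1 h) (by decide +kernel)

end CfsgFI
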