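import Cfsg.Agent.FI.B0

/-! Unitary geometries over the field with four elements: linear algebra. -/

set_option autoImplicit false

namespace CfsgFI

open Subgroup CfsgH4 CfsgH5

namespace U0

variable {n : ℕ}

theorem al (u v w : Fin n → F4) : hU (u + v) w = hU u w + hU v w := (tvU f4_p4 n).add_left u v w
theorem ar (u v w : Fin n → F4) : hU u (v + w) = hU u v + hU u w := (tvU f4_p4 n).add_right u v w
theorem sl (c : F4) (u v : Fin n → F4) : hU (c • u) v = c * hU u v := (tvU f4_p4 n).smul_left c u v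
theorem sr (c : F4) (u v : Fin n → F4) : hU u (c • v) = c ^ 2 * hU u v := (tvU f4_p4 n).smul_right c u v
theorem sy (u v : Fin n → F4) : hU v u = hU u v ^ 2 := (tvU f4_p4 n).symm u v
theorem pp {u v : Fin n → F4} (h : hU u v = 0) : hU v u = 0 := (tvU f4_p4 n).perp h
theorem zl (v : Fin n → F4) : hU 0 v = 0 := (tvU f4_p4 n).zero_left v

theorem f4_iso : ∀ a b β : F4, a = a ^ 2 → b = b ^ 2 → a = 0 ∨ b = 0 ∨
    ∃ c : F4, a + c ^ 2 * β + (c * β ^ 2 + c * (c ^ 2 * b)) = 0 := by decide +kernel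

/-- isotropic vectors orthogonal to few given vectors -/
theorem exists_iso_perp {k : ℕ} (hk : k + 2 ≤ n) (v : Fin k → Fin n → F4) :
    ∃ y, y ≠ 0 ∧ hU y y = 0 ∧ ∀ i, hU y (v i) = 0 := by
  let f : (Fin n → F4) →ₗ[F4] (Fin k → F4) :=
    ⟨⟨fun y i => hU y (v i), fun a b => funext fun i => al a b _⟩, fun c a => funext fun i => sl c a _⟩
  have h1 := f.finrank_range_add_finrank_ker
  have h2 := (LinearMap.range f).finrank_le
  simp only [Module.finrank_fin_fun] at h1 h2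
  obtain ⟨b, hb⟩ := exists_linearIndependent_of_le_finrank
    (R := F4) (M := LinearMap.ker f) (n := 2) (by omega)
  have hz : ∀ y : LinearMap.ker f, ∀ i, hU y.1 (v i) = 0 := fun y i => congrFun y.2 i
  have ne : ∀ y : LinearMap.ker f, y ≠ 0 → y.1 ≠ 0 := fun y hy e => hy (Subtype.ext e)
  rcases f4_iso _ _ (hU (b 0).1 (b 1).1) (sy (b 0).1 (b 0).1) (sy (b 1).1 (b 1).1) with
    h | h | ⟨c, h⟩
  · exact ⟨_, ne _ (hb.ne_zero 0), h, hz _⟩
  · exact ⟨_, ne _ (hb.ne_zero 1), h, hz _⟩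
  · refine ⟨(b 0 + c • b 1 : LinearMap.ker f), ne _ fun e => ?_, ?_, hz _⟩
    · have := Fintype.linearIndependent_iff.1 hb ![1, c] (by simpa [Fin.sum_univ_two] using e) 0
      simp at this
    · rw [Submodule.coe_add, Submodule.coe_smul, al, ar, ar, sl, sl, sr, sr, sy (b 0).1 (b 1).1]
      exact h

end U0

open U0

variable {G : Type*} [Group G] {E : Set G} {n : ℕ} {φ : G → Fin n → F4}

namespace UniM

variable (U : UniM n E φ)
include U

theorem iso {a : G} (ha : a ∈ E) : hU (φ a) (φ a) = 0 := (U.comm a ha a ha).1 (Commute.refl a)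

/-- the point of an isotropic vector -/
theorem pt {u : Fin n → F4} (h0 : u ≠ 0) (h1 : hU u u = 0) : ∃ y ∈ E, ∃ c : F4, c ≠ 0 ∧
    u = c • φ y ∧ ∀ b ∈ E, (Commute y b ↔ hU u (φ b) = 0) := by
  obtain ⟨y, hy, c, rfl⟩ := U.surj u h0 h1
  have c0 := left_ne_zero_of_smul h0
  exact ⟨y, hy, c, c0, rfl, fun b hb => by rw [U.comm y hy b hb, sl, mul_eq_zero, or_iff_right c0]⟩

theorem indep {a b : G} (ha : a ∈ E) (hb : b ∈ E) (h : a ≠ b) {α β : F4}
    (e : α • φ a = β • φ b) : α = 0 ∧ β = 0 := by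
  have h1 : α = 0 := by
    by_contra h0
    exact h (U.inj a ha b hb (α⁻¹ * β) (by rw [mul_smul, ← e, smul_smul, inv_mul_cancel₀ h0, one_smul]))
  rw [h1, zero_smul, eq_comm, smul_eq_zero] at e
  exact ⟨h1, e.resolve_right (U.ne b hb)⟩

/-- transport along an inner automorphism -/
theorem move (T : TS E) {g : G} (hg : g ∈ closure E) : UniM n E fun a => φ (g * a * g⁻¹) where
  ne a ha := U.ne _ (T.conj_mem hg ha)
  comm a ha b hb := by rw [← U.comm _ (T.conj_mem hg ha) _ (T.conj_mem hg hb), commute_conj_iff]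
  surj u h0 h1 := by
    obtain ⟨d, hd, c, e⟩ := U.surj u h0 h1
    exact ⟨g⁻¹ * d * g⁻¹⁻¹, T.conj_mem (inv_mem hg) hd, c, by rw [e]; congr 2; group⟩
  inj a ha b hb c e := by
    simpa using U.inj _ (T.conj_mem hg ha) _ (T.conj_mem hg hb) c e
  conj a ha b hb := by
    obtain ⟨c, e⟩ := U.conj _ (T.conj_mem hg ha) _ (T.conj_mem hg hb)
    exact ⟨c, by rw [← e]; congr 1; group⟩

end UniM

theorem f4_fib : ∀ α β : F4, β ≠ 0 → α * β ^ 2 + β * α ^ 2 = 0 → α = 0 ∨ α = β := by decide +kernel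

theorem UniM.fib (U : UniM n E φ) (T : TS E) (hn : 4 ≤ n) : Fib E := by
  intro d hd a ha a' ha' n1 n2 e
  have h1 : hU (φ a) (φ d) ≠ 0 := fun h => n1 ((U.comm a ha d hd).2 h).symm
  set k := hU (φ a) (φ d) with hk
  have hu : hU (k • φ d) (k • φ d) = 0 := by rw [sl, sr, U.iso hd]; simp
  have huv : hU (k • φ d) (φ a) = 1 := by rw [sl, sy, ← hk, f4_cube f4_p4 h1]
  obtain ⟨y₀, y1, y2, y3⟩ := exists_iso_perp (k := 2) hn ![k • φ d, φ a]
  have h4 := (tvU f4_p4 n).double_perp f4_w (z := φ a') (y₀ := y₀) hu (U.iso ha) huv ⟨y3 0, y3 1⟩ y1 y2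
    fun y hy h => by
      by_cases y0 : y = 0
      · rw [y0]; exact zl _
      obtain ⟨x, hx, c, -, -, hc⟩ := U.pt y0 h
      have h5 : hU y (k • φ d) = 0 := hy.1
      rw [sr, mul_eq_zero, or_iff_right (pow_ne_zero _ h1)] at h5
      have : x ∈ Xs E d a' := e ▸ ⟨hx, ((hc d hd).2 h5).symm, ((hc a ha).2 hy.2).symm⟩
      exact (hc a' ha').1 this.2.2.symm
  have b0 : hU (φ a') (k • φ d) ≠ 0 := by
    rw [sr]; exact mul_ne_zero (pow_ne_zero _ h1) fun h => n2 ((U.comm a' ha' d hd).2 h).symm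
  change φ a' = hU (φ a') (φ a) • (k • φ d) + hU (φ a') (k • φ d) • φ a at h4
  generalize hU (φ a') (φ a) = α at h4
  generalize hU (φ a') (k • φ d) = β at h4 b0
  have h5 := U.iso ha'
  rw [h4, al, ar, ar, sl α, sl α, sl β, sl β, sr α, sr α, sr β, sr β, hu, U.iso ha, huv,
    sy (k • φ d), huv] at h5
  rcases f4_fib α β b0 (by linear_combination h5) with rfl | rfl
  · exact Or.inl (U.inj _ ha' _ ha β (by rw [h4, zero_smul, zero_add]))
  · obtain ⟨c, hc⟩ := U.conj d hd a ha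
    have c0 : c ≠ 0 := fun h => U.ne _ (T.cl d hd a ha) (by rw [hc, h, zero_smul])
    refine Or.inr (U.inj _ ha' _ (T.cl d hd a ha) (α * c⁻¹) ?_)
    rw [hc, h4, smul_smul (α * c⁻¹), mul_assoc, inv_mul_cancel₀ c0, mul_one, smul_add, add_comm]

theorem UniM.lam {φ : G → Fin 6 → F4} (U : UniM 6 E φ) {e x x' : G} (he : e ∈ E) (hx : x ∈ Dd E e)
    (hx' : x' ∈ Dd E e) : ∃ y ∈ Dd E e, y ≠ x ∧ y ≠ x' ∧ Commute y x ∧ Commute y x' := by
  have ex := (U.comm e he x hx.1).1 hx.2.2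
  have ex' := (U.comm e he x' hx'.1).1 hx'.2.2
  by_cases h : Commute x x'
  · have xx := (U.comm x hx.1 x' hx'.1).1 h
    have key : ∀ t : F4, t ≠ 0 → ∃ y ∈ Dd E e, y ≠ x ∧ Commute y x ∧ Commute y x' ∧
        ∃ c : F4, φ e + t • φ x = c • φ y := fun t ht => by
      have i1 : ∀ c : F4, φ e + t • φ x ≠ c • φ x := fun c h => one_ne_zero (U.indep he hx.1
        hx.2.1.symm (α := 1) (β := c - t) (by rw [sub_smul, ← h, one_smul, add_sub_cancel_right])).1
      obtain ⟨y, hy, c, -, e1, hc⟩ := U.pt (u := φ e + t • φ x) (by simpa using i1 0)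
        (by rw [al, ar, ar, sl, sl, sr, sr, U.iso he, U.iso hx.1, ex, pp ex]; simp)
      refine ⟨y, ⟨hy, ?_, ((hc e he).2 ?_).symm⟩, ?_, (hc x hx.1).2 ?_, (hc x' hx'.1).2 ?_, c, e1⟩
      · rintro rfl
        exact ht (U.indep hx.1 he hx.2.1 (α := t) (β := c - 1)
          (by rw [sub_smul, ← e1, one_smul, add_sub_cancel_left])).1
      · rw [al, sl, U.iso he, pp ex]; simp
      · rintro rfl; exact i1 c e1
      · rw [al, sl, U.iso hx.1, ex]; simp
      · rw [al, sl, ex', xx]; simp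
    obtain ⟨y, y1, y2, y3, y4, c, e1⟩ := key 1 one_ne_zero
    obtain ⟨z, z1, z2, z3, z4, c', e2⟩ := key F4.w (by decide)
    by_cases hy : y = x'
    swap; · exact ⟨y, y1, y2, hy, y3, y4⟩
    refine ⟨z, z1, z2, fun hz => ?_, z3, z4⟩
    rw [hy] at e1; rw [hz] at e2
    have := U.indep he hx.1 hx.2.1.symm (α := c' - c) (β := c * F4.w - c') (by
      have : c' • (φ e + (1 : F4) • φ x) = c • (φ e + F4.w • φ x) := by
        rw [e1, e2, smul_comm]
      linear_combination (norm := module) this)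
    have c0 : c = 0 := (by decide : ∀ c c' : F4, c' - c = 0 ∧ c * F4.w - c' = 0 → c = 0) c c' this
    rw [c0, zero_smul] at e1
    exact one_ne_zero (U.indep he hx.1 hx.2.1.symm (α := 1) (β := -1)
      (by rw [one_smul, neg_smul, eq_neg_iff_add_eq_zero, e1])).1
  · obtain ⟨f, hf⟩ := (tvU f4_p4 6).exists_h_ne (U.ne e he)
    obtain ⟨u, u1, u2, u3⟩ := exists_iso_perp (k := 4) (n := 6) le_rfl ![φ e, φ x, φ x', f]
    obtain ⟨y, hy, c, c0, e1, hc⟩ := U.pt u1 u2
    have c1 := (hc x hx.1).2 (u3 1)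
    have c2 := (hc x' hx'.1).2 (u3 2)
    refine ⟨y, ⟨hy, ?_, ((hc e he).2 (u3 0)).symm⟩, ?_, ?_, c1, c2⟩
    · rintro rfl
      have := u3 3
      rw [e1, sl] at this
      exact mul_ne_zero c0 hf this
    · rintro rfl; exact h c2
    · rintro rfl; exact h c1.symm

end CfsgFI
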