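/-
The six-dimensional unitary geometry: `SpecU6`.
-/
import Cfsg.Agent.FI.U6o

set_option autoImplicit false
set_option maxRecDepth 100000

namespace CfsgFI

universe u

namespace U6

open CfsgH4 CfsgH5 CfsgH5.KT CfsgLY Subgroup

/-- the code of a letter -/
def gc (x : ℕ) : ℕ := nthD GV 0 x

def relChk (r : List ℕ × ℕ × List ℕ × ℕ) : Bool :=
  band (band (allL (r.1.map gc) ok) (ok (gc r.2.1))) (band (band (allL (r.2.2.1.map gc) ok) (ok (gc r.2.2.2)))
    (peq (act (r.1.map gc) (gc r.2.1)) (act (r.2.2.1.map gc) (gc r.2.2.2))))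

def cenChk (w : List ℕ) : Bool :=
  band (allL (w.map gc) ok) (allLt 7 fun x => peq (act (w.map gc) (gc (x + 1))) (gc (x + 1)))

def fixChk (gs : List (List ℕ)) (p : ℕ) : Bool :=
  band (ok p) (allL gs fun l => band (allL l ok) (peq (act l p) p))

theorem k_rel : allL RB relChk = true := by decide +kernel
theorem k_cen : allL (zeta :: CZ) cenChk = true := by decide +kernel
theorem k_gc : allLt 7 (fun x => ok (gc (x + 1))) = true := by decide +kernel
theorem k_all : allLt 4096 (fun v => bimp (ok v) (bimp (Nat.beq (nrmN v) v) (tb S1 v))) = true := by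
  decide +kernel
theorem k_g1 : allL G1 (fun l => allL l ok) = true := by decide +kernel
theorem k_g2 : allL G2 (fun l => allL l fun v => band (ok v) (Nat.beq (hN p1 v) 0)) = true := by
  decide +kernel
theorem k_f3 : fixChk G3 p2 = true := by decide +kernel
theorem k_f4 : fixChk G4 p3 = true := by decide +kernel
theorem k_f5 : fixChk G5 p4 = true := by decide +kernel
theorem k_f6 : fixChk G6 p5 = true := by decide +kernel
theorem k_f7 : fixChk G7 p6 = true := by decide +kernel
theorem k_p : ok p1 = true ∧ ok p7 = true := by decide +kernel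

variable {G : Type*} [Group G] {Y : Set G} {φ : G → Fin 6 → F4}

/-- the generators -/
noncomputable def gl (Y : Set G) (φ : G → Fin 6 → F4) (x : ℕ) : G := pt Y φ (gc x)

theorem prod_gl (l : List ℕ) : (l.map (gl Y φ)).prod = ev Y φ (l.map gc) := by
  rw [ev, List.map_map]; rfl

theorem map_wl {Q : Type*} [Group Q] (f : G →* Q) (g : ℕ → G) (l : List ℕ) :
    wl (f ∘ g) l = f (wl g l) := by
  rw [wl, wl, map_list_prod, List.map_map]

theorem comm_pow3 {u v : G} (hu : u ^ 3 = 1) (h : Commute (u * v * u⁻¹ * v⁻¹) u) :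
    (u * v * u⁻¹ * v⁻¹) ^ 3 = 1 := by
  generalize hz : u * v * u⁻¹ * v⁻¹ = z at h
  have h1 : u * v = z * v * u := by rw [← hz]; group
  have h2 : ∀ n : ℕ, u ^ n * v = z ^ n * v * u ^ n := fun n => by
    induction n with
    | zero => simp
    | succ n ih =>
      rw [pow_succ' u, mul_assoc, ih, ← mul_assoc, ← mul_assoc, ← (h.pow_left n).eq, mul_assoc _ u,
        h1, pow_succ z]
      simp only [mul_assoc]
  have h3 := h2 3
  rw [hu] at h3
  simpa using h3.symm

theorem tri3 {a b c : G} (sa : a * a = 1) (sb : b * b = 1) (sc : c * c = 1) (h : (a * b) ^ 3 = 1)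
    (h1 : Commute (a * b * c * (a * b * c)) a) (h2 : Commute (a * b * c * (a * b * c)) b) :
    (a * b * c * (a * b * c)) ^ 3 = 1 := by
  have e : a * b * c * (a * b * c) = a * b * (c * b) * (a * b)⁻¹ * (c * b)⁻¹ := by
    rw [mul_inv_rev, mul_inv_rev, inv_eq_of_mul_eq_one_right sa, inv_eq_of_mul_eq_one_right sb,
      inv_eq_of_mul_eq_one_right sc, show a * b * (c * b) * (b * a) * (b * c) =
        a * b * c * (b * b) * (a * b * c) by simp only [mul_assoc], sb, mul_one]
  have h3 := h1.mul_right h2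
  rw [e] at h3 ⊢
  exact comm_pow3 h h3

namespace Ctx

variable (C : Ctx Y φ)
include C

theorem gl_sq (x : ℕ) : gl Y φ x * gl Y φ x = 1 := C.pt_sq _

theorem prod_rev (l : List ℕ) : (l.reverse.map (gl Y φ)).prod = (ev Y φ (l.map gc))⁻¹ := by
  have := wl_reverse C.gl_sq l
  rw [wl, wl, List.reverse_reverse, prod_gl] at this
  rw [this, inv_inv]

theorem rel_one {r : List ℕ × ℕ × List ℕ × ℕ} (h : relChk r = true) : wl (gl Y φ) (relw r) = 1 := by
  simp only [relChk, band_eq, Bool.and_eq_true] at h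
  obtain ⟨⟨h1, h2⟩, ⟨h3, h4⟩, h5⟩ := h
  have a1 := C.rep_act h1 (C.rep_pt h2)
  have a2 := C.rep_act h3 (C.rep_pt h4)
  refine wl_eq_one C.gl_sq ?_
  have := C.sq _ a1.1
  nth_rewrite 2 [C.of_peq a1 a2 h5] at this
  simp only [relw, List.map_append, List.map_cons, List.prod_append, List.prod_cons, prod_gl,
    C.prod_rev]
  simpa only [mul_assoc, gl] using this

theorem trans {y : G} (hy : y ∈ Y) : ∃ k ∈ grp (gl Y φ) 7, k * gl Y φ 1 * k⁻¹ = y := by
  obtain ⟨v, h1, h2, h3⟩ := C.exists_rep hy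
  have hv := (ok_iff.1 h1).1
  have h4 := (allLt_iff _ _).1 k_all v hv
  rw [h1, (beq_true_iff _ _).2 h2] at h4
  obtain ⟨-, k, hk, e⟩ := C.orb_sound k_g1 o1 hv h4
  refine ⟨k, (closure_le _).2 ?_ hk, e.trans (C.uniq (C.rep_pt h1) h3)⟩
  rintro _ ⟨w, hw, rfl⟩
  have h5 : ∀ w ∈ G1, ∃ x, x < 8 ∧ 0 < x ∧ w = [gc x] := by decide
  obtain ⟨x, x1, x2, rfl⟩ := h5 w hw
  simpa [ev, gl] using mem_grp (gl Y φ) (L := 7) x2 (by omega)

theorem le_grp : closure Y ≤ grp (gl Y φ) 7 := (closure_le _).2 fun y hy => by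
  obtain ⟨k, hk, rfl⟩ := C.trans hy
  exact mul_mem (mul_mem hk (mem_grp _ (by norm_num) (by norm_num))) (inv_mem hk)

theorem cen {w : List ℕ} (h : cenChk w = true) : wl (gl Y φ) w ∈ centralizer Y := by
  simp only [cenChk, band_eq, Bool.and_eq_true, allLt_iff] at h
  rw [wl, C.prod_rev]
  refine inv_mem fun y hy => ?_
  have h1 : grp (gl Y φ) 7 ≤ centralizer {ev Y φ (w.map gc)} := (closure_le _).2 (by
    rintro _ ⟨x, ⟨x1, x2⟩, rfl⟩
    obtain ⟨x, rfl⟩ : ∃ y, x = y + 1 := ⟨x - 1, by omega⟩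
    exact mem_centralizer_singleton_iff.2
      (C.fix h.1 ((allLt_iff _ _).1 k_gc x (by omega)) (h.2 x (by omega))).symm)
  exact mem_centralizer_singleton_iff.1 (h1 (C.le_grp (subset_closure hy)))

theorem zeta3 : wl (gl Y φ) zeta ^ 3 = 1 := by
  have hw : ∀ (w : List ℕ) (x v : ℕ), band (allL (w.map gc) ok) (band (ok (gc x)) (band (ok v)
      (peq (act (w.map gc) (gc x)) v))) = true →
      ((w ++ x :: w.reverse).map (gl Y φ)).prod = pt Y φ v := fun w x v h => by
    simp only [band_eq, Bool.and_eq_true] at h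
    rw [← C.of_peq (C.rep_act h.1 (C.rep_pt h.2.1)) (C.rep_pt h.2.2.1) h.2.2.2]
    simp only [List.map_append, List.map_cons, List.prod_append, List.prod_cons, prod_gl,
      C.prod_rev, mul_assoc, gl]
  have e1 := hw [3, 4, 1, 3] 2 1992 (by decide +kernel)
  have e2 := hw [5, 2, 3, 4, 6, 1, 3, 2, 5, 4, 3, 2] 1 1267 (by decide +kernel)
  have e3 : zeta = (4 :: ([3, 4, 1, 3] ++ 2 :: [3, 4, 1, 3].reverse) ++ [6]) ++
      (4 :: ([3, 4, 1, 3] ++ 2 :: [3, 4, 1, 3].reverse) ++ [6]) ++
      ((1 :: 2 :: ([5, 2, 3, 4, 6, 1, 3, 2, 5, 4, 3, 2] ++ 1 :: [5, 2, 3, 4, 6, 1, 3, 2, 5, 4, 3, 2].reverse)) ++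
      (1 :: 2 :: ([5, 2, 3, 4, 6, 1, 3, 2, 5, 4, 3, 2] ++ 1 :: [5, 2, 3, 4, 6, 1, 3, 2, 5, 4, 3, 2].reverse))) := by
    decide
  have e4 : (zeta.map (gl Y φ)).prod = ev Y φ [1054, 1992, 1480, 1054, 1992, 1480] *
      ev Y φ [18, 1093, 1267, 18, 1093, 1267] := by
    rw [e3]
    generalize ([3, 4, 1, 3] ++ 2 :: [3, 4, 1, 3].reverse : List ℕ) = A at e1 ⊢
    generalize ([5, 2, 3, 4, 6, 1, 3, 2, 5, 4, 3, 2] ++
      1 :: [5, 2, 3, 4, 6, 1, 3, 2, 5, 4, 3, 2].reverse : List ℕ) = B at e2 ⊢
    simp only [List.map_append, List.map_cons, List.prod_append, List.prod_cons, e1, e2, ev,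
      List.map_nil, List.prod_nil, mul_one, mul_assoc]
    rfl
  have h3 : ∀ a b c : ℕ, band (allL [a, b, c, a, b, c] ok) (band (peq (act [a] b) (act [b] a))
      (band (peq (act [a, b, c, a, b, c] a) a) (peq (act [a, b, c, a, b, c] b) b))) = true →
      ev Y φ [a, b, c, a, b, c] ^ 3 = 1 := fun a b c h => by
    simp only [band_eq, Bool.and_eq_true] at h
    have h0 := (allL_iff _ _).1 h.1
    have ha := h0 a (by simp)
    have hb := h0 b (by simp)
    have f1 := C.fix h.1 ha h.2.2.1
    have f2 := C.fix h.1 hb h.2.2.2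
    have f3 := C.of_peq (C.rep_act (l := [a]) (by simp [allL_iff, ha]) (C.rep_pt hb))
      (C.rep_act (l := [b]) (by simp [allL_iff, hb]) (C.rep_pt ha)) h.2.1
    have e : ev Y φ [a, b, c, a, b, c] = pt Y φ a * pt Y φ b * pt Y φ c * (pt Y φ a * pt Y φ b * pt Y φ c) := by
      simp [ev, mul_assoc]
    rw [e] at f1 f2 ⊢
    refine tri3 (C.pt_sq a) (C.pt_sq b) (C.pt_sq c) ?_ f1 f2
    simp only [ev, List.map_cons, List.map_nil, List.prod_cons, List.prod_nil, mul_one,
      inv_eq_of_mul_eq_one_right (C.pt_sq _)] at f3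
    rw [show (pt Y φ a * pt Y φ b) ^ 3 = pt Y φ a * pt Y φ b * pt Y φ a * (pt Y φ b * pt Y φ a * pt Y φ b) by
      simp only [pow_succ, pow_zero, one_mul, mul_assoc], ← f3]
    exact C.sq _ (C.cl _ (C.rep_pt ha).1 _ (C.rep_pt hb).1)
  have h4 : Commute (ev Y φ [1054, 1992, 1480, 1054, 1992, 1480])
      (ev Y φ [18, 1093, 1267, 18, 1093, 1267]) := by
    have f1 := C.fix (l := [1054, 1992, 1480, 1054, 1992, 1480]) (v := 18) (by decide +kernel)
      (by decide +kernel) (by decide +kernel)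
    have f2 := C.fix (l := [1054, 1992, 1480, 1054, 1992, 1480]) (v := 1093) (by decide +kernel)
      (by decide +kernel) (by decide +kernel)
    have f3 := C.fix (l := [1054, 1992, 1480, 1054, 1992, 1480]) (v := 1267) (by decide +kernel)
      (by decide +kernel) (by decide +kernel)
    exact f1.mul_right (f2.mul_right (f3.mul_right (f1.mul_right (f2.mul_right (f3.mul_right
      (Commute.one_right _))))))
  rw [wl, C.prod_rev, ← prod_gl, e4, inv_pow, h4.mul_pow, h3 _ _ _ (by decide +kernel),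
    h3 _ _ _ (by decide +kernel), one_mul, inv_one]

variable [Finite G] (hY : closure Y = ⊤)
include hY

theorem grp_top {Q : Type*} [Group Q] (f : G →* Q) (hf : Function.Surjective f) :
    grp (f ∘ gl Y φ) 7 = ⊤ := by
  have h : grp (gl Y φ) 7 = ⊤ := top_le_iff.1 (hY ▸ C.le_grp)
  rw [← map_top_of_surjective f hf, ← h, grp, grp, MonoidHom.map_closure, Set.image_comp]

omit C [Finite G] in
theorem normal {N : Subgroup G} (h : N ≤ centralizer Y) : N.Normal := ⟨fun n hn g => by
  have h1 : closure Y ≤ centralizer {n} := (closure_le _).2 fun y hy =>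
    mem_centralizer_singleton_iff.2 (h hn y hy)
  rwa [mem_centralizer_singleton_iff.1 (h1 (hY ▸ mem_top g)), mul_inv_cancel_right]⟩

theorem upA : (zpowers (wl (gl Y φ) zeta)).index ≤ 8 * 9196830720 := by
  have := normal hY (zpowers_le_of_mem (C.cen ((allL_iff _ _).1 k_cen _ List.mem_cons_self)))
  have := tcA (g := QuotientGroup.mk' (zpowers (wl (gl Y φ) zeta)) ∘ gl Y φ)
    (fun x => by rw [Function.comp, ← map_mul, C.gl_sq, map_one]) fun l hl => by
      rw [map_wl]
      rcases List.mem_append.1 hl with h | h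
      · obtain ⟨r, hr, rfl⟩ := List.mem_map.1 h
        rw [C.rel_one ((allL_iff _ _).1 k_rel r hr), map_one]
      · rw [List.mem_singleton.1 h]
        exact (QuotientGroup.eq_one_iff _).2 (mem_zpowers _)
  rwa [C.grp_top hY _ (QuotientGroup.mk'_surjective _), card_top] at this

theorem upB : (centralizer Y).index ≤ 9196830720 := by
  have := normal hY (le_refl (centralizer Y))
  have := tcB (g := QuotientGroup.mk' (centralizer Y) ∘ gl Y φ)
    (fun x => by rw [Function.comp, ← map_mul, C.gl_sq, map_one]) fun l hl => by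
      rw [map_wl]
      rcases List.mem_append.1 hl with h | h
      · rcases List.mem_append.1 h with h | h
        · obtain ⟨r, hr, rfl⟩ := List.mem_map.1 h
          rw [C.rel_one ((allL_iff _ _).1 k_rel r hr), map_one]
        · rw [List.mem_singleton.1 h]
          exact (QuotientGroup.eq_one_iff _).2 (C.cen ((allL_iff _ _).1 k_cen _ List.mem_cons_self))
      · exact (QuotientGroup.eq_one_iff _).2
          (C.cen ((allL_iff _ _).1 k_cen _ (List.mem_cons_of_mem _ h)))
  rwa [C.grp_top hY _ (QuotientGroup.mk'_surjective _), card_top] at this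

omit hY in
theorem cle {p : ℕ} (hp : ok p = true) : centralizer Y ≤ centralizer {pt Y φ p} :=
  centralizer_le (Set.singleton_subset_iff.2 (C.rep_pt hp).1)

omit hY in
theorem stp {A B : List (List ℕ)} {S par dep r n m : ℕ} (hA : allL A (fun l => allL l ok) = true)
    (h : fixChk B r = true) (ho : orb (A ++ B) S par dep r = true) (hn : countLt 4096 (tb S) = n)
    (hm : m ≤ (centralizer Y).relIndex (Hs Y φ B)) :
    n * m ≤ (centralizer Y).relIndex (Hs Y φ (A ++ B)) := by
  simp only [fixChk, band_eq, Bool.and_eq_true, allL_iff B] at h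
  refine step (C.cle h.1) (closure_mono (Set.image_mono fun w hw => List.mem_append_right _ hw))
    ((closure_le _).2 ?_) (hn ▸ C.orb_le ((allL_iff _ _).2 fun l hl => ?_) ho) hm
  · rintro _ ⟨w, hw, rfl⟩
    exact mem_centralizer_singleton_iff.2 (C.fix (h.2 w hw).1 h.1 (h.2 w hw).2)
  · rcases List.mem_append.1 hl with h1 | h1
    · exact (allL_iff _ _).1 hA l h1
    · exact (h.2 l h1).1

omit hY in
theorem low : 13271040 ≤ (centralizer Y).relIndex (closure (perp Y (gl Y φ 1))) := by
  have h8 : 1 ≤ (centralizer Y).relIndex (Hs Y φ []) := Nat.pos_of_ne_zero index_ne_zero_of_finite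
  have h7 := C.stp (A := G7) (B := []) (r := p7) (by decide +kernel) (by decide +kernel)
    (by rw [List.append_nil]; exact o7) c7 h8
  rw [List.append_nil] at h7
  have h6 := C.stp (by decide +kernel) k_f7 o6 c6 h7
  have h5 := C.stp (by decide +kernel) k_f6 o5 c5 h6
  have h4 := C.stp (by decide +kernel) k_f5 o4 c4 h5
  have h3 := C.stp (by decide +kernel) k_f4 o3 c3 h4
  have h2 := C.stp (by decide +kernel) k_f3 o2 c2 h3
  refine h2.trans (relIndex_le_of_le_right ((closure_le _).2 ?_) index_ne_zero_of_finite)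
  rintro _ ⟨w, hw, rfl⟩
  refine Subgroup.list_prod_mem _ fun x hx => ?_
  obtain ⟨v, hv, rfl⟩ := List.mem_map.1 hx
  have := (allL_iff _ _).1 ((allL_iff _ _).1 k_g2 w hw) v hv
  simp only [band_eq, Bool.and_eq_true, beq_true_iff] at this
  exact subset_closure ⟨(C.rep_pt this.1).1, C.comm_of (C.rep_pt k_p.1) (C.rep_pt this.1) this.2⟩

theorem top {H : Subgroup G} (h : H ≤ centralizer {gl Y φ 1}) :
    693 * (centralizer Y).relIndex H ≤ (centralizer Y).index := by
  rw [← relIndex_top_right]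
  exact step (C.cle k_p.1) le_top h ((c1 ▸ C.orb_le k_g1 o1).trans
    (relIndex_le_of_le_right le_top index_ne_zero_of_finite)) le_rfl

theorem ord : (centralizer Y).index = 9196830720 := by
  have h1 := C.top hY (H := closure (perp Y (gl Y φ 1))) fun g hg =>
    mem_centralizer_singleton_iff.2 (commute_of_mem_perp hg)
  have h2 := C.low
  have h3 := C.upB hY
  omega

theorem pa {c : G} (hc : c ∈ Y) {g : G} (h : Commute g c) :
    ∃ k ∈ closure (perp Y c), g * k⁻¹ ∈ centralizer Y := by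
  have := normal hY (le_refl (centralizer Y))
  have h0 : (closure (perp Y (gl Y φ 1))).map (QuotientGroup.mk' (centralizer Y)) =
      (centralizer {gl Y φ 1}).map (QuotientGroup.mk' (centralizer Y)) := by
    refine eq_of_le_of_card_ge (map_mono fun g hg =>
      mem_centralizer_singleton_iff.2 (commute_of_mem_perp hg)) ?_
    rw [← relIndex_ker, ← relIndex_ker, QuotientGroup.ker_mk']
    have h1 := C.top hY (le_refl _)
    have h2 := C.low
    have h3 := C.upB hY
    omega
  obtain ⟨t, -, rfl⟩ := C.trans hc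
  have h1 : t⁻¹ * g * t ∈ centralizer {gl Y φ 1} := mem_centralizer_singleton_iff.2 (by
    have := h.conj t⁻¹
    simpa [mul_assoc] using this.eq)
  obtain ⟨k, hk, e⟩ : QuotientGroup.mk' (centralizer Y) (t⁻¹ * g * t) ∈ _ :=
    h0 ▸ mem_map_of_mem _ h1
  have hcj : ∀ t : G, ∀ y ∈ Y, t * y * t⁻¹ ∈ Y := fun t => by
    have : closure Y ≤ normalizer Y := (closure_le _).2 fun a ha => mem_normalizer_fintype fun y hy => by
      rw [inv_eq_of_mul_eq_one_right (C.sq a ha)]; exact C.cl a ha y hy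
    exact fun y hy => (mem_set_normalizer_iff.1 (this (hY ▸ mem_top t)) y).1 hy
  refine ⟨t * k * t⁻¹, ?_, ?_⟩
  · have : (closure (perp Y (gl Y φ 1))).map (MulAut.conj t).toMonoidHom ≤
        closure (perp Y (t * gl Y φ 1 * t⁻¹)) := by
      rw [MonoidHom.map_closure]
      refine closure_mono ?_
      rintro _ ⟨y, hy, rfl⟩
      exact ⟨hcj t y hy.1, hy.2.conj t⟩
    exact this (mem_map_of_mem _ hk)
  · have h2 : t⁻¹ * g * t * k⁻¹ ∈ centralizer Y := by
      rw [← QuotientGroup.ker_mk' (centralizer Y), MonoidHom.mem_ker, map_mul, map_inv, e,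
        mul_inv_cancel]
    have h3 := (inferInstance : (centralizer Y).Normal).conj_mem _ h2 t
    convert h3 using 1
    group

theorem two : ¬ 16 ∣ Nat.card (centralizer Y) := fun h => by
  have hz := zpowers_le_of_mem (C.cen ((allL_iff _ _).1 k_cen _ List.mem_cons_self))
  have h1 := relIndex_mul_index hz
  have h2 := C.upA hY
  rw [C.ord hY] at h1
  have h3 := relIndex_mul_relIndex _ _ _ bot_le hz
  rw [relIndex_bot_left, relIndex_bot_left, Nat.card_zpowers] at h3
  have h4 : (zpowers (wl (gl Y φ) zeta)).relIndex (centralizer Y) ≠ 0 := index_ne_zero_of_finite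
  have h5 := (Nat.dvd_prime Nat.prime_three).1 (orderOf_dvd_of_pow_eq_one C.zeta3)
  rcases h5 with h5 | h5 <;> rw [h5] at h3 <;> omega

end Ctx

end U6

open U6 Subgroup CfsgH4 in
theorem specU6 : SpecU6.{u} := by
  intro G _ _ Y hT ⟨φ, hU⟩
  let Y' : Set (closure Y) := (closure Y).subtype ⁻¹' Y
  have hc : ∀ a b : closure Y, Commute a b ↔ Commute (a : G) b := fun a b => Subtype.ext_iff
  have C : Ctx Y' (fun a => φ a) :=
    { ne := fun a ha => hU.ne a ha
      comm := fun a ha b hb => (hc a b).trans (hU.comm a ha b hb)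
      surj := fun u h1 h2 => by
        obtain ⟨d, hd, c, e⟩ := hU.surj u h1 h2
        exact ⟨⟨d, subset_closure hd⟩, hd, c, e⟩
      inj := fun a ha b hb c h => Subtype.ext (hU.inj a ha b hb c h)
      conj := fun a ha b hb => hU.conj a ha b hb
      sq := fun a ha => Subtype.ext (tt_sq hT.tt ha)
      cl := fun a ha b hb => hT.cl a ha b hb }
  have hY : closure Y' = ⊤ := closure_closure_coe_preimage
  have hC : centralizer Y' = (centralizer Y).subgroupOf (closure Y) := by
    ext g
    exact ⟨fun h y hy => congrArg Subtype.val (h ⟨y, subset_closure hy⟩ hy),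
      fun h y hy => Subtype.ext (h y hy)⟩
  refine ⟨fun c h1 g hg h2 => ?_, ?_, ?_⟩
  · obtain ⟨k, hk, h3⟩ := C.pa hY (c := ⟨c, subset_closure h1⟩) h1 (g := ⟨g, hg⟩) ((hc _ _).2 h2)
    rw [hC] at h3
    refine ⟨k, ?_, h3⟩
    have : (closure (perp Y' ⟨c, subset_closure h1⟩)).map (closure Y).subtype ≤ closure (perp Y c) := by
      rw [MonoidHom.map_closure]
      refine closure_mono ?_
      rintro _ ⟨y, hy, rfl⟩
      exact ⟨hy.1, (hc _ _).1 hy.2⟩
    exact this (mem_map_of_mem _ hk)
  · have := C.ord hY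
    rwa [hC] at this
  · have := C.two hY
    rwa [hC, ← inf_subgroupOf_right, Nat.card_congr (subgroupOfEquivOfLe inf_le_right).toEquiv] at this

end CfsgFI
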