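/-
The six-dimensional unitary geometry: codes of points, words and orbits.
-/
import Cfsg.Agent.FI.Defs
import Cfsg.Agent.FI.U6t
import Cfsg.Agent.H5.Uni

set_option autoImplicit false

namespace CfsgFI.U6

open CfsgH4 CfsgH5 CfsgH5.KT CfsgLY Subgroup

noncomputable section

def dg (v i : ℕ) : ℕ := ap 2 3 v i
def m4 (a b : ℕ) : ℕ := fop 2 3 TM4 a b
def hN (u v : ℕ) : ℕ := fsum 2 3 TA4 6 fun i => m4 (dg u i) (m4 (dg v i) (dg v i))
def smN (c v : ℕ) : ℕ := pack 2 6 fun i => m4 c (dg v i)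
def tvN (a b : ℕ) : ℕ := force (hN b a) fun c => pack 2 6 fun i => fop 2 3 TA4 (dg b i) (m4 c (dg a i))
def nrmN (v : ℕ) : ℕ := min v (min (smN 2 v) (smN 3 v))
def ok (v : ℕ) : Bool := band (Nat.blt v 4096) (band (Nat.blt 0 v) (Nat.beq (hN v v) 0))
def act (l : List ℕ) (v : ℕ) : ℕ :=
  List.rec (motive := fun _ => ℕ) v (fun a _ ih => force ih (tvN a)) l
def peq (u v : ℕ) : Bool := force u fun u => force v fun v => Nat.beq (nrmN u) (nrmN v)
def vec (v : ℕ) : Fin 6 → F4 := fun i => dec4 (dg v i)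

theorem dg_lt (v i : ℕ) : dg v i < 2 ^ 2 := ft4.ap_lt' v i
theorem m4_lt (a b : ℕ) : m4 a b < 2 ^ 2 := ft4.ap_lt' _ _
theorem hN_lt (u v : ℕ) : hN u v < 2 ^ 2 := ft4.fsum_lt _ _

theorem vec_pack {f : ℕ → ℕ} (hf : ∀ i, f i < 2 ^ 2) (i : Fin 6) : vec (pack 2 6 f) i = dec4 (f i) := by
  change dec4 (ap 2 (2 ^ 2 - 1) (pack 2 6 f) i) = _
  rw [ap_pack _ _ _ (fun i _ => hf i) i i.2]

theorem dec_m4 {a b : ℕ} (ha : a < 2 ^ 2) (hb : b < 2 ^ 2) : dec4 (m4 a b) = dec4 a * dec4 b :=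
  ft4.mul a ha b hb

theorem dec_hN (u v : ℕ) : dec4 (hN u v) = hU (vec u) (vec v) := by
  refine (ft4.dec_fsum 6 fun i => m4_lt _ _).trans (Finset.sum_congr rfl fun i _ => ?_)
  change dec4 (m4 _ _) = _
  rw [dec_m4 (dg_lt _ _) (m4_lt _ _), dec_m4 (dg_lt _ _) (dg_lt _ _), pow_two]
  rfl

theorem vec_smN {c : ℕ} (hc : c < 2 ^ 2) (v : ℕ) : vec (smN c v) = dec4 c • vec v := by
  funext i
  rw [smN, vec_pack fun i => m4_lt _ _, dec_m4 hc (dg_lt _ _)]
  rfl

theorem vec_tvN (a b : ℕ) : vec (tvN a b) = vec b + hU (vec b) (vec a) • vec a := by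
  funext i
  rw [tvN, force_eq, vec_pack (f := fun i => fop 2 3 TA4 (dg b i) (m4 (hN b a) (dg a i)))
    fun i => ft4.ap_lt' _ _]
  refine (ft4.add _ (dg_lt _ _) _ (m4_lt _ _)).trans ?_
  change dec4 _ + dec4 _ = _
  rw [dec_m4 (hN_lt _ _) (dg_lt _ _), dec_hN]
  rfl

theorem dec_inj : ∀ a, a < 2 ^ 2 → ∀ b, b < 2 ^ 2 → dec4 a = dec4 b → a = b := by decide

theorem K1 : allLt 4096 (fun v => band (Nat.beq (pack 2 6 (dg v)) v) (band (Nat.beq (nrmN (nrmN v)) (nrmN v))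
    (bimp (Nat.beq (nrmN v) v) (allLt 4 fun c => bimp (Nat.blt 0 c) (force (smN c v) fun u =>
      bimp (Nat.beq (nrmN u) u) (Nat.beq u v)))))) = true := by decide +kernel

theorem K1' {v : ℕ} (h : v < 4096) : pack 2 6 (dg v) = v ∧ nrmN (nrmN v) = nrmN v ∧
    (nrmN v = v → ∀ c, c < 4 → 0 < c → nrmN (smN c v) = smN c v → smN c v = v) := by
  have := (allLt_iff _ _).1 K1 v h
  simp only [band_eq, bimp_eq, Bool.and_eq_true, beq_true_iff, Bool.or_eq_true, Bool.not_eq_true',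
    allLt_iff, force_eq, ← Bool.not_eq_true, blt_true_iff] at this
  refine ⟨this.1, this.2.1, fun h1 c h2 h3 h4 => ?_⟩
  exact (((this.2.2.resolve_left (not_not.2 h1)) c h2).resolve_left (not_not.2 h3)).resolve_left
    (not_not.2 h4)

theorem eq_smN {u v c : ℕ} (hu : u < 4096) (hc : c < 2 ^ 2) (h : vec u = dec4 c • vec v) :
    u = smN c v := by
  rw [← (K1' hu).1, smN]
  refine pack_congr _ _ _ _ fun i hi => dec_inj _ (dg_lt _ _) _ (m4_lt _ _) ?_
  rw [dec_m4 hc (dg_lt _ _)]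
  exact congrFun h ⟨i, hi⟩

theorem ok_iff {v : ℕ} : ok v = true ↔ v < 4096 ∧ 0 < v ∧ hN v v = 0 := by
  simp only [ok, band_eq, Bool.and_eq_true, beq_true_iff, blt_true_iff]

theorem hN_zero {u v : ℕ} : hN u v = 0 ↔ hU (vec u) (vec v) = 0 := by
  rw [← dec_hN]
  exact ⟨fun h => h ▸ rfl, fun h => dec_inj _ (hN_lt _ _) 0 (by norm_num) h⟩

theorem vec_ne {v : ℕ} (h : v < 4096) (h0 : 0 < v) : vec v ≠ 0 := fun h1 => by
  have := eq_smN (v := 0) (c := 0) h (by norm_num) (by rw [h1]; exact (zero_smul _ _).symm)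
  have h2 : smN 0 0 = 0 := by decide
  omega

theorem exists_code (u : Fin 6 → F4) : ∃ v, v < 4096 ∧ vec v = u := by
  have hf : ∀ i : ℕ, (if h : i < 6 then Fin.val (n := 4) (u ⟨i, h⟩) else 0) < 2 ^ 2 := fun i => by
    split_ifs with h
    · exact Fin.isLt (n := 4) (u ⟨i, h⟩)
    · norm_num
  refine ⟨pack 2 6 fun i => if h : i < 6 then Fin.val (n := 4) (u ⟨i, h⟩) else 0, ?_, ?_⟩
  · refine Nat.lt_pow_two_of_testBit (n := 12) _ fun j hj => ?_
    have := testBit_pack 2 6 _ (fun i _ => hf i) (j / 2) (j % 2) (Nat.mod_lt _ (by norm_num))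
    rw [Nat.div_add_mod] at this
    rw [this, decide_eq_false (by omega), Bool.false_and]
  · funext i
    rw [vec_pack hf, dif_pos i.2]
    have : ∀ a : F4, dec4 (Fin.val (n := 4) a) = a := by decide
    exact this _

theorem hU_smul (c d : F4) (u v : Fin 6 → F4) : hU (c • u) (d • v) = c * d ^ 2 * hU u v := by
  simp only [hU, Cfsg.hermForm, Finset.mul_sum, Pi.smul_apply, smul_eq_mul]
  exact Finset.sum_congr rfl fun i _ => by ring

variable {G : Type*} [Group G]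

/-- the standing hypotheses -/
structure Ctx (Y : Set G) (φ : G → Fin 6 → F4) : Prop extends UniM 6 Y φ where
  sq : ∀ a ∈ Y, a * a = 1
  cl : ∀ a ∈ Y, ∀ b ∈ Y, a * b * a ∈ Y

/-- the code `v` names the point `y` -/
def Rep (Y : Set G) (φ : G → Fin 6 → F4) (y : G) (v : ℕ) : Prop :=
  y ∈ Y ∧ ∃ c : F4, c ≠ 0 ∧ vec v = c • φ y

open Classical in
/-- the point with a given code -/
def pt (Y : Set G) (φ : G → Fin 6 → F4) (v : ℕ) : G :=
  if h : ∃ y, Rep Y φ y v then h.choose else 1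

/-- a product of points -/
def ev (Y : Set G) (φ : G → Fin 6 → F4) (l : List ℕ) : G := (l.map (pt Y φ)).prod

/-- the subgroup generated by some products -/
def Hs (Y : Set G) (φ : G → Fin 6 → F4) (gs : List (List ℕ)) : Subgroup G :=
  closure (ev Y φ '' {w | w ∈ gs})

/-- check of an orbit -/
def orb (gs : List (List ℕ)) (S par dep r : ℕ) : Bool :=
  allLt 4096 fun v => bimp (tb S v) (band (ok v) (band (Nat.beq (nrmN v) v) (bor (Nat.beq v r)
    (force (act (nth gs [] (ap 4 15 par v)) v) fun u => force (nrmN u) fun u =>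
      band (Nat.blt u 4096) (band (tb S u) (Nat.blt (ap 6 63 dep u) (ap 6 63 dep v)))))))

variable {Y : Set G} {φ : G → Fin 6 → F4}

omit [Group G] in
theorem Rep.nrm {a : G} {u : ℕ} (h : Rep Y φ a u) : Rep Y φ a (nrmN u) := by
  have h1 : ∀ c, c < 2 ^ 2 → dec4 c ≠ 0 → Rep Y φ a (smN c u) := fun c h1 h2 => by
    obtain ⟨ha, d, hd, e⟩ := h
    exact ⟨ha, dec4 c * d, mul_ne_zero h2 hd, by rw [vec_smN h1, e, smul_smul]⟩
  rw [nrmN]
  rcases min_choice u (min (smN 2 u) (smN 3 u)) with e | e <;> rw [e]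
  · exact h
  · rcases min_choice (smN 2 u) (smN 3 u) with e | e <;> rw [e]
    · exact h1 2 (by norm_num) (by decide)
    · exact h1 3 (by norm_num) (by decide)

omit [Group G] in
theorem Rep.inj {a : G} {u v : ℕ} (h : Rep Y φ a u) (h' : Rep Y φ a v) (hu : u < 4096)
    (hv : v < 4096) (nu : nrmN u = u) (nv : nrmN v = v) : u = v := by
  obtain ⟨-, c, hc, e⟩ := h
  obtain ⟨-, d, hd, e'⟩ := h'
  have h1 : ∀ a : F4, a ≠ 0 → ∃ k, k < 4 ∧ 0 < k ∧ dec4 k = a := by decide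
  obtain ⟨k, k1, k2, k3⟩ := h1 (c * d⁻¹) (mul_ne_zero hc (inv_ne_zero hd))
  have h2 : u = smN k v := eq_smN hu k1 (by
    rw [k3, e, e', smul_smul, mul_assoc, inv_mul_cancel₀ hd, mul_one])
  rw [h2] at nu ⊢
  exact (K1' hv).2.2 nv k k1 k2 nu

namespace Ctx

variable (C : Ctx Y φ)
include C

theorem uniq {a b : G} {u : ℕ} (h : Rep Y φ a u) (h' : Rep Y φ b u) : a = b := by
  obtain ⟨ha, c, hc, e⟩ := h
  obtain ⟨hb, d, hd, e'⟩ := h'
  exact C.inj a ha b hb (c⁻¹ * d) (by rw [← smul_smul, ← e', e, smul_smul, inv_mul_cancel₀ hc, one_smul])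

theorem of_peq {a b : G} {u v : ℕ} (h : Rep Y φ a u) (h' : Rep Y φ b v) (e : peq u v = true) :
    a = b := by
  rw [peq, force_eq, force_eq, beq_true_iff] at e
  exact C.uniq h.nrm (e ▸ h'.nrm)

theorem rep_pt {v : ℕ} (h : ok v = true) : Rep Y φ (pt Y φ v) v := by
  obtain ⟨h1, h2, h3⟩ := ok_iff.1 h
  obtain ⟨d, hd, c, e⟩ := C.surj (vec v) (vec_ne h1 h2) (hN_zero.1 h3)
  have h4 : ∃ y, Rep Y φ y v := ⟨d, hd, c, fun h5 => vec_ne h1 h2 (by rw [e, h5, zero_smul]), e⟩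
  rw [pt, dif_pos h4]
  exact h4.choose_spec

theorem pt_sq (v : ℕ) : pt Y φ v * pt Y φ v = 1 := by
  rw [pt]
  split_ifs with h
  · exact C.sq _ h.choose_spec.1
  · exact one_mul 1

theorem exists_rep {y : G} (hy : y ∈ Y) : ∃ v, ok v = true ∧ nrmN v = v ∧ Rep Y φ y v := by
  obtain ⟨v, hv, e⟩ := exists_code (φ y)
  have h1 : Rep Y φ y (nrmN v) := Rep.nrm ⟨hy, 1, one_ne_zero, by rw [e, one_smul]⟩
  obtain ⟨-, c, hc, e'⟩ := id h1
  refine ⟨nrmN v, (ok_iff (v := nrmN v)).2 ⟨lt_of_le_of_lt (min_le_left _ _) hv, Nat.pos_of_ne_zero fun h => ?_, ?_⟩,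
    (K1' hv).2.1, h1⟩
  · rw [h] at e'
    have h2 : vec 0 = 0 := by decide
    exact C.ne y hy ((smul_eq_zero.1 (e'.symm.trans h2)).resolve_left hc)
  · rw [hN_zero, e', hU_smul, (C.comm y hy y hy).1 (Commute.refl y), mul_zero]

theorem comm_of {a b : G} {u v : ℕ} (h : Rep Y φ a u) (h' : Rep Y φ b v) (e : hN u v = 0) :
    Commute a b := by
  obtain ⟨ha, c, hc, e1⟩ := h
  obtain ⟨hb, d, hd, e2⟩ := h'
  rw [hN_zero, e1, e2, hU_smul] at e
  exact (C.comm a ha b hb).2 ((mul_eq_zero.1 e).resolve_left (mul_ne_zero hc (pow_ne_zero _ hd)))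

theorem rep_tv {a b : G} {u v : ℕ} (h : Rep Y φ a u) (h' : Rep Y φ b v) :
    Rep Y φ (a * b * a) (tvN u v) := by
  obtain ⟨ha, c, hc, e1⟩ := h
  obtain ⟨hb, d, hd, e2⟩ := h'
  obtain ⟨k, e3⟩ := C.conj a ha b hb
  have hk : k ≠ 0 := fun h => C.ne _ (C.cl a ha b hb) (by rw [e3, h, zero_smul])
  refine ⟨C.cl a ha b hb, d * k⁻¹, mul_ne_zero hd (inv_ne_zero hk), ?_⟩
  rw [vec_tvN, e1, e2, e3, hU_smul, smul_smul, smul_smul, mul_assoc d k⁻¹, inv_mul_cancel₀ hk, mul_one,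
    smul_add, smul_smul]
  congr 2
  linear_combination d * hU (φ b) (φ a) * f4_cube f4_p4 hc

theorem rep_act {l : List ℕ} (hl : allL l ok = true) {y : G} {v : ℕ} (h : Rep Y φ y v) :
    Rep Y φ (ev Y φ l * y * (ev Y φ l)⁻¹) (act l v) := by
  induction l with
  | nil =>
    change Rep Y φ _ v
    simpa [ev] using h
  | cons a l ih =>
    rw [allL_iff] at hl
    have h1 := C.rep_tv (C.rep_pt (hl a List.mem_cons_self))
      (ih ((allL_iff _ _).2 fun x hx => hl x (List.mem_cons_of_mem _ hx)))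
    have h2 : act (a :: l) v = tvN a (act l v) := force_eq _ _
    rw [h2]
    convert h1 using 1
    rw [ev, List.map_cons, List.prod_cons, mul_inv_rev, inv_eq_of_mul_eq_one_right (C.pt_sq a)]
    simp only [ev, mul_assoc]

theorem fix {l : List ℕ} {v : ℕ} (hl : allL l ok = true) (hv : ok v = true)
    (h : peq (act l v) v = true) : Commute (ev Y φ l) (pt Y φ v) :=
  commute_of_conj_eq (C.of_peq (C.rep_act hl (C.rep_pt hv)) (C.rep_pt hv) h)

theorem orb_sound {gs : List (List ℕ)} {S par dep r : ℕ} (hg : allL gs (fun l => allL l ok) = true)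
    (h : orb gs S par dep r = true) {v : ℕ} (hv : v < 4096) (hS : tb S v = true) :
    (ok v = true ∧ nrmN v = v) ∧ ∃ k ∈ Hs Y φ gs, k * pt Y φ r * k⁻¹ = pt Y φ v := by
  induction hn : ap 6 63 dep v using Nat.strong_induction_on generalizing v with
  | _ n ih =>
    have h1 := (allLt_iff _ _).1 h v hv
    rw [hS] at h1
    simp only [bimp_eq, band_eq, bor_eq, Bool.not_true, Bool.false_or, Bool.and_eq_true,
      Bool.or_eq_true, beq_true_iff, force_eq, blt_true_iff] at h1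
    refine ⟨⟨h1.1, h1.2.1⟩, ?_⟩
    rcases h1.2.2 with h2 | ⟨h2, h3, h4⟩
    · exact ⟨1, one_mem _, by rw [h2, one_mul, inv_one, mul_one]⟩
    · obtain ⟨⟨h5, -⟩, k, hk, e⟩ := ih _ (hn ▸ h4) h2 h3 rfl
      generalize hw : nth gs [] (ap 4 15 par v) = w at *
      have h6 : allL w ok = true ∧ ev Y φ w ∈ Hs Y φ gs := by
        rw [nth_eq] at hw
        rcases h7 : gs[ap 4 15 par v]? with _ | l
        · rw [List.getD, h7] at hw
          subst hw
          exact ⟨rfl, one_mem _⟩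
        · rw [List.getD, h7] at hw
          subst hw
          have h8 := List.mem_of_getElem? h7
          exact ⟨(allL_iff _ _).1 hg _ h8, subset_closure ⟨_, h8, rfl⟩⟩
      have h7 := C.uniq (C.rep_act h6.1 (C.rep_pt h1.1)).nrm (C.rep_pt h5)
      refine ⟨(ev Y φ w)⁻¹ * k, mul_mem (inv_mem h6.2) hk, ?_⟩
      rw [← e] at h7
      rw [show pt Y φ v = (ev Y φ w)⁻¹ * (ev Y φ w * pt Y φ v * (ev Y φ w)⁻¹) * ev Y φ w by group, h7]
      group

theorem orb_le [Finite G] {gs : List (List ℕ)} {S par dep r : ℕ}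
    (hg : allL gs (fun l => allL l ok) = true) (h : orb gs S par dep r = true) :
    countLt 4096 (tb S) ≤ (centralizer {pt Y φ r}).relIndex (Hs Y φ gs) := by
  rw [← ncard_eq_countLt 4096 (tb S) (pt Y φ) {x | ∃ i, i < 4096 ∧ tb S i = true ∧ pt Y φ i = x}
    (fun i j hi hj h1 h2 e => by
      obtain ⟨⟨a1, a2⟩, -⟩ := C.orb_sound hg h hi h1
      obtain ⟨⟨b1, b2⟩, -⟩ := C.orb_sound hg h hj h2
      exact (C.rep_pt a1).inj (e ▸ C.rep_pt b1) hi hj a2 b2) (fun _ => Iff.rfl)]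
  let f : Hs Y φ gs ⧸ (centralizer {pt Y φ r}).subgroupOf (Hs Y φ gs) → G :=
    fun q => (q.out : G) * pt Y φ r * (q.out : G)⁻¹
  refine (Set.ncard_le_ncard (t := Set.range f) ?_ (Set.toFinite _)).trans ?_
  · rintro _ ⟨i, hi, h1, rfl⟩
    obtain ⟨-, k, hk, e⟩ := C.orb_sound hg h hi h1
    obtain ⟨c, hc⟩ := QuotientGroup.mk_out_eq_mul ((centralizer {pt Y φ r}).subgroupOf (Hs Y φ gs))
      (⟨k, hk⟩ : Hs Y φ gs)
    refine ⟨((⟨k, hk⟩ : Hs Y φ gs) : _ ⧸ _), ?_⟩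
    have h2 : ((c : Hs Y φ gs) : G) * pt Y φ r = pt Y φ r * ((c : Hs Y φ gs) : G) :=
      mem_centralizer_singleton_iff.1 (mem_subgroupOf.1 c.2)
    simp only [f, hc, coe_mul]
    rw [← e, mul_assoc k, h2]
    group
  · rw [← Nat.card_coe_set_eq]
    exact Finite.card_range_le f

end Ctx

theorem step [Finite G] {C H H' : Subgroup G} {x : G} (hC : C ≤ centralizer {x}) (h1 : H' ≤ H)
    (h2 : H' ≤ centralizer {x}) {n m : ℕ} (hn : n ≤ (centralizer {x}).relIndex H)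
    (hm : m ≤ C.relIndex H') : n * m ≤ C.relIndex H := by
  rw [← inf_relIndex_right C H, ← relIndex_mul_relIndex (C ⊓ H) (centralizer {x} ⊓ H) H
    (inf_le_inf_right _ hC) inf_le_right, inf_relIndex_right, mul_comm]
  refine Nat.mul_le_mul (hm.trans ?_) hn
  have h3 : (C ⊓ H).relIndex H' = C.relIndex H' := by
    rw [← inf_relIndex_right (C ⊓ H), inf_assoc, inf_eq_right.2 h1, inf_relIndex_right]
  rw [← h3]
  exact relIndex_le_of_le_right (le_inf h2 h1) index_ne_zero_of_finite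

end

end CfsgFI.U6
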