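import Cfsg.Agent.FI.U0
import Cfsg.Agent.H5.Uni

/-! Facts on `SU(6, 2)`: order, centre, stabiliser of an isotropic point. -/

set_option autoImplicit false

namespace CfsgFI

namespace U6m

open Subgroup CfsgH4 CfsgH5 U0 Matrix

abbrev SS (n : ℕ) := Cfsg.SU n F4 2
noncomputable abbrev TT (n : ℕ) : TvG F4 (Fin n) (SS n) := tvU f4_p4 n

theorem ht {n : ℕ} {v : Fin n → F4} (hv : hU v v = 0) (u : Fin n → F4) :
    (TT n).mat ((TT n).t v) *ᵥ u = u + hU u v • v := (TT n).ht v hv u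

theorem isom {n : ℕ} (g : SS n) (u v : Fin n → F4) :
    hU ((TT n).mat g *ᵥ u) ((TT n).mat g *ᵥ v) = hU u v := (TT n).isom g u v

theorem gen {n : ℕ} (hn : 4 ≤ n) : closure (TT n).D = ⊤ := tvU_gen f4_p4 f4_w hn

theorem exists_su {n : ℕ} (A : Matrix (Fin n) (Fin n) F4) (hd : A.det = 1)
    (hi : ∀ a b, hU (A *ᵥ a) (A *ᵥ b) = hU a b) : ∃ g : SS n, (TT n).mat g = A :=
  ⟨⟨⟨A, hd⟩, hi⟩, rfl⟩

theorem card_S : Nat.card (SS 6) = 27590492160 := by
  have h := card_SU_mul (F := F4) (q := 2) (n := 6) rfl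
  have h2 : CfsgH1.ordGU 2 6 = 82771476480 := by decide +kernel
  rw [h2] at h
  have h3 : (Nat.card (SS 6) : ℤ) * 3 = 82771476480 := h
  omega

theorem card_Z : Nat.card (center (SS 6)) = 3 := by
  refine le_antisymm ?_ (card_center_SU_ge (F := F4) (q := 2) (n := 6) rfl
    (Finset.univ.filter fun c => c ^ 6 = 1 ∧ c ^ 2 * c = 1) fun _ h => (Finset.mem_filter.1 h).2)
  have key : ∀ z : center (SS 6), ∃ c : F4, (TT 6).mat z.1 = c • 1 := fun z => by
    obtain ⟨c, hc⟩ := (CfsgH7.diagPSU_eq_one_iff (K := F4) (q := 2) (n := 6) rfl (by norm_num)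
      (g := CfsgH7.suToGU z.1)).1 (by
      rw [CfsgH7.diagPSU_suToGU, (QuotientGroup.eq_one_iff z.1).2 z.2, map_one])
    exact ⟨c, by rw [← hc, CfsgH7.suToGU_coe]; rfl⟩
  choose f hf using key
  have h0 : ∀ z, f z ≠ 0 := fun z h => by
    have := (TT 6).det z.1
    rw [hf z, h, zero_smul, det_zero] at this
    exact zero_ne_one this
  exact (Nat.card_le_card_of_injective (fun z => (⟨f z, h0 z⟩ : {c : F4 // c ≠ 0})) fun a b e =>
    Subtype.ext ((TT 6).inj (by rw [hf, hf, show f a = f b from congrArg Subtype.val e]))).trans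
    (by rw [Nat.card_eq_fintype_card]; decide)

theorem index_Z : (center (SS 6)).index = 9196830720 := by
  have := (center (SS 6)).index_mul_card
  rw [card_Z, card_S] at this
  omega

/-- the group generated by the transvections orthogonal to `u` -/
def PU (u : Fin 6 → F4) : Subgroup (SS 6) :=
  closure {g | ∃ v, v ≠ 0 ∧ hU v v = 0 ∧ hU u v = 0 ∧ g = (TT 6).t v}

theorem t_mem {u v : Fin 6 → F4} (hv : hU v v = 0) (h : hU u v = 0) : (TT 6).t v ∈ PU u := by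
  by_cases h0 : v = 0
  · rw [h0, (TT 6).t_zero]; exact one_mem _
  · exact subset_closure ⟨v, h0, hv, h, rfl⟩

theorem PU_fix {u : Fin 6 → F4} {p : SS 6} (hp : p ∈ PU u) : (TT 6).mat p *ᵥ u = u := by
  induction hp using closure_induction with
  | mem x hx => obtain ⟨v, -, h1, h2, rfl⟩ := hx; rw [ht h1, h2, zero_smul, add_zero]
  | one => simp
  | mul x y _ _ h1 h2 => rw [(TT 6).mul_act, h2, h1]
  | inv x _ h => rw [← h, ← (TT 6).mul_act, inv_mul_cancel, map_one, one_mulVec, h]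

theorem two0 : (1 : F4) + 1 = 0 := by decide

theorem step1 {u a b : Fin 6 → F4} (ha : hU a a = 0) (hb : hU b b = 0) (h1 : hU u a = 1)
    (h2 : hU u b = 1) (h : hU a b = 1) : ∃ p ∈ PU u, (TT 6).mat p *ᵥ a = b := by
  have i : hU (a + b) (a + b) = 0 := by rw [al, ar, ar, ha, hb, sy a b, h]; decide
  refine ⟨_, t_mem i (by rw [ar, h1, h2, two0]), ?_⟩
  rw [ht i, ar, ha, h, zero_add, one_smul, ← add_assoc, (TT 6).add_self, zero_add]

theorem stepA {u a b : Fin 6 → F4} (hu : hU u u = 0) (ha : hU a a = 0) (hb : hU b b = 0)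
    (h1 : hU u a = 1) (h2 : hU u b = 1) : ∃ p ∈ PU u, (TT 6).mat p *ᵥ a = b := by
  by_cases h : hU a b = 1
  · exact step1 ha hb h1 h2 h
  have h1' : hU a u = 1 := by rw [sy, h1, one_pow]
  have h2' : hU b u = 1 := by rw [sy, h2, one_pow]
  obtain ⟨y, y1, y2, y3, y4⟩ : ∃ y, hU y y = 0 ∧ hU y u = 0 ∧ hU y a = 0 ∧ hU y b = hU a b := by
    by_cases h0 : hU a b = 0
    · exact ⟨0, zl _, zl _, zl _, by rw [zl, h0]⟩
    by_contra hn
    obtain ⟨y₀, z1, z2, z3⟩ := exists_iso_perp (k := 2) (n := 6) (by omega) ![u, a]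
    have e := (TT 6).double_perp f4_w (z := b) (y₀ := y₀) hu ha h1 ⟨z3 0, z3 1⟩ z1 z2
      fun y hy hi => by
        by_contra h3
        have k1 : hU y u = 0 := hy.1
        have k2 : hU y a = 0 := hy.2
        have k3 : hU y y = 0 := hi
        refine hn ⟨(hU a b / hU y b) • y, by rw [sl, sr, k3]; simp, by rw [sl, k1]; simp,
          by rw [sl, k2]; simp, ?_⟩
        rw [sl]; exact div_mul_cancel₀ _ h3
    change b = hU b a • u + hU b u • a at e
    rw [h2', one_smul, sy a b] at e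
    have e2 := hb
    rw [e, al, ar, ar, sl, sl, sr, sr, hu, ha, h1, h1'] at e2
    revert e2 h0 h
    generalize hU a b = β
    revert β; decide
  have i : hU (a + u + y) (a + u + y) = 0 := by
    simp only [al, ar, ha, hu, h1, h1', y1, y2, y3, pp y2, pp y3]; decide
  have j : hU u (a + u + y) = 1 := by rw [ar, ar, h1, hu, pp y2]; decide
  obtain ⟨p, hp, e1⟩ := step1 ha i h1 j (by rw [ar, ar, ha, h1', pp y3]; decide)
  obtain ⟨q, hq, e2⟩ := step1 i hb j h2 (by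
    rw [al, al, h2, y4, add_right_comm, ← two_mul, (TT 6).two, zero_mul, zero_add])
  exact ⟨q * p, mul_mem hq hp, by rw [(TT 6).mul_act, e1, e2]⟩

/-- extension by two coordinates -/
def ex (a b : F4) (v : Fin 4 → F4) : Fin 6 → F4 := Fin.cons a (Fin.cons b v)

theorem hU_ex (a b c d : F4) (v w : Fin 4 → F4) :
    hU (ex a b v) (ex c d w) = a * c ^ 2 + (b * d ^ 2 + hU v w) := hU_cons _ _

theorem ex_eta (x : Fin 6 → F4) : x = ex (x 0) (x 1) fun i => x i.succ.succ := funext fun i =>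
  Fin.cases rfl (fun i => Fin.cases rfl (fun _ => rfl) i) i

theorem ex_add (a b c d : F4) (v w : Fin 4 → F4) :
    ex a b v + ex c d w = ex (a + c) (b + d) (v + w) := funext fun i =>
  Fin.cases rfl (fun i => Fin.cases rfl (fun _ => rfl) i) i

theorem ex_smul (k a b : F4) (v : Fin 4 → F4) : k • ex a b v = ex (k * a) (k * b) (k • v) :=
  funext fun i => Fin.cases rfl (fun i => Fin.cases rfl (fun _ => rfl) i) i

theorem lift4 (B : SS 4) : ∃ p ∈ PU (ex 1 1 0), ∀ a b v,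
    (TT 6).mat p *ᵥ ex a b v = ex a b ((TT 4).mat B *ᵥ v) := by
  have hB : B ∈ closure (TT 4).D := gen le_rfl ▸ mem_top B
  have base : ∀ B ∈ (TT 4).D, ∃ p ∈ PU (ex 1 1 0), ∀ a b v,
      (TT 6).mat p *ᵥ ex a b v = ex a b ((TT 4).mat B *ᵥ v) := by
    rintro _ ⟨w, -, hw, rfl⟩
    have hw : hU w w = 0 := hw
    have i : hU (ex 0 0 w) (ex 0 0 w) = 0 := by rw [hU_ex, hw]; simp
    refine ⟨_, t_mem i (by rw [hU_ex, zl]; simp), fun a b v => ?_⟩
    rw [ht i, ht hw, hU_ex, ex_smul, ex_add]; simp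
  induction hB using closure_induction_left with
  | one => exact ⟨1, one_mem _, by simp⟩
  | mul_left x hx y _ ih =>
    obtain ⟨p, hp, e⟩ := base x hx
    obtain ⟨q, hq, e'⟩ := ih
    exact ⟨p * q, mul_mem hp hq, fun a b v => by rw [(TT 6).mul_act, (TT 4).mul_act, e', e]⟩
  | inv_mul_cancel x hx y _ ih =>
    obtain ⟨p, hp, e⟩ := base x hx
    obtain ⟨q, hq, e'⟩ := ih
    obtain ⟨w, -, hw, rfl⟩ := hx
    rw [inv_eq_of_mul_eq_one_left ((TT 4).t_sq hw)]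
    exact ⟨p * q, mul_mem hp hq, fun a b v => by rw [(TT 6).mul_act, (TT 4).mul_act, e', e]⟩

theorem det_col {n : ℕ} (A : Matrix (Fin (n + 1)) (Fin (n + 1)) F4) (h0 : A 0 0 = 1)
    (h : ∀ i : Fin n, A i.succ 0 = 0) : A.det = (A.submatrix Fin.succ Fin.succ).det := by
  rw [det_succ_column_zero, Fin.sum_univ_succ]
  simp [h0, h]

theorem stepB {s : SS 6} (h0 : (TT 6).mat s *ᵥ ex 1 0 0 = ex 1 0 0)
    (h1 : (TT 6).mat s *ᵥ ex 0 1 0 = ex 0 1 0) : s ∈ PU (ex 1 1 0) := by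
  set A := (TT 6).mat s with hA
  have c0 : ∀ i, A i 0 = ex 1 0 0 i := fun i => by
    rw [← h0]; simp [mulVec, dotProduct, Fin.sum_univ_succ, ex]
  have c1 : ∀ i, A i 1 = ex 0 1 0 i := fun i => by
    rw [← h1]; simp [mulVec, dotProduct, Fin.sum_univ_succ, ex]
  let B : Matrix (Fin 4) (Fin 4) F4 := (A.submatrix Fin.succ Fin.succ).submatrix Fin.succ Fin.succ
  have e : ∀ v, A *ᵥ ex 0 0 v = ex 0 0 (B *ᵥ v) := fun v => by
    have k0 := isom s (ex 0 0 v) (ex 1 0 0)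
    have k1 := isom s (ex 0 0 v) (ex 0 1 0)
    rw [← hA, h0, ex_eta (A *ᵥ _), hU_ex, hU_ex, pp (zl _), pp (zl _)] at k0
    rw [← hA, h1, ex_eta (A *ᵥ _), hU_ex, hU_ex, pp (zl _), pp (zl _)] at k1
    rw [ex_eta (A *ᵥ _)]
    congr 1
    · simpa using k0
    · simpa using k1
    · funext i
      simp [B, mulVec, dotProduct, Fin.sum_univ_succ (n := 5), Fin.sum_univ_succ (n := 4), ex]
  obtain ⟨g, hg⟩ := exists_su B (by
      rw [← det_col _ (c1 1) fun i => c1 _, ← det_col _ (c0 0) fun i => (c0 _).trans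
        (Fin.cases rfl (fun _ => rfl) i)]
      exact (TT 6).det s) fun a b => by
    have := isom s (ex 0 0 a) (ex 0 0 b)
    rw [← hA, e, e, hU_ex, hU_ex] at this
    simpa using this
  obtain ⟨p, hp, k⟩ := lift4 g
  refine ((TT 6).ext (g := p) (k := s) fun x => ?_) ▸ hp
  rw [ex_eta x, k, hg, ← hA]
  generalize x 0 = a, x 1 = b, (fun i : Fin 4 => x i.succ.succ) = v
  have d : ∀ w, ex a b w = a • ex 1 0 0 + b • ex 0 1 0 + ex 0 0 w := fun w => by
    rw [ex_smul, ex_smul, ex_add, ex_add]; simp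
  rw [d v, d (B *ᵥ v), mulVec_add, mulVec_add, mulVec_smul, mulVec_smul, h0, h1, e]

theorem scalar {μ : F4} (h : μ ≠ 0) : ∃ z ∈ center (SS 6), ∀ x, (TT 6).mat z *ᵥ x = μ • x := by
  obtain ⟨z, hz⟩ := exists_su (μ • (1 : Matrix (Fin 6) (Fin 6) F4))
    (by rw [det_smul, det_one, mul_one]; revert μ; decide) fun a b => by
      rw [smul_mulVec, smul_mulVec, one_mulVec, one_mulVec, sl, sr, ← mul_assoc,
        f4_cube f4_p4 h, one_mul]
  have e : ∀ x, (TT 6).mat z *ᵥ x = μ • x := fun x => by rw [hz, smul_mulVec, one_mulVec]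
  exact ⟨z, mem_center_iff.2 fun g => (TT 6).ext fun x => by
    rw [(TT 6).mul_act, (TT 6).mul_act, e, e, mulVec_smul], e⟩

theorem stab0 {s : SS 6} {μ : F4} (h : (TT 6).mat s *ᵥ ex 1 1 0 = μ • ex 1 1 0) :
    ∃ p ∈ PU (ex 1 1 0), s * p⁻¹ ∈ center (SS 6) := by
  have u0 : ex 1 1 0 ≠ 0 := fun e => one_ne_zero (congrFun e 0)
  have m0 : μ ≠ 0 := fun e => (TT 6).act_ne s u0 (by rw [h, e, zero_smul])
  obtain ⟨z, hz, e⟩ := scalar (inv_ne_zero m0)
  have hu : hU (ex 1 1 0) (ex 1 1 0) = 0 := by rw [hU_ex, zl]; decide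
  have ha : hU (ex F4.w (F4.w ^ 2) 0) (ex F4.w (F4.w ^ 2) 0) = 0 := by rw [hU_ex, zl]; decide
  have h1 : hU (ex 1 1 0) (ex F4.w (F4.w ^ 2) 0) = 1 := by rw [hU_ex, zl]; decide
  have f1 : (TT 6).mat (z * s) *ᵥ ex 1 1 0 = ex 1 1 0 := by
    rw [(TT 6).mul_act, h, e, smul_smul, inv_mul_cancel₀ m0, one_smul]
  obtain ⟨p, hp, e1⟩ := stepA (b := (TT 6).mat (z * s) *ᵥ ex F4.w (F4.w ^ 2) 0) hu ha
    (by rw [isom, ha]) h1 (by rw [← f1, isom, h1])
  have f2 : (TT 6).mat (p⁻¹ * (z * s)) *ᵥ ex 1 1 0 = ex 1 1 0 := by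
    rw [(TT 6).mul_act, f1, PU_fix (inv_mem hp)]
  have f3 : (TT 6).mat (p⁻¹ * (z * s)) *ᵥ ex F4.w (F4.w ^ 2) 0 = ex F4.w (F4.w ^ 2) 0 := by
    rw [(TT 6).mul_act, ← e1, ← (TT 6).mul_act, inv_mul_cancel, map_one, one_mulVec]
  have d0 : ex 1 0 0 = F4.w ^ 2 • ex 1 1 0 + ex F4.w (F4.w ^ 2) 0 := by
    rw [ex_smul, ex_add]; congr 1 <;> first | decide | simp
  have d1 : ex 0 1 0 = F4.w • ex 1 1 0 + ex F4.w (F4.w ^ 2) 0 := by
    rw [ex_smul, ex_add]; congr 1 <;> first | decide | simp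
  have := stepB (s := p⁻¹ * (z * s)) (by rw [d0, mulVec_add, mulVec_smul, f2, f3])
    (by rw [d1, mulVec_add, mulVec_smul, f2, f3])
  refine ⟨_, mul_mem hp this, ?_⟩
  rw [mul_inv_cancel_left, _root_.mul_inv_rev, mul_inv_cancel_left]
  exact inv_mem hz

theorem trans {u v : Fin 6 → F4} (u0 : u ≠ 0) (hu : hU u u = 0) (v0 : v ≠ 0) (hv : hU v v = 0) :
    ∃ g : SS 6, ∃ c : F4, c ≠ 0 ∧ (TT 6).mat g *ᵥ u = c • v := by
  obtain ⟨d, -, e⟩ := ((TT 6).isClass (Or.inr ⟨_, f4_w⟩) (gen (by omega)) ⟨_, u, u0, hu, rfl⟩).2.1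
  have h1 : IsConj d ((TT 6).t u) := e.subset ⟨u, u0, hu, rfl⟩
  have h2 : IsConj d ((TT 6).t v) := e.subset ⟨v, v0, hv, rfl⟩
  obtain ⟨g, hg⟩ := isConj_iff.1 (h1.symm.trans h2)
  rw [(TT 6).t_conj g hu] at hg
  exact ⟨g, (TT 6).t_inj ((isom g u u).trans hu) hv ((TT 6).act_ne g u0) hg⟩

/-- the stabiliser of an isotropic point -/
theorem stab {u : Fin 6 → F4} (u0 : u ≠ 0) (hu : hU u u = 0) {s : SS 6} {μ : F4}
    (h : (TT 6).mat s *ᵥ u = μ • u) : ∃ p ∈ PU u, s * p⁻¹ ∈ center (SS 6) := by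
  obtain ⟨g, c, c0, e⟩ := trans (u := ex 1 1 0) (fun e => one_ne_zero (congrFun e 0))
    (by rw [hU_ex, zl]; decide) u0 hu
  obtain ⟨p, hp, hz⟩ := stab0 (s := g⁻¹ * s * g) (μ := μ) (by
    rw [(TT 6).mul_act, (TT 6).mul_act, e, mulVec_smul, h, smul_comm, ← e, mulVec_smul,
      ← (TT 6).mul_act, inv_mul_cancel, map_one, one_mulVec])
  refine ⟨g * p * g⁻¹, ?_, ?_⟩
  · clear hz
    induction hp using closure_induction with
    | mem x hx =>
      obtain ⟨v, -, h1, h2, rfl⟩ := hx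
      rw [(TT 6).t_conj g h1]
      refine t_mem ((isom g v v).trans h1) ?_
      rw [← isom g, e, sl] at h2
      exact (mul_eq_zero.1 h2).resolve_left c0
    | one => simp
    | mul x y _ _ h1 h2 => convert mul_mem h1 h2 using 1; group
    | inv x _ h1 => convert inv_mem h1 using 1; group
  · convert (inferInstance : (center (SS 6)).Normal).conj_mem _ hz g using 1; group

end U6m

end CfsgFI
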