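import Cfsg.Agent.FI.U6m

/-! `SpecU6` from the order bound. -/

set_option autoImplicit false

namespace CfsgFI

open Subgroup CfsgH4 CfsgH5 U0 U6m Matrix

universe u

variable {G : Type u} [Group G] {Y : Set G} {φ : G → Fin 6 → F4}

/-- the diagonal point -/
noncomputable def dg6 (φ : G → Fin 6 → F4) (y : G) : G × SS 6 := (y, (TT 6).t (φ y))

namespace UniM

variable (U : UniM 6 Y φ) (T : TS Y)
include U T

theorem cj6 {a b : G} (ha : a ∈ Y) (hb : b ∈ Y) :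
    ∃ c : F4, c ≠ 0 ∧ φ (a * b * a) = c • ((TT 6).mat ((TT 6).t (φ a)) *ᵥ φ b) := by
  obtain ⟨c, e⟩ := U.conj a ha b hb
  exact ⟨c, fun h => U.ne _ (T.cl a ha b hb) (by rw [e, h, zero_smul]), by rw [e, ht (U.iso ha)]⟩

theorem dg_sq {a : G} (ha : a ∈ Y) : dg6 φ a * dg6 φ a = 1 :=
  Prod.ext (T.sq ha) ((TT 6).t_sq (U.iso ha))

theorem dg_cj {a b : G} (ha : a ∈ Y) (hb : b ∈ Y) :
    dg6 φ a * dg6 φ b * dg6 φ a = dg6 φ (a * b * a) := by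
  obtain ⟨c, c0, e⟩ := U.cj6 T ha hb
  refine Prod.ext rfl ?_
  change _ * _ * (TT 6).t (φ a) = (TT 6).t (φ (a * b * a))
  rw [e, (TT 6).t_smul c0 ((isom _ _ _).trans (U.iso hb)), ← (TT 6).t_conj _ (U.iso hb),
    inv_eq_of_mul_eq_one_left ((TT 6).t_sq (U.iso ha))]
  rfl

theorem dg_comm {a b : G} (ha : a ∈ Y) (hb : b ∈ Y) (h : Commute a b) :
    Commute (dg6 φ a) (dg6 φ b) :=
  Prod.ext h ((TT 6).t_commute (U.iso ha) (U.iso hb) (pp ((U.comm a ha b hb).1 h)))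

theorem dg_ts : TS (dg6 φ '' Y) := by
  refine ⟨⟨?_, ?_⟩, ?_⟩
  · rintro _ ⟨a, ha, rfl⟩
    exact CfsgH4.orderOf_eq_two_iff.2 ⟨U.dg_sq T ha, fun h => T.ne_one ha (congrArg Prod.fst h)⟩
  · rintro _ ⟨a, ha, rfl⟩ _ ⟨b, hb, rfl⟩
    by_cases h : Commute a b
    · exact Or.inl (sq_of_commute (U.dg_sq T ha) (U.dg_sq T hb) (U.dg_comm T ha hb h))
    · right
      rw [show (dg6 φ a * dg6 φ b) ^ 3 = dg6 φ a * dg6 φ b * dg6 φ a * (dg6 φ b * dg6 φ a * dg6 φ b) by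
        rw [pow_three]; group, U.dg_cj T ha hb, U.dg_cj T hb ha, T.braid ha hb h,
        U.dg_sq T (T.cl b hb a ha)]
  · rintro _ ⟨a, ha, rfl⟩ _ ⟨b, hb, rfl⟩
    exact ⟨_, T.cl a ha b hb, (U.dg_cj T ha hb).symm⟩

theorem dg_uni : UniM 6 (dg6 φ '' Y) fun k => φ k.1 where
  ne := by rintro _ ⟨a, ha, rfl⟩; exact U.ne a ha
  comm := by
    rintro _ ⟨a, ha, rfl⟩ _ ⟨b, hb, rfl⟩
    exact ⟨fun h => (U.comm a ha b hb).1 (congrArg Prod.fst h),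
      fun h => U.dg_comm T ha hb ((U.comm a ha b hb).2 h)⟩
  surj u h0 h1 := by
    obtain ⟨d, hd, c, e⟩ := U.surj u h0 h1
    exact ⟨_, ⟨d, hd, rfl⟩, c, e⟩
  inj := by
    rintro _ ⟨a, ha, rfl⟩ _ ⟨b, hb, rfl⟩ c e
    rw [U.inj a ha b hb c e]
  conj := by rintro _ ⟨a, ha, rfl⟩ _ ⟨b, hb, rfl⟩; exact U.conj a ha b hb

theorem dg_act {k : G × SS 6} (hk : k ∈ closure (dg6 φ '' Y)) : ∀ y ∈ Y, k.1 * y * k.1⁻¹ ∈ Y ∧
    ∃ c : F4, c ≠ 0 ∧ φ (k.1 * y * k.1⁻¹) = c • ((TT 6).mat k.2 *ᵥ φ y) := by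
  have step : ∀ a ∈ Y, ∀ k : G × SS 6, (∀ y ∈ Y, k.1 * y * k.1⁻¹ ∈ Y ∧
      ∃ c : F4, c ≠ 0 ∧ φ (k.1 * y * k.1⁻¹) = c • ((TT 6).mat k.2 *ᵥ φ y)) →
      ∀ y ∈ Y, (dg6 φ a * k).1 * y * (dg6 φ a * k).1⁻¹ ∈ Y ∧ ∃ c : F4, c ≠ 0 ∧
        φ ((dg6 φ a * k).1 * y * (dg6 φ a * k).1⁻¹) = c • ((TT 6).mat (dg6 φ a * k).2 *ᵥ φ y) := by
    intro a ha k ih y hy
    obtain ⟨h1, c, c0, e⟩ := ih y hy
    obtain ⟨d, d0, e'⟩ := U.cj6 T ha h1
    have : (dg6 φ a * k).1 * y * (dg6 φ a * k).1⁻¹ = a * (k.1 * y * k.1⁻¹) * a := by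
      change a * k.1 * y * (a * k.1)⁻¹ = _
      rw [_root_.mul_inv_rev, T.inv ha]; group
    rw [this]
    refine ⟨T.cl a ha _ h1, d * c, mul_ne_zero d0 c0, ?_⟩
    rw [e', e, mulVec_smul, smul_smul, Prod.snd_mul, (TT 6).mul_act]; rfl
  induction hk using closure_induction_left with
  | one => exact fun y hy => ⟨by simpa using hy, 1, one_ne_zero, by simp⟩
  | mul_left x hx k _ ih => obtain ⟨a, ha, rfl⟩ := hx; exact step a ha k ih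
  | inv_mul_cancel x hx k _ ih =>
    obtain ⟨a, ha, rfl⟩ := hx
    rw [inv_eq_of_mul_eq_one_left (U.dg_sq T ha)]
    exact step a ha k ih

omit T in
theorem dg_D {X : Set G} (hX : X ⊆ Y) {v : Fin 6 → F4} (h0 : v ≠ 0) (h1 : hU v v = 0)
    (h : ∀ y ∈ Y, ∀ c : F4, c ≠ 0 → v = c • φ y → y ∈ X) :
    (TT 6).t v ∈ (closure (dg6 φ '' X)).map (MonoidHom.snd _ _) := by
  obtain ⟨y, hy, c, c0, e, -⟩ := U.pt h0 h1
  exact ⟨_, subset_closure ⟨y, h y hy c c0 e, rfl⟩, by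
    rw [e, (TT 6).t_smul c0 (U.iso (hX (h y hy c c0 e)))]; rfl⟩

omit T in
theorem dg_snd : (closure (dg6 φ '' Y)).map (MonoidHom.snd _ _) = ⊤ := by
  rw [eq_top_iff, ← gen (n := 6) (by omega), closure_le]
  rintro _ ⟨v, h0, h1, rfl⟩
  exact U.dg_D subset_rfl h0 h1 fun _ h _ _ _ => h

omit U T in
theorem dg_fst (X : Set G) : (closure (dg6 φ '' X)).map (MonoidHom.fst _ _) = closure X := by
  rw [MonoidHom.map_closure, Set.image_image]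
  exact congrArg Subgroup.closure (Set.image_id' X)

theorem dg_cen {k : G × SS 6} (hk : k ∈ closure (dg6 φ '' Y)) :
    k.1 ∈ centralizer Y ↔ k.2 ∈ center (SS 6) := by
  have A := U.dg_act T hk
  refine ⟨fun h => mem_center_iff.2 fun s => mem_centralizer_singleton_iff.1
    (((closure_le (centralizer {k.2})).2 ?_) (gen (n := 6) (by omega) ▸ mem_top s)),
    fun h y hy => ?_⟩
  · rintro _ ⟨v, h0, h1, rfl⟩
    obtain ⟨y, hy, c, c0, rfl, -⟩ := U.pt h0 h1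
    obtain ⟨-, d, d0, e⟩ := A y hy
    rw [← h y hy, mul_inv_cancel_right] at e
    refine mem_centralizer_singleton_iff.2 (commute_of_conj_eq ?_).symm
    rw [(TT 6).t_smul c0 (U.iso hy), (TT 6).t_conj _ (U.iso hy),
      ← (TT 6).t_smul d0 ((isom _ _ _).trans (U.iso hy)), ← e]
  · obtain ⟨h1, d, d0, e⟩ := A y hy
    have e2 := (TT 6).t_conj k.2 (U.iso hy)
    rw [← mem_center_iff.1 h, mul_inv_cancel_right] at e2
    obtain ⟨c, -, e3⟩ := (TT 6).t_inj ((isom _ _ _).trans (U.iso hy)) (U.iso hy)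
      ((TT 6).act_ne _ (U.ne y hy)) e2.symm
    exact (commute_of_conj_eq (U.inj _ h1 _ hy (d * c) (by rw [e, e3, smul_smul]))).symm

theorem u6_one {c : G} (hc : c ∈ Y) {g : G} (hg : g ∈ closure Y) (h : Commute g c) :
    ∃ h ∈ closure (perp Y c), g * h⁻¹ ∈ centralizer Y := by
  obtain ⟨k, hk, rfl⟩ : g ∈ (closure (dg6 φ '' Y)).map (MonoidHom.fst _ _) := dg_fst Y ▸ hg
  obtain ⟨-, d, d0, e⟩ := U.dg_act T hk c hc
  rw [conj_eq_of_commute (show Commute k.1 c from h)] at e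
  obtain ⟨p, hp, hz⟩ := stab (U.ne c hc) (U.iso hc) (s := k.2) (μ := d⁻¹)
    (by rw [eq_inv_smul_iff₀ d0, ← e])
  obtain ⟨l, hl, rfl⟩ : p ∈ (closure (dg6 φ '' perp Y c)).map (MonoidHom.snd _ _) := by
    refine (closure_le _).2 ?_ hp
    rintro _ ⟨v, h0, h1, h2, rfl⟩
    refine U.dg_D (fun _ h => h.1) h0 h1 fun y hy b b0 e => ⟨hy, (U.comm c hc y hy).2 ?_⟩
    rw [e, sr] at h2
    exact (mul_eq_zero.1 h2).resolve_left (pow_ne_zero _ b0)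
  refine ⟨l.1, dg_fst (φ := φ) _ ▸ mem_map_of_mem (MonoidHom.fst _ _) hl, ?_⟩
  exact (U.dg_cen T (mul_mem hk (inv_mem (closure_mono (Set.image_mono fun _ h => h.1) hl)))).2 hz

theorem u6_rel : ((center (SS 6)).comap (MonoidHom.snd G _)).relIndex (closure (dg6 φ '' Y)) =
    9196830720 := by
  rw [relIndex_comap, U.dg_snd, relIndex_top_right, index_Z]

theorem u6_two : iord Y = 9196830720 := by
  rw [iord, ← dg_fst (φ := φ) Y, ← relIndex_comap, ← U.u6_rel T, relIndex, relIndex]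
  congr 1
  ext k
  exact U.dg_cen T k.2

theorem u6_three [Finite G] (hb : Nat.card (closure (dg6 φ '' Y)) ≤ 24 * 9196830720) :
    ¬ 16 ∣ Nat.card (centralizer Y ⊓ closure Y : Subgroup G) := by
  intro h16
  set Z := (center (SS 6)).comap (MonoidHom.snd G _) ⊓ closure (dg6 φ '' Y) with hZ
  have h1 := relIndex_mul_relIndex ⊥ Z _ bot_le (inf_le_right : Z ≤ closure (dg6 φ '' Y))
  rw [relIndex_bot_left, relIndex_bot_left, hZ, inf_relIndex_right, U.u6_rel T, ← hZ] at h1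
  have e1 : Z.map (MonoidHom.fst _ _) = centralizer Y ⊓ closure Y := by
    refine le_antisymm ?_ fun g hg => ?_
    · rintro _ ⟨k, hk, rfl⟩
      exact ⟨(U.dg_cen T hk.2).2 hk.1, dg_fst (φ := φ) Y ▸ mem_map_of_mem _ hk.2⟩
    · obtain ⟨k, hk, rfl⟩ : g ∈ (closure (dg6 φ '' Y)).map (MonoidHom.fst _ _) := dg_fst Y ▸ hg.2
      exact ⟨k, ⟨(U.dg_cen T hk).1 hg.1, hk⟩, rfl⟩
  have e2 : Z.map (MonoidHom.snd _ _) = center (SS 6) := by
    refine le_antisymm ?_ fun g hg => ?_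
    · rintro _ ⟨k, hk, rfl⟩; exact hk.1
    · obtain ⟨k, hk, rfl⟩ : g ∈ (closure (dg6 φ '' Y)).map (MonoidHom.snd _ _) :=
        U.dg_snd ▸ mem_top g
      exact ⟨k, ⟨hg, hk⟩, rfl⟩
  have d1 := h16.trans (e1 ▸ card_map_dvd Z (MonoidHom.fst _ _))
  have d2 := card_Z ▸ e2 ▸ card_map_dvd Z (MonoidHom.snd _ _)
  have p : 0 < Nat.card Z := Nat.card_pos
  omega

end UniM

theorem specU6_of (hTC : ∀ (G : Type u) [Group G] [Finite G] (Y : Set G), TS Y → Uni 6 Y →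
    Nat.card (closure Y) ≤ 24 * 9196830720) : SpecU6.{u} := fun _ _ _ _ T ⟨_, U⟩ =>
  ⟨fun _ hc _ hg h => U.u6_one T hc hg h, U.u6_two T,
    U.u6_three T (hTC _ _ (U.dg_ts T) ⟨_, U.dg_uni T⟩)⟩

end CfsgFI
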