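import Cfsg.Agent.FI.B0

/-! Locally unitary sets: the common neighbours of a non-commuting pair meet singular lines. -/

set_option autoImplicit false

namespace CfsgFI.H6U

open Subgroup CfsgH4 CfsgH5

variable {n : ℕ}

theorem hal (u v w : Fin n → F4) : hU (u + v) w = hU u w + hU v w := (TU n).add_left u v w
theorem har (u v w : Fin n → F4) : hU u (v + w) = hU u v + hU u w := (TU n).add_right u v w
theorem hsl (c : F4) (u v : Fin n → F4) : hU (c • u) v = c * hU u v := (TU n).smul_left c u v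
theorem hsr (c : F4) (u v : Fin n → F4) : hU u (c • v) = c ^ 2 * hU u v := (TU n).smul_right c u v
theorem hpp {u v : Fin n → F4} (h : hU u v = 0) : hU v u = 0 := (TU n).perp h
theorem vas (v : Fin n → F4) : v + v = 0 := (TU n).add_self v

theorem eq_of_h {u v : Fin n → F4} (h : ∀ y, hU y u = hU y v) : u = v := by
  have : u + v = 0 := (TU n).nondeg _ fun y => hpp (by
    rw [har, h]; exact (by decide : ∀ x : F4, x + x = 0) _)
  rw [← add_left_inj v, this, vas]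

theorem line_mem {D Q R : Fin n → F4} (hD : D ≠ 0) (hQ : ∀ c : F4, Q ≠ c • D) (hR : hU R R = 0)
    (RD : hU R D = 0) (RQ : hU R Q = 0)
    (h : ∀ z, z ≠ 0 → hU z z = 0 → hU z D = 0 → hU z Q = 0 → hU z R = 0) :
    ∃ α β : F4, R = α • D + β • Q := by
  have key : ∀ y, hU y D = 0 → hU y Q = 0 → hU y R = 0 := fun y h1 h2 => by
    by_contra h3
    obtain ⟨c, hc⟩ := (TU n).exists_iso (Or.inr ⟨F4.w, f4_w⟩) y hR fun h => h3 (hpp h)
    have h4 : hU (y + c • R) R = hU y R := by rw [hal, hsl, hR]; simp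
    refine h3 (h4 ▸ h _ (fun h0 => h3 ?_) hc (by rw [hal, hsl, h1, RD]; simp)
      (by rw [hal, hsl, h2, RQ]; simp))
    rw [← h4, h0]; exact (TU n).zero_left R
  obtain ⟨s, hs⟩ : ∃ s, hU s D = 1 := (TU n).exists_h_one hD
  have p1 : ∀ y, hU (y + hU y D • s) D = 0 := fun y => by
    rw [hal, hsl, hs, mul_one]; exact (by decide : ∀ x : F4, x + x = 0) _
  obtain ⟨t, t1, t2⟩ : ∃ t, hU t D = 0 ∧ hU t Q = 1 := by
    by_contra hn
    refine hQ (hU s Q ^ 2) (eq_of_h fun y => ?_)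
    have h2 : hU (y + hU y D • s) Q = 0 := by
      by_contra h2
      exact hn ⟨(hU (y + hU y D • s) Q)⁻¹ • (y + hU y D • s), by rw [hsl, p1, mul_zero],
        by rw [hsl, inv_mul_cancel₀ h2]⟩
    rw [hal, hsl] at h2
    rw [hsr]
    revert h2
    generalize hU y Q = a, hU y D = b, hU s Q = c
    revert a b c; decide
  refine ⟨(hU s R + hU s Q * hU t R) ^ 2, hU t R ^ 2, eq_of_h fun y => ?_⟩
  have := key (y + hU y D • s + hU (y + hU y D • s) Q • t) (by rw [hal, p1, hsl, t1]; simp)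
    (by rw [hal _ (_ • t), hsl, t2, mul_one]; exact (by decide : ∀ x : F4, x + x = 0) _)
  simp only [hal, hsl] at this
  rw [har, hsr, hsr]
  revert this
  generalize hU y R = a, hU y D = b, hU s R = c, hU y Q = d, hU s Q = e, hU t R = f
  revert a b c d e f; decide +kernel

variable {G : Type*} [Group G]

/-- the point `p` is represented by the vector `v` -/
def Rep (Y : Set G) (φ : G → Fin n → F4) (p : G) (v : Fin n → F4) : Prop :=
  p ∈ Y ∧ ∃ s : F4, s ≠ 0 ∧ φ p = s • v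

section
variable {Y : Set G} {φ : G → Fin n → F4} (M : UniM n Y φ)
include M

theorem exists_rep {v : Fin n → F4} (h0 : v ≠ 0) (h : hU v v = 0) : ∃ p, Rep Y φ p v := by
  obtain ⟨p, hp, c, rfl⟩ := M.surj v h0 h
  have hc : c ≠ 0 := fun h => h0 (by rw [h, zero_smul])
  exact ⟨p, hp, c⁻¹, inv_ne_zero hc, by rw [smul_smul, inv_mul_cancel₀ hc, one_smul]⟩

omit M in
theorem rep_self {p : G} (hp : p ∈ Y) : Rep Y φ p (φ p) := ⟨hp, 1, one_ne_zero, by simp⟩

theorem Rep.comm {p q : G} {u v : Fin n → F4} (hp : Rep Y φ p u) (hq : Rep Y φ q v) :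
    Commute p q ↔ hU u v = 0 := by
  obtain ⟨hp, s, s0, hs⟩ := hp
  obtain ⟨hq, t, t0, ht⟩ := hq
  rw [M.comm p hp q hq, hs, ht, hsl, hsr]
  simp [s0, t0]

theorem Rep.iso {p : G} {u : Fin n → F4} (hp : Rep Y φ p u) : hU u u = 0 :=
  (hp.comm M hp).1 (Commute.refl p)

theorem Rep.ne {p : G} {u : Fin n → F4} (hp : Rep Y φ p u) : u ≠ 0 := fun h => by
  obtain ⟨hp, s, -, hs⟩ := hp
  exact M.ne p hp (by rw [hs, h, smul_zero])

omit M in
theorem Rep.smul {p : G} {u : Fin n → F4} (hp : Rep Y φ p u) {c : F4} (hc : c ≠ 0) :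
    Rep Y φ p (c • u) := by
  obtain ⟨hp, s, s0, hs⟩ := hp
  exact ⟨hp, s * c⁻¹, mul_ne_zero s0 (inv_ne_zero hc), by
    rw [smul_smul, mul_assoc, inv_mul_cancel₀ hc, mul_one, hs]⟩

theorem Rep.eq {p q : G} {u : Fin n → F4} (hp : Rep Y φ p u) (hq : Rep Y φ q u) : p = q := by
  obtain ⟨hp, s, s0, hs⟩ := hp
  obtain ⟨hq, t, t0, ht⟩ := hq
  exact M.inj p hp q hq (s * t⁻¹) (by
    rw [hs, ht, smul_smul, mul_assoc, inv_mul_cancel₀ t0, mul_one])

omit M in
theorem Rep.prop {p : G} {u v : Fin n → F4} (hp : Rep Y φ p u) (hq : Rep Y φ p v) :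
    ∃ c : F4, u = c • v := by
  obtain ⟨-, s, s0, hs⟩ := hp
  obtain ⟨-, t, t0, ht⟩ := hq
  exact ⟨s⁻¹ * t, by rw [← smul_smul, ← ht, hs, smul_smul, inv_mul_cancel₀ s0, one_smul]⟩

theorem Rep.conj (T : TS Y) {a b : G} {x y : Fin n → F4} (ha : Rep Y φ a x) (hb : Rep Y φ b y) :
    Rep Y φ (a * b * a) (y + hU y x • x) := by
  obtain ⟨ha, s, s0, hs⟩ := ha
  obtain ⟨hb, t, t0, ht⟩ := hb
  obtain ⟨c, hc⟩ := M.conj a ha b hb
  have hm := T.cl a ha b hb
  have c0 : c ≠ 0 := fun h => M.ne _ hm (by rw [hc, h, zero_smul])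
  refine ⟨hm, c * t, mul_ne_zero c0 t0, ?_⟩
  rw [hc, hs, ht, hsl, hsr, smul_smul _ s,
    (by decide : ∀ s t z : F4, s ≠ 0 → t * (s ^ 2 * z) * s = t * z) s t _ s0]
  module

end

theorem pt_inj {x y : Fin n → F4} (x0 : x ≠ 0) (hind : ∀ c : F4, y ≠ c • x) {k j c : F4}
    (h : y + k • x = c • (y + j • x)) : k = j := by
  by_cases hc : c = 1
  · rw [hc, one_smul, add_right_inj] at h
    exact smul_left_injective F4 x0 h
  · have h1 : (1 - c) ≠ 0 := sub_ne_zero.2 (Ne.symm hc)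
    refine absurd ?_ (hind ((1 - c)⁻¹ * (c * j - k)))
    rw [← smul_smul, eq_inv_smul_iff₀ h1]
    linear_combination (norm := module) h

theorem one_more {E : Set G} (hL : ∀ e ∈ E, Uni n (Dd E e)) {d a : G} (hd : d ∈ E)
    (ha : a ∈ E) (hda : ¬ Commute d a) {φ : G → Fin n → F4} (M : UniM n (Dd E d) φ) {e : G}
    {x y : Fin n → F4} (he : Rep (Dd E d) φ e x) (hea : Commute a e) (hyx : hU y x = 0)
    (hind : ∀ c : F4, y ≠ c • x) {q : F4 → G} (hq : ∀ k, Rep (Dd E d) φ (q k) (y + k • x)) :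
    ∃! k, Commute a (q k) := by
  obtain ⟨ψ, N⟩ := hL e he.1.1
  have xx := he.iso M
  have hd' : d ∈ Dd E e := ⟨hd, he.1.2.1.symm, he.1.2.2.symm⟩
  have ha' : a ∈ Dd E e := ⟨ha, fun h => hda (h ▸ he.1.2.2), hea.symm⟩
  have hq' : ∀ k, q k ∈ Dd E e := fun k => ⟨(hq k).1.1, fun h => by
    obtain ⟨c, hc⟩ := (hq k).prop (h ▸ he)
    exact hind (c - k) (by rw [sub_smul, ← hc]; simp), ((he.comm M (hq k)).2 (hpp (by
      rw [hal, hsl, hyx, xx]; simp)))⟩
  have hqd : ∀ k, hU (ψ (q k)) (ψ d) = 0 := fun k =>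
    (N.comm _ (hq' k) _ hd').1 (hq k).1.2.2.symm
  have hz : ∀ k, ∀ z ∈ Dd E e, Commute z d → Commute z (q 0) → Commute z (q k) :=
    fun k z hz h1 h2 => by
      by_cases h3 : z = d
      · exact h3 ▸ (hq k).1.2.2
      have hz' : z ∈ Dd E d := ⟨hz.1, h3, h1.symm⟩
      have r := rep_self (φ := φ) hz'
      have h4 := (r.comm M he).1 hz.2.2.symm
      rw [r.comm M (hq _), har, hsr, h4] at h2 ⊢
      simpa using h2
  have hqq : ∀ k, Commute (q k) (q 0) := fun k => by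
    have h1 := (hq 0).iso M
    rw [zero_smul, add_zero] at h1
    rw [(hq k).comm M (hq 0), zero_smul, add_zero, hal, hsl, h1, hpp hyx]; simp
  have hind' : ∀ c : F4, ψ (q 0) ≠ c • ψ d := fun c h =>
    (hq 0).1.2.1 (N.inj _ (hq' 0) _ hd' c h)
  have hs : ∀ k, ∃ γ : F4, Rep (Dd E e) ψ (q k) (ψ (q 0) + γ • ψ d) := fun k => by
    obtain ⟨α, β, h⟩ := line_mem (N.ne d hd') hind' ((rep_self (hq' k)).iso N) (hqd k)
      ((N.comm _ (hq' k) _ (hq' 0)).1 (hqq k)) fun z z0 z1 z2 z3 => by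
        obtain ⟨p, hp⟩ := exists_rep N z0 z1
        rw [← hp.comm N (rep_self (by first | exact hd' | exact hq' _))] at z2 z3 ⊢
        exact hz k p hp.1 z2 z3
    have b0 : β ≠ 0 := fun hb => (hq k).1.2.1 (N.inj _ (hq' k) _ hd' α (by rw [h, hb]; simp))
    exact ⟨β⁻¹ * α, hq' k, β, b0, by
      rw [h, smul_add, smul_smul, ← mul_assoc, mul_inv_cancel₀ b0, one_mul, add_comm]⟩
  choose γ hγ using hs
  have hinj : Function.Injective γ := fun k j h => by
    have h1 : q k = q j := (hγ k).eq N (h ▸ hγ j)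
    obtain ⟨c, hc⟩ := (hq k).prop (h1 ▸ hq j)
    exact pt_inj (he.ne M) hind hc
  have hA : hU (ψ a) (ψ d) ≠ 0 := fun h => hda ((N.comm _ ha' _ hd').2 h).symm
  have hc : ∀ k, Commute a (q k) ↔ γ k = (hU (ψ a) (ψ (q 0)) * (hU (ψ a) (ψ d))⁻¹) ^ 2 := fun k => by
    rw [(rep_self ha').comm N (hγ k), har, hsr]
    revert hA
    generalize hU (ψ a) (ψ d) = s, hU (ψ a) (ψ (q 0)) = t, γ k = g
    revert s t g; decide
  obtain ⟨k, hk⟩ := Finite.surjective_of_injective hinj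
    ((hU (ψ a) (ψ (q 0)) * (hU (ψ a) (ψ d))⁻¹) ^ 2)
  exact ⟨k, (hc k).2 hk, fun j hj => hinj (((hc j).1 hj).trans hk.symm)⟩

end CfsgFI.H6U
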